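import Cfsg.Prelude.Def_SporadicCombinatorics

set_option autoImplicit false
open Cfsg

namespace Cfsg.Agent.Lib.Helper34

theorem sum_zmod3 (f : ZMod 3 → ZMod 3) : ∑ r, f r = f 0 + f 1 + f 2 := Fin.sum_univ_three f

theorem mem_tetracode_iff (t : Fin 4 → ZMod 3) :
    t ∈ tetracode ↔ ∃ a b : ZMod 3, t = ![b, a, a + b, a + 2 * b] := by
  unfold tetracode
  rw [Submodule.mem_span_pair]
  constructor
  · rintro ⟨a, b, rfl⟩
    refine ⟨a, b, ?_⟩
    ext i; fin_cases i <;> simp [mul_comm]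
  · rintro ⟨a, b, rfl⟩
    refine ⟨a, b, ?_⟩
    ext i; fin_cases i <;> simp [mul_comm]

/-- Systematic parity checks of the length-12 ternary code. -/
def Chk (x : ArrayPt → ZMod 3) : Prop :=
  x (0, 0) = 2 * x (1, 2) + 2 * x (2, 2) + 2 * x (3, 0) + 2 * x (3, 1) + x (3, 2) ∧
  x (0, 1) = 2 * x (1, 2) + x (2, 1) + x (2, 2) + x (3, 0) + x (3, 2) ∧
  x (0, 2) = 2 * x (1, 2) + 2 * x (2, 1) + x (3, 0) + 2 * x (3, 1) + 2 * x (3, 2) ∧
  x (1, 0) = x (1, 2) + x (2, 1) + 2 * x (2, 2) + x (3, 0) + 2 * x (3, 1) ∧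
  x (1, 1) = x (1, 2) + 2 * x (2, 1) + x (2, 2) + 2 * x (3, 1) + x (3, 2) ∧
  x (2, 0) = 2 * x (2, 1) + 2 * x (2, 2) + x (3, 0) + x (3, 1) + x (3, 2)

instance decChk : DecidablePred Chk := fun x => by unfold Chk; infer_instance

theorem word_iff (x : ArrayPt → ZMod 3) : IsTernaryGolayWord x ↔
    ∃ s : ZMod 3, (∀ i : Fin 4, x (i, 0) + x (i, 1) + x (i, 2) = -s) ∧
      ∀ a b : ZMod 3, x (0, b) + x (1, a) + x (2, a + b) + x (3, a + 2 * b) = s := by
  unfold IsTernaryGolayWord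
  constructor
  · rintro ⟨s, h1, h2⟩
    refine ⟨s, fun i => ?_, fun a b => ?_⟩
    · rw [← h1 i, sum_zmod3]
    · have := h2 _ ((mem_tetracode_iff _).2 ⟨a, b, rfl⟩)
      rw [Fin.sum_univ_four] at this
      simpa using this
  · rintro ⟨s, h1, h2⟩
    refine ⟨s, fun i => ?_, fun t ht => ?_⟩
    · rw [← h1 i, sum_zmod3]
    · obtain ⟨a, b, rfl⟩ := (mem_tetracode_iff _).1 ht
      rw [Fin.sum_univ_four]
      simpa using h2 a b

theorem mem_code_iff (x : ArrayPt → ZMod 3) : x ∈ ternaryGolayCode ↔ Chk x := by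
  have h3 : (3 : ZMod 3) = 0 := by decide
  change IsTernaryGolayWord x ↔ Chk x
  rw [word_iff]
  constructor
  · rintro ⟨s, hc, ht⟩
    have c0 : x (0, 0) + x (0, 1) + x (0, 2) = -s := hc 0
    have c1 : x (1, 0) + x (1, 1) + x (1, 2) = -s := hc 1
    have c2 : x (2, 0) + x (2, 1) + x (2, 2) = -s := hc 2
    have t00 : x (0, 0) + x (1, 0) + x (2, 0) + x (3, 0) = s := ht 0 0
    have t01 : x (0, 1) + x (1, 0) + x (2, 1) + x (3, 2) = s := ht 0 1
    have t02 : x (0, 2) + x (1, 0) + x (2, 2) + x (3, 1) = s := ht 0 2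
    have t10 : x (0, 0) + x (1, 1) + x (2, 1) + x (3, 1) = s := ht 1 0
    refine ⟨?_, ?_, ?_, ?_, ?_, ?_⟩
    · linear_combination (1) * c0 + (1) * c1 + (2) * c2 + (1) * t00 + (2) * t01 + (2) * t02 + (2) * t10 + ((-1) * x (0, 0) + (-1) * x (0, 1) + (-1) * x (0, 2) + (-2) * x (1, 0) + (-1) * x (1, 1) + (-1) * x (1, 2) + (-1) * x (2, 0) + (-2) * x (2, 1) + (-2) * x (2, 2) + (-1) * x (3, 0) + (-2) * x (3, 1) + (-1) * x (3, 2) + (1) * s) * h3
    · linear_combination (2) * c0 + (1) * c1 + (1) * c2 + (2) * t00 + (2) * t01 + (1) * t02 + (2) * t10 + ((-2) * x (0, 0) + (-1) * x (0, 1) + (-1) * x (0, 2) + (-2) * x (1, 0) + (-1) * x (1, 1) + (-1) * x (1, 2) + (-1) * x (2, 0) + (-2) * x (2, 1) + (-1) * x (2, 2) + (-1) * x (3, 0) + (-1) * x (3, 1) + (-1) * x (3, 2) + (1) * s) * h3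
    · linear_combination (2) * c0 + (1) * c1 + (1) * c2 + (2) * t00 + (1) * t01 + (2) * t02 + (2) * t10 + ((-2) * x (0, 0) + (-1) * x (0, 1) + (-1) * x (0, 2) + (-2) * x (1, 0) + (-1) * x (1, 1) + (-1) * x (1, 2) + (-1) * x (2, 0) + (-2) * x (2, 1) + (-1) * x (2, 2) + (-1) * x (3, 0) + (-2) * x (3, 1) + (-1) * x (3, 2) + (1) * s) * h3
    · linear_combination (2) * c1 + (1) * c2 + (2) * t00 + (1) * t10 + ((-1) * x (0, 0) + (-1) * x (1, 0) + (-1) * x (1, 1) + (-1) * x (1, 2) + (-1) * x (2, 0) + (-1) * x (2, 1) + (-1) * x (2, 2) + (-1) * x (3, 0) + (-1) * x (3, 1)) * h3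
    · linear_combination (1) * c0 + (2) * c1 + (2) * t01 + (2) * t02 + (2) * t10 + ((-1) * x (0, 0) + (-1) * x (0, 1) + (-1) * x (0, 2) + (-2) * x (1, 0) + (-1) * x (1, 1) + (-1) * x (1, 2) + (-2) * x (2, 1) + (-1) * x (2, 2) + (-2) * x (3, 1) + (-1) * x (3, 2) + (1) * s) * h3
    · linear_combination (1) * c0 + (2) * c2 + (2) * t00 + (2) * t01 + (2) * t02 + ((-1) * x (0, 0) + (-1) * x (0, 1) + (-1) * x (0, 2) + (-2) * x (1, 0) + (-1) * x (2, 0) + (-2) * x (2, 1) + (-2) * x (2, 2) + (-1) * x (3, 0) + (-1) * x (3, 1) + (-1) * x (3, 2) + (1) * s) * h3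
  · rintro ⟨e0, e1, e2, e3, e4, e6⟩
    refine ⟨-(x (3, 0) + x (3, 1) + x (3, 2)), fun i => ?_, fun a b => ?_⟩
    · fin_cases i
      · change x (0, 0) + x (0, 1) + x (0, 2) = _
        linear_combination (1) * e0 + (1) * e1 + (1) * e2 + ((2) * x (1, 2) + (1) * x (2, 1) + (1) * x (2, 2) + (1) * x (3, 0) + (1) * x (3, 1) + (1) * x (3, 2)) * h3
      · change x (1, 0) + x (1, 1) + x (1, 2) = _
        linear_combination (1) * e3 + (1) * e4 + ((1) * x (1, 2) + (1) * x (2, 1) + (1) * x (2, 2) + (1) * x (3, 1)) * h3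
      · change x (2, 0) + x (2, 1) + x (2, 2) = _
        linear_combination (1) * e6 + ((1) * x (2, 1) + (1) * x (2, 2)) * h3
      · change x (3, 0) + x (3, 1) + x (3, 2) = _
        ring
    · fin_cases a <;> fin_cases b
      · change x (0, 0) + x (1, 0) + x (2, 0) + x (3, 0) = _
        linear_combination (1) * e0 + (1) * e3 + (1) * e6 + ((1) * x (1, 2) + (1) * x (2, 1) + (2) * x (2, 2) + (2) * x (3, 0) + (2) * x (3, 1) + (1) * x (3, 2)) * h3
      · change x (0, 1) + x (1, 0) + x (2, 1) + x (3, 2) = _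
        linear_combination (1) * e1 + (1) * e3 + ((1) * x (1, 2) + (1) * x (2, 1) + (1) * x (2, 2) + (1) * x (3, 0) + (1) * x (3, 1) + (1) * x (3, 2)) * h3
      · change x (0, 2) + x (1, 0) + x (2, 2) + x (3, 1) = _
        linear_combination (1) * e2 + (1) * e3 + ((1) * x (1, 2) + (1) * x (2, 1) + (1) * x (2, 2) + (1) * x (3, 0) + (2) * x (3, 1) + (1) * x (3, 2)) * h3
      · change x (0, 0) + x (1, 1) + x (2, 1) + x (3, 1) = _
        linear_combination (1) * e0 + (1) * e4 + ((1) * x (1, 2) + (1) * x (2, 1) + (1) * x (2, 2) + (1) * x (3, 0) + (2) * x (3, 1) + (1) * x (3, 2)) * h3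
      · change x (0, 1) + x (1, 1) + x (2, 2) + x (3, 0) = _
        linear_combination (1) * e1 + (1) * e4 + ((1) * x (1, 2) + (1) * x (2, 1) + (1) * x (2, 2) + (1) * x (3, 0) + (1) * x (3, 1) + (1) * x (3, 2)) * h3
      · change x (0, 2) + x (1, 1) + x (2, 0) + x (3, 2) = _
        linear_combination (1) * e2 + (1) * e4 + (1) * e6 + ((1) * x (1, 2) + (2) * x (2, 1) + (1) * x (2, 2) + (1) * x (3, 0) + (2) * x (3, 1) + (2) * x (3, 2)) * h3
      · change x (0, 0) + x (1, 2) + x (2, 2) + x (3, 2) = _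
        linear_combination (1) * e0 + ((1) * x (1, 2) + (1) * x (2, 2) + (1) * x (3, 0) + (1) * x (3, 1) + (1) * x (3, 2)) * h3
      · change x (0, 1) + x (1, 2) + x (2, 0) + x (3, 1) = _
        linear_combination (1) * e1 + (1) * e6 + ((1) * x (1, 2) + (1) * x (2, 1) + (1) * x (2, 2) + (1) * x (3, 0) + (1) * x (3, 1) + (1) * x (3, 2)) * h3
      · change x (0, 2) + x (1, 2) + x (2, 1) + x (3, 0) = _
        linear_combination (1) * e2 + ((1) * x (1, 2) + (1) * x (2, 1) + (1) * x (3, 0) + (1) * x (3, 1) + (1) * x (3, 2)) * h3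

/-- Parameter space: the six information coordinates. -/
abbrev P6 : Type := ZMod 3 × ZMod 3 × ZMod 3 × ZMod 3 × ZMod 3 × ZMod 3

/-- Systematic encoder. -/
def enc (a : P6) : ArrayPt → ZMod 3 := fun p =>
  (![![2 * a.1 + 2 * a.2.2.1 + 2 * a.2.2.2.1 + 2 * a.2.2.2.2.1 + a.2.2.2.2.2,
       2 * a.1 + a.2.1 + a.2.2.1 + a.2.2.2.1 + a.2.2.2.2.2,
       2 * a.1 + 2 * a.2.1 + a.2.2.2.1 + 2 * a.2.2.2.2.1 + 2 * a.2.2.2.2.2],
     ![a.1 + a.2.1 + 2 * a.2.2.1 + a.2.2.2.1 + 2 * a.2.2.2.2.1,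
       a.1 + 2 * a.2.1 + a.2.2.1 + 2 * a.2.2.2.2.1 + a.2.2.2.2.2,
       a.1],
     ![2 * a.2.1 + 2 * a.2.2.1 + a.2.2.2.1 + a.2.2.2.2.1 + a.2.2.2.2.2,
       a.2.1,
       a.2.2.1],
     ![a.2.2.2.1, a.2.2.2.2.1, a.2.2.2.2.2]] : Fin 4 → Fin 3 → ZMod 3) p.1 p.2

/-- Information coordinates of a word. -/
def info (x : ArrayPt → ZMod 3) : P6 :=
  (x (1, 2), x (2, 1), x (2, 2), x (3, 0), x (3, 1), x (3, 2))

theorem info_enc (a : P6) : info (enc a) = a := rfl

theorem enc_injective : Function.Injective enc := fun a b h => by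
  rw [← info_enc a, ← info_enc b, h]

theorem chk_iff (x : ArrayPt → ZMod 3) : Chk x ↔ x = enc (info x) := by
  constructor
  · rintro ⟨e0, e1, e2, e3, e4, e6⟩
    funext ⟨i, r⟩
    fin_cases i <;> fin_cases r
    · exact e0
    · exact e1
    · exact e2
    · exact e3
    · exact e4
    · rfl
    · exact e6
    · rfl
    · rfl
    · rfl
    · rfl
    · rfl
  · intro h
    exact ⟨congrFun h (0, 0), congrFun h (0, 1), congrFun h (0, 2), congrFun h (1, 0),
      congrFun h (1, 1), congrFun h (2, 0)⟩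

theorem enc_mem (a : P6) : enc a ∈ ternaryGolayCode := by
  rw [mem_code_iff, chk_iff, info_enc]

theorem mem_code_iff_enc (x : ArrayPt → ZMod 3) : x ∈ ternaryGolayCode ↔ ∃ a, enc a = x := by
  constructor
  · intro h
    rw [mem_code_iff, chk_iff] at h
    exact ⟨_, h.symm⟩
  · rintro ⟨a, rfl⟩
    exact enc_mem a

/-- Weight of the encoded word. -/
def wt (a : P6) : ℕ := (ternarySupport (enc a)).card

theorem count6 : (Finset.univ.filter fun a : P6 => wt a = 6).card = 264 := by decide +kernel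

theorem count9 : (Finset.univ.filter fun a : P6 => wt a = 9).card = 440 := by decide +kernel

theorem count12 : (Finset.univ.filter fun a : P6 => wt a = 12).card = 24 := by decide +kernel

theorem wt_cases : ∀ a : P6, a ≠ 0 → wt a = 6 ∨ wt a = 9 ∨ wt a = 12 := by decide +kernel

theorem enc_zero : enc 0 = 0 := by
  funext ⟨i, r⟩
  fin_cases i <;> fin_cases r <;> rfl

theorem ncard_wt (n : ℕ) :
    {x : ArrayPt → ZMod 3 | x ∈ ternaryGolayCode ∧ (ternarySupport x).card = n}.ncard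
      = (Finset.univ.filter fun a : P6 => wt a = n).card := by
  have : {x : ArrayPt → ZMod 3 | x ∈ ternaryGolayCode ∧ (ternarySupport x).card = n}
      = enc '' (↑(Finset.univ.filter fun a : P6 => wt a = n) : Set P6) := by
    ext x
    simp only [Set.mem_setOf_eq, Set.mem_image, Finset.coe_filter, Finset.mem_univ, true_and]
    constructor
    · rintro ⟨hx, hn⟩
      obtain ⟨a, rfl⟩ := (mem_code_iff_enc x).1 hx
      exact ⟨a, hn, rfl⟩
    · rintro ⟨a, hn, rfl⟩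
      exact ⟨enc_mem a, hn⟩
  rw [this, Set.ncard_image_of_injective _ enc_injective, Set.ncard_coe_finset]

/-- The code is in bijection with the parameter space. -/
noncomputable def encEquiv : P6 ≃ ↥ternaryGolayCode :=
  Equiv.ofBijective (fun a => ⟨enc a, enc_mem a⟩)
    ⟨fun a b h => enc_injective (congrArg Subtype.val h),
     fun x => by
      obtain ⟨a, ha⟩ := (mem_code_iff_enc x.1).1 x.2
      exact ⟨a, Subtype.ext ha⟩⟩

theorem card_code : Nat.card ↥ternaryGolayCode = 729 := by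
  rw [← Nat.card_congr encEquiv, Nat.card_eq_fintype_card]
  decide +kernel

end Cfsg.Agent.Lib.Helper34
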