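import Cfsg.Agent.Lib.Helper34.SU5Fld
import Cfsg.Agent.Lib.Helper50.GUConj
import Cfsg.Prelude.Def_GeometricClasses
import Cfsg.Prelude.Def_LieClassical

set_option autoImplicit false

/-! `SU_5(2)`: a field subalgebra of degree 5 closed under adjoints contains an element of order 11 of `SU_5(2)`
generating a subgroup normalised by the normaliser of the subalgebra. -/

namespace Cfsg.Agent.Lib.Helper34.SU5

open Cfsg Cfsg.Geo Matrix
open Cfsg.Agent.Lib.Helper50.GUConj

variable {F : Type*} [Field F] [Fintype F]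

theorem kp_hF (hF : Fintype.card F = 4) : Fintype.card F = 2 ^ 2 := by rw [hF]; norm_num

theorem kp_pow4 (hF : Fintype.card F = 4) (a : F) : a ^ 4 = a := by
  rw [← hF]; exact FiniteField.pow_card a

theorem kp_adj (hF : Fintype.card F = 4) (k k' : Matrix (Fin 5) (Fin 5) F)
    (h : ∀ u v : Fin 5 → F, hermForm 5 F 2 (k *ᵥ u) v = hermForm 5 F 2 u (k' *ᵥ v)) :
    k' = dag (kp_hF hF) k := by
  ext j i
  have e := h (Pi.single j 1) (Pi.single i 1)
  have e1 : hermForm 5 F 2 (k *ᵥ Pi.single j 1) (Pi.single i 1) = k i j := by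
    unfold hermForm
    rw [Finset.sum_eq_single i]
    · simp
    · intro l _ hl
      simp [Pi.single_eq_of_ne hl]
    · intro hi; exact absurd (Finset.mem_univ i) hi
  have e2 : hermForm 5 F 2 (Pi.single j 1) (k' *ᵥ Pi.single i 1) = (k' j i) ^ 2 := by
    unfold hermForm
    rw [Finset.sum_eq_single j]
    · simp
    · intro l _ hl
      simp [Pi.single_eq_of_ne hl]
    · intro hj; exact absurd (Finset.mem_univ j) hj
  rw [e1, e2] at e
  rw [dag_apply, e, ← pow_mul]
  exact (kp_pow4 hF _).symm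

theorem exists_x (hF : Fintype.card F = 4) (K : Subalgebra F (Matrix (Fin 5) (Fin 5) F))
    (hK : Cfsg.Geo.IsFieldSubalgebra 5 K) (hadj : Cfsg.Geo.IsAdjointClosedFor (Cfsg.hermForm 5 F 2) K) :
    ∃ x : Matrix.GeneralLinearGroup (Fin 5) F, orderOf x = 11 ∧
      x ∈ Cfsg.GU 5 F 2 ⊓ Cfsg.Geo.specialLinear (Fin 5) F ∧
      ∀ g ∈ Cfsg.Geo.subalgebraNormalizer K, g * x * g⁻¹ ∈ Subgroup.zpowers x := by
  classical
  have hq := kp_hF hF
  have hfld : IsField K :=
    { exists_pair_ne := ⟨0, 1, fun h => by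
        have h1 : (0 : Matrix (Fin 5) (Fin 5) F) = 1 := congrArg Subtype.val h
        exact zero_ne_one h1⟩
      mul_comm := fun x y => Subtype.ext (hK.comm x.1 x.2 y.1 y.2)
      mul_inv_cancel := fun {x} hx => by
        obtain ⟨y, hy, hxy⟩ := hK.inv x.1 x.2 (fun h => hx (Subtype.ext h))
        exact ⟨⟨y, hy⟩, Subtype.ext hxy⟩ }
  have hdagK : ∀ k ∈ K, dag hq k ∈ K := by
    intro k hk
    obtain ⟨k', hk', h⟩ := hadj k hk
    rw [← kp_adj hF k k' h]
    exact hk'
  have hfin : Finite K := inferInstance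
  have hcard : Nat.card K = 1024 := by
    have h1 : Fintype.card K = Fintype.card F ^ Module.finrank F K := Module.card_eq_pow_finrank
    rw [Nat.card_eq_fintype_card, h1, hF, hK.finrank_eq]
    norm_num
  -- the involution
  let σ : K → K := fun a => ⟨dag hq a.1, hdagK a.1 a.2⟩
  obtain ⟨θ, hθ⟩ := exists_theta hq (K := F)
  let c : K := ⟨Matrix.scalar (Fin 5) θ, by
    have : Matrix.scalar (Fin 5) θ = algebraMap F (Matrix (Fin 5) (Fin 5) F) θ := rfl
    rw [this]; exact K.algebraMap_mem θ⟩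
  have hc : σ c ≠ c := by
    intro h
    have h1 : dag hq (Matrix.scalar (Fin 5) θ) = Matrix.scalar (Fin 5) θ := congrArg Subtype.val h
    rw [dag_scalar] at h1
    have h2 := congrFun (congrFun h1 0) 0
    simp at h2
    exact hθ h2
  obtain ⟨u, hu, hu1⟩ := @fld_exists K hfld.toField hfin hcard
  have hnorm : u * σ u = 1 := @fld_norm K hfld.toField hfin hcard σ
    (fun a b => Subtype.ext (dag_add hq a.1 b.1))
    (fun a b => Subtype.ext (by
      show dag hq (a.1 * b.1) = dag hq a.1 * dag hq b.1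
      rw [dag_mul]
      exact hK.comm _ (hdagK b.1 b.2) _ (hdagK a.1 a.2)))
    (Subtype.ext (dag_one hq))
    (fun a => Subtype.ext (dag_dag hq a.1)) c hc u hu
  have hU11 : u.1 ^ 11 = 1 := by
    have := congrArg Subtype.val hu
    simpa using this
  have hU1 : u.1 ≠ 1 := fun h => hu1 (Subtype.ext h)
  have hUd : u.1 * dag hq u.1 = 1 := congrArg Subtype.val hnorm
  let x : Matrix.GeneralLinearGroup (Fin 5) F :=
    ⟨u.1, u.1 ^ 10, by rw [← pow_succ', hU11], by rw [← pow_succ, hU11]⟩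
  have hxv : (x : Matrix (Fin 5) (Fin 5) F) = u.1 := rfl
  have hx11 : x ^ 11 = 1 := by
    apply Units.ext
    rw [Units.val_pow_eq_pow_val, hxv, hU11, Units.val_one]
  have hx1 : x ≠ 1 := by
    intro h
    exact hU1 (by rw [← hxv, h, Units.val_one])
  haveI : Fact (Nat.Prime 11) := ⟨by norm_num⟩
  refine ⟨x, orderOf_eq_prime hx11 hx1, ⟨?_, ?_⟩, ?_⟩
  · show x ∈ Cfsg.GU 5 F 2
    rw [mem_GU_iff_dag hq, hxv]
    exact mul_eq_one_comm.1 hUd
  · show x ∈ (Matrix.GeneralLinearGroup.det : Matrix.GeneralLinearGroup (Fin 5) F →* Fˣ).ker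
    rw [MonoidHom.mem_ker]
    set d := Matrix.GeneralLinearGroup.det x with hd
    have h11 : d ^ 11 = 1 := by rw [hd, ← map_pow, hx11, map_one]
    have h3 : d ^ 3 = 1 := by
      have h4 : Fintype.card Fˣ = 3 := by rw [Fintype.card_units, hF]
      rw [← h4]; exact pow_card_eq_one
    have := pow_gcd_eq_one.2 ⟨h11, h3⟩
    simpa using this
  · intro g hg
    have hT : (g : Matrix (Fin 5) (Fin 5) F) * u.1 *
        ((g⁻¹ : Matrix.GeneralLinearGroup (Fin 5) F) : Matrix (Fin 5) (Fin 5) F) ∈ K := (hg u.1).1 u.2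
    have hTv : ((g * x * g⁻¹ : Matrix.GeneralLinearGroup (Fin 5) F) : Matrix (Fin 5) (Fin 5) F) =
        (g : Matrix (Fin 5) (Fin 5) F) * u.1 *
        ((g⁻¹ : Matrix.GeneralLinearGroup (Fin 5) F) : Matrix (Fin 5) (Fin 5) F) := rfl
    have hT11 : (g * x * g⁻¹) ^ 11 = 1 := by rw [conj_pow, hx11, mul_one, mul_inv_cancel]
    let t : K := ⟨_, hT⟩
    have ht : t ^ 11 = 1 := by
      apply Subtype.ext
      show ((t ^ 11 : K) : Matrix (Fin 5) (Fin 5) F) = 1
      rw [SubmonoidClass.coe_pow]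
      show ((g : Matrix (Fin 5) (Fin 5) F) * u.1 *
        ((g⁻¹ : Matrix.GeneralLinearGroup (Fin 5) F) : Matrix (Fin 5) (Fin 5) F)) ^ 11 = 1
      rw [← hTv, ← Units.val_pow_eq_pow_val, hT11, Units.val_one]
    obtain ⟨k, hk⟩ := @fld_roots K hfld.toField u t hu hu1 ht
    rw [Subgroup.mem_zpowers_iff]
    refine ⟨(k : ℤ), ?_⟩
    rw [zpow_natCast]
    apply Units.ext
    rw [Units.val_pow_eq_pow_val, hxv, hTv]
    have := congrArg Subtype.val hk
    rw [SubmonoidClass.coe_pow] at this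
    exact this.symm

end Cfsg.Agent.Lib.Helper34.SU5
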