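import Cfsg.Agent.S3377

set_option autoImplicit false

/-! Subgroups isomorphic to `A₅` are the subgroups generated by a `(3,5,2)` pair. -/

namespace Cfsg.Agent.Lib.Helper34

abbrev a5rels : Set (FreeGroup (Fin 2)) :=
  {FreeGroup.of (0 : Fin 2) ^ 3, FreeGroup.of (1 : Fin 2) ^ 5, (FreeGroup.of (0 : Fin 2) * FreeGroup.of 1) ^ 2}

theorem a5pres_range {G : Type*} [Group G] (θ : PresentedGroup a5rels →* G) :
    θ.range = Subgroup.closure {θ (PresentedGroup.of 0), θ (PresentedGroup.of 1)} := by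
  rw [MonoidHom.range_eq_map, ← PresentedGroup.closure_range_of, MonoidHom.map_closure, ← Set.range_comp]
  congr 1
  ext x
  simp only [Set.mem_range, Function.comp_apply, Fin.exists_fin_two, Set.mem_insert_iff,
    Set.mem_singleton_iff, eq_comm]

theorem card_a5 : Nat.card (alternatingGroup (Fin 5)) = 60 := by
  rw [nat_card_alternatingGroup]
  simp [Nat.factorial]

theorem a5_of_pair {G : Type*} [Group G] (u v : G) (h3 : u ^ 3 = 1) (h5 : v ^ 5 = 1)
    (h2 : (u * v) ^ 2 = 1) (hu : u ≠ 1) :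
    Nonempty (↥(Subgroup.closure {u, v}) ≃* alternatingGroup (Fin 5)) := by
  obtain ⟨e⟩ := Cfsg.Agent.S3377.result
  have hrel : ∀ r ∈ a5rels, FreeGroup.lift ![u, v] r = 1 := by
    rintro r (rfl | rfl | rfl) <;> simp [h3, h5, h2]
  let φ : PresentedGroup a5rels →* G := PresentedGroup.toGroup hrel
  have hφ0 : φ (PresentedGroup.of 0) = u := by
    simp [φ, PresentedGroup.toGroup.of]
  have hφ1 : φ (PresentedGroup.of 1) = v := by
    simp [φ, PresentedGroup.toGroup.of]
  let ψ : alternatingGroup (Fin 5) →* G := φ.comp e.symm.toMonoidHom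
  have hs : IsSimpleGroup (alternatingGroup (Fin 5)) := alternatingGroup.isSimpleGroup_five
  have hinj : Function.Injective ψ := by
    rw [← MonoidHom.ker_eq_bot_iff]
    rcases hs.eq_bot_or_eq_top_of_normal ψ.ker inferInstance with h | h
    · exact h
    · exfalso
      apply hu
      have h1 : e (PresentedGroup.of 0) ∈ ψ.ker := by rw [h]; trivial
      rw [MonoidHom.mem_ker] at h1
      have h4 : ψ (e (PresentedGroup.of 0)) = φ (PresentedGroup.of 0) := by
        simp [ψ]
      rw [← hφ0, ← h4, h1]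
  have hr : ψ.range = Subgroup.closure {u, v} := by
    have h1 : ψ.range = φ.range := by
      apply le_antisymm
      · rintro _ ⟨x, rfl⟩
        exact ⟨e.symm x, rfl⟩
      · rintro _ ⟨x, rfl⟩
        exact ⟨e x, by simp [ψ]⟩
    rw [h1, a5pres_range, hφ0, hφ1]
  exact ⟨((MonoidHom.ofInjective hinj).trans (MulEquiv.subgroupCongr hr)).symm⟩

theorem pair_of_a5 {G : Type*} [Group G] (L : Subgroup G) (e' : ↥L ≃* alternatingGroup (Fin 5)) :
    ∃ u v : G, u ^ 3 = 1 ∧ v ^ 5 = 1 ∧ (u * v) ^ 2 = 1 ∧ u ≠ 1 ∧ L = Subgroup.closure {u, v} := by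
  obtain ⟨e⟩ := Cfsg.Agent.S3377.result
  let θ : PresentedGroup a5rels →* G := L.subtype.comp (e'.symm.toMonoidHom.comp e.toMonoidHom)
  have hr : θ.range = L := by
    apply le_antisymm
    · rintro _ ⟨x, rfl⟩
      exact (e'.symm (e x)).2
    · intro x hx
      exact ⟨e.symm (e' ⟨x, hx⟩), by simp [θ]⟩
  have r3 : (PresentedGroup.of (0 : Fin 2) : PresentedGroup a5rels) ^ 3 = 1 := by
    have : (PresentedGroup.mk a5rels (FreeGroup.of (0 : Fin 2) ^ 3)) = 1 :=
      PresentedGroup.one_of_mem (by simp)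
    rw [map_pow] at this
    exact this
  have r5 : (PresentedGroup.of (1 : Fin 2) : PresentedGroup a5rels) ^ 5 = 1 := by
    have : (PresentedGroup.mk a5rels (FreeGroup.of (1 : Fin 2) ^ 5)) = 1 :=
      PresentedGroup.one_of_mem (by simp)
    rw [map_pow] at this
    exact this
  have r2 : ((PresentedGroup.of (0 : Fin 2) : PresentedGroup a5rels) * PresentedGroup.of 1) ^ 2 = 1 := by
    have : (PresentedGroup.mk a5rels ((FreeGroup.of (0 : Fin 2) * FreeGroup.of 1) ^ 2)) = 1 :=
      PresentedGroup.one_of_mem (by simp)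
    rw [map_pow, map_mul] at this
    exact this
  have hL : L = Subgroup.closure {θ (PresentedGroup.of 0), θ (PresentedGroup.of 1)} := by
    rw [← a5pres_range, hr]
  have h3 : θ (PresentedGroup.of 0) ^ 3 = 1 := by rw [← map_pow, r3, map_one]
  have h5 : θ (PresentedGroup.of 1) ^ 5 = 1 := by rw [← map_pow, r5, map_one]
  have h2 : (θ (PresentedGroup.of 0) * θ (PresentedGroup.of 1)) ^ 2 = 1 := by
    rw [← map_mul, ← map_pow, r2, map_one]
  refine ⟨_, _, h3, h5, h2, ?_, hL⟩
  intro hu
  rw [hu, one_mul] at h2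
  have hv : θ (PresentedGroup.of 1) = 1 := by
    have : θ (PresentedGroup.of 1) ^ 5 = (θ (PresentedGroup.of 1) ^ 2) ^ 2 * θ (PresentedGroup.of 1) := by
      group
    rw [h5, h2, one_pow, one_mul] at this
    exact this.symm
  rw [hu, hv] at hL
  have hb : L = ⊥ := by
    rw [hL]
    simp
  have hc := Nat.card_congr e'.toEquiv
  rw [card_a5, hb, Subgroup.card_bot] at hc
  omega

end Cfsg.Agent.Lib.Helper34
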