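import Mathlib
import Cfsg.Prelude.Def_ParabolicCharacters

set_option autoImplicit false

namespace Cfsg.Agent.Lib.Helper34

open Matrix

section
variable {F : Type*} [Field F]

/-- the Borel subgroup of SL2 in the shape used by the statement -/
abbrev Bo2 (F : Type*) [Field F] : Subgroup (SpecialLinearGroup (Fin 2) F) :=
  (Cfsg.upperTriangularGL 2 F).comap Matrix.SpecialLinearGroup.toGL

theorem mem_Bo2_iff (g : SpecialLinearGroup (Fin 2) F) :
    g ∈ Bo2 F ↔ (g : Matrix (Fin 2) (Fin 2) F) 1 0 = 0 := by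
  rw [Subgroup.mem_comap]
  change (g : Matrix (Fin 2) (Fin 2) F).BlockTriangular id ↔ _
  constructor
  · intro h
    exact h (show id (0 : Fin 2) < id 1 by decide)
  · intro h i j hij
    fin_cases i <;> fin_cases j <;> simp_all

theorem bo2_det (g : Bo2 F) : g.1.1 0 0 * g.1.1 1 1 = 1 := by
  have h := g.1.2
  rw [Matrix.det_fin_two, (mem_Bo2_iff g.1).1 g.2] at h
  simpa using h

theorem bo2_ne (g : Bo2 F) : g.1.1 0 0 ≠ 0 := left_ne_zero_of_mul_eq_one (bo2_det g)

theorem bo2_11 (g : Bo2 F) : g.1.1 1 1 = (g.1.1 0 0)⁻¹ := eq_inv_of_mul_eq_one_right (bo2_det g)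

/-- parametrisation of the Borel subgroup -/
noncomputable def bo2Equiv : Bo2 F ≃ Fˣ × F where
  toFun g := (Units.mk0 (g.1.1 0 0) (bo2_ne g), g.1.1 0 1)
  invFun x := ⟨(⟨!![(x.1 : F), x.2; 0, (x.1 : F)⁻¹], by
    rw [Matrix.det_fin_two_of]; simp⟩ : SpecialLinearGroup (Fin 2) F), (mem_Bo2_iff _).2 (by simp)⟩
  left_inv g := by
    apply Subtype.ext
    apply Subtype.ext
    ext i j
    fin_cases i <;> fin_cases j
    · simp
    · simp
    · simpa using ((mem_Bo2_iff g.1).1 g.2).symm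
    · simpa using (bo2_11 g).symm
  right_inv x := by
    ext <;> simp

theorem bo2_commute_iff (g h : Bo2 F) :
    Commute g h ↔ g.1.1 0 0 * h.1.1 0 1 + g.1.1 0 1 * (h.1.1 0 0)⁻¹
      = h.1.1 0 0 * g.1.1 0 1 + h.1.1 0 1 * (g.1.1 0 0)⁻¹ := by
  have hg := (mem_Bo2_iff g.1).1 g.2
  have hh := (mem_Bo2_iff h.1).1 h.2
  rw [← bo2_11 g, ← bo2_11 h]
  constructor
  · intro hc
    have h1 : (g * h).1.1 0 1 = (h * g).1.1 0 1 := by rw [hc.eq]
    simpa [Matrix.mul_apply, Fin.sum_univ_two] using h1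
  · intro hc
    apply Subtype.ext
    apply Subtype.ext
    ext i j
    fin_cases i <;> fin_cases j
    · simp [Matrix.mul_apply, Fin.sum_univ_two, hg, hh, mul_comm]
    · simpa [Matrix.mul_apply, Fin.sum_univ_two] using hc
    · simp [Matrix.mul_apply, Fin.sum_univ_two, hg, hh]
    · simp [Matrix.mul_apply, Fin.sum_univ_two, hg, hh, mul_comm]

end

section
variable {F : Type*} [Field F] [Fintype F] [DecidableEq F]

/-- solutions of `d α = b γ` -/
theorem card_lin2 (α γ : F) :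
    Fintype.card {x : F × F // x.2 * α = x.1 * γ}
      = if α = 0 ∧ γ = 0 then Fintype.card F * Fintype.card F else Fintype.card F := by
  split_ifs with h
  · obtain ⟨rfl, rfl⟩ := h
    rw [Fintype.card_congr (Equiv.subtypeUnivEquiv (fun x => by simp)), Fintype.card_prod]
  · by_cases hα : α = 0
    · have hγ : γ ≠ 0 := fun h' => h ⟨hα, h'⟩
      subst hα
      refine Fintype.card_congr ⟨fun x => x.1.2, fun d => ⟨(0, d), by simp⟩, ?_, ?_⟩
      · rintro ⟨⟨b, d⟩, hx⟩
        have : b = 0 := by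
          have h2 : b * γ = 0 := by simpa using hx.symm
          exact (mul_eq_zero.1 h2).resolve_right hγ
        subst this
        rfl
      · intro d
        rfl
    · refine Fintype.card_congr ⟨fun x => x.1.1, fun b => ⟨(b, b * γ / α), by
        show b * γ / α * α = b * γ
        field_simp⟩, ?_, ?_⟩
      · rintro ⟨⟨b, d⟩, hx⟩
        apply Subtype.ext
        have hx' : d * α = b * γ := hx
        show (b, b * γ / α) = (b, d)
        rw [← hx']
        congr 1
        field_simp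
      · intro b
        rfl

theorem one_ne_neg_one_of_odd (hodd : Odd (Fintype.card F)) : (1 : Fˣ) ≠ -1 := by
  intro h
  have h1 : (1 : F) = -1 := by
    have := congrArg (fun u : Fˣ => (u : F)) h
    simpa using this
  have h2 : (2 : F) = 0 := by linear_combination h1
  have h3 : ringChar F = 2 := CharP.ringChar_of_prime_eq_zero Nat.prime_two (by exact_mod_cast h2)
  have h4 := FiniteField.even_card_of_char_two h3
  rcases hodd with ⟨k, hk⟩
  omega

theorem unit_sub_inv_eq_zero (a : Fˣ) : (a : F) - (a : F)⁻¹ = 0 ↔ a = 1 ∨ a = -1 := by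
  have ha : (a : F) ≠ 0 := a.ne_zero
  constructor
  · intro h
    have h1 : ((a : F) - 1) * ((a : F) + 1) = 0 := by
      have : (a : F) * ((a : F) - (a : F)⁻¹) = 0 := by rw [h, mul_zero]
      rw [mul_sub, mul_inv_cancel₀ ha] at this
      linear_combination this
    rcases mul_eq_zero.1 h1 with h2 | h2
    · left
      ext
      simpa using sub_eq_zero.1 h2
    · right
      ext
      simpa using eq_neg_of_add_eq_zero_left h2
  · rintro (rfl | rfl) <;> simp

/-- number of commuting pairs, in coordinates -/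
theorem card_comm_coord (hodd : Odd (Fintype.card F)) :
    Fintype.card {x : (Fˣ × F) × (Fˣ × F) // (x.1.1 : F) * x.2.2 + x.1.2 * (x.2.1 : F)⁻¹
        = (x.2.1 : F) * x.1.2 + x.2.2 * (x.1.1 : F)⁻¹}
      = (Fintype.card F + 3) * (Fintype.card Fˣ * Fintype.card F) := by
  have e : {x : (Fˣ × F) × (Fˣ × F) // (x.1.1 : F) * x.2.2 + x.1.2 * (x.2.1 : F)⁻¹
        = (x.2.1 : F) * x.1.2 + x.2.2 * (x.1.1 : F)⁻¹}
      ≃ Σ ac : Fˣ × Fˣ, {bd : F × F // bd.2 * ((ac.1 : F) - (ac.1 : F)⁻¹)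
          = bd.1 * ((ac.2 : F) - (ac.2 : F)⁻¹)} :=
    { toFun := fun x => ⟨(x.1.1.1, x.1.2.1), ⟨(x.1.1.2, x.1.2.2), by
        have := x.2
        show x.1.2.2 * ((x.1.1.1 : F) - (x.1.1.1 : F)⁻¹) = x.1.1.2 * ((x.1.2.1 : F) - (x.1.2.1 : F)⁻¹)
        linear_combination this⟩⟩
      invFun := fun s => ⟨((s.1.1, s.2.1.1), (s.1.2, s.2.1.2)), by
        have := s.2.2
        show (s.1.1 : F) * s.2.1.2 + s.2.1.1 * (s.1.2 : F)⁻¹ = (s.1.2 : F) * s.2.1.1 + s.2.1.2 * (s.1.1 : F)⁻¹
        linear_combination this⟩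
      left_inv := fun x => rfl
      right_inv := fun s => rfl }
  rw [Fintype.card_congr e, Fintype.card_sigma]
  simp only [card_lin2]
  have hq : Fintype.card F = Fintype.card Fˣ + 1 := by
    rw [Fintype.card_units]
    have := Fintype.card_pos (α := F)
    omega
  set m := Fintype.card Fˣ with hm
  set q := Fintype.card F with hq'
  have h1 : ∀ ac : Fˣ × Fˣ, (if (ac.1 : F) - (ac.1 : F)⁻¹ = 0 ∧ (ac.2 : F) - (ac.2 : F)⁻¹ = 0 then q * q else q)
      = q + if ac ∈ (({1, -1} : Finset Fˣ) ×ˢ ({1, -1} : Finset Fˣ)) then q * m else 0 := by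
    intro ac
    have : ((ac.1 : F) - (ac.1 : F)⁻¹ = 0 ∧ (ac.2 : F) - (ac.2 : F)⁻¹ = 0)
        ↔ ac ∈ (({1, -1} : Finset Fˣ) ×ˢ ({1, -1} : Finset Fˣ)) := by
      rw [unit_sub_inv_eq_zero, unit_sub_inv_eq_zero]
      simp [Finset.mem_product]
    by_cases hc : ac ∈ (({1, -1} : Finset Fˣ) ×ˢ ({1, -1} : Finset Fˣ))
    · rw [if_pos (this.2 hc), if_pos hc, hq]
      ring
    · rw [if_neg (fun h => hc (this.1 h)), if_neg hc]
      rfl
  rw [Finset.sum_congr rfl (fun ac _ => h1 ac), Finset.sum_add_distrib, Finset.sum_const,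
    Finset.sum_ite_mem, Finset.sum_const, Finset.univ_inter, Finset.card_product,
    Finset.card_pair (one_ne_neg_one_of_odd hodd), Finset.card_univ, Fintype.card_prod, ← hm]
  simp only [smul_eq_mul]
  rw [hq]
  ring

end

/-- the number of classes of the Borel subgroup of `SL₂(q)`, `q` odd -/
theorem card_conjClasses_bo2 {F : Type*} [Field F] [Fintype F] (hodd : Odd (Fintype.card F)) :
    Nat.card (ConjClasses (Bo2 F)) = Fintype.card F + 3 := by
  classical
  have h1 := card_comm_eq_card_conjClasses_mul_card (Bo2 F)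
  have e : { p : Bo2 F × Bo2 F // Commute p.1 p.2 } ≃
      {x : (Fˣ × F) × (Fˣ × F) // (x.1.1 : F) * x.2.2 + x.1.2 * (x.2.1 : F)⁻¹
        = (x.2.1 : F) * x.1.2 + x.2.2 * (x.1.1 : F)⁻¹} :=
    Equiv.subtypeEquiv (bo2Equiv.prodCongr bo2Equiv) (fun p => bo2_commute_iff p.1 p.2)
  rw [Nat.card_congr e, Nat.card_eq_fintype_card, card_comm_coord hodd,
    Nat.card_congr (bo2Equiv (F := F)), Nat.card_eq_fintype_card (α := Fˣ × F), Fintype.card_prod] at h1
  have hpos : 0 < Fintype.card Fˣ * Fintype.card F :=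
    Nat.mul_pos Fintype.card_pos Fintype.card_pos
  exact (Nat.eq_of_mul_eq_mul_right hpos h1).symm

end Cfsg.Agent.Lib.Helper34
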