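import Cfsg.Agent.Lib.Helper34.G168Data
import Cfsg.Agent.Lib.Helper6.SLGen
import Cfsg.Agent.Lib.Helper6.SLCard
import Cfsg.Agent.S0495

set_option autoImplicit false

/-! A coordinate system on a simple group of order 168. -/

namespace Cfsg.Agent.Lib.Helper34

open Cfsg.Agent.Lib.Helper33

def g8 (A k : ℕ) : ℕ := Nat.land (Nat.shiftRight A (Nat.mul 8 k)) 255

/-- the product of two indices -/
def gm (i j : ℕ) : ℕ := g8 g168M (Nat.add (Nat.mul 168 i) j)

/-- the inverse of an index -/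
def gi (i : ℕ) : ℕ := g8 g168I i

/-- the order of an index -/
def go (i : ℕ) : ℕ := fld4 g168O i

/-- the class of an index -/
def gk (i : ℕ) : ℕ := fld4 g168K i

def gbit (a t : ℕ) : ℕ := Nat.land (Nat.shiftRight a t) 1

/-- the matrix of a code -/
def toM3 (a : ℕ) : Matrix (Fin 3) (Fin 3) (ZMod 2) := fun i j => (gbit a (3 * i.1 + j.1) : ZMod 2)

noncomputable def mulChk3 (a b c : ℕ) : Bool :=
  allBelow (fun i => allBelow (fun j => Nat.beq ((gbit a (3 * i + 0) * gbit b (3 * 0 + j) +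
    gbit a (3 * i + 1) * gbit b (3 * 1 + j) + gbit a (3 * i + 2) * gbit b (3 * 2 + j)) % 2)
    (gbit c (3 * i + j) % 2)) 3) 3

theorem mulChk3_spec {a b c : ℕ} (h : mulChk3 a b c = true) : toM3 a * toM3 b = toM3 c := by
  rw [mulChk3, allBelow_iff] at h
  ext i j
  have h1 := Nat.eq_of_beq_eq_true ((allBelow_iff _ _).1 (h i.1 i.2) j.1 j.2)
  have h2 := (ZMod.natCast_eq_natCast_iff' _ _ 2).2 h1
  rw [Matrix.mul_apply, Fin.sum_univ_three]
  simp only [toM3]
  push_cast at h2
  exact h2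

def detN (a : ℕ) : ℕ :=
  gbit a 0 * gbit a 4 * gbit a 8 + gbit a 0 * gbit a 5 * gbit a 7 + gbit a 1 * gbit a 3 * gbit a 8 +
    gbit a 1 * gbit a 5 * gbit a 6 + gbit a 2 * gbit a 3 * gbit a 7 + gbit a 2 * gbit a 4 * gbit a 6

theorem det_toM3 {a : ℕ} (h : detN a % 2 = 1) : (toM3 a).det = 1 := by
  have h2 := (ZMod.natCast_eq_natCast_iff' (detN a) 1 2).2 h
  rw [Matrix.det_fin_three]
  simp only [toM3, CharTwo.sub_eq_add]
  unfold detN at h2
  push_cast at h2
  exact h2

def gcode (i : ℕ) : ℕ := fld12 g168C i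

set_option maxRecDepth 1000000 in
theorem g168_det : ∀ i < 168, detN (gcode i) % 2 = 1 := by decide +kernel

set_option maxRecDepth 1000000 in
theorem g168_mul : allBelow (fun i => allBelow (fun j => Nat.blt (gm i j) 168 &&
    mulChk3 (gcode i) (gcode j) (gcode (gm i j))) 168) 168 = true := by decide +kernel

set_option maxRecDepth 1000000 in
theorem g168_inj : allBelow (fun i => allBelow (fun j => Nat.beq i j ||
    !(allBelow (fun t => Nat.beq (gbit (gcode i) t) (gbit (gcode j) t)) 9)) 168) 168 = true := by decide +kernel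

abbrev SL32 : Type := Matrix.SpecialLinearGroup (Fin 3) (ZMod 2)

noncomputable def gS (i : ℕ) : SL32 := if h : (toM3 (gcode i)).det = 1 then ⟨toM3 (gcode i), h⟩ else 1

theorem gS_val {i : ℕ} (hi : i < 168) : (gS i).1 = toM3 (gcode i) := by
  have hd := det_toM3 (g168_det i hi)
  have e : gS i = ⟨toM3 (gcode i), hd⟩ := dif_pos hd
  rw [e]

theorem gm_lt {i j : ℕ} (hi : i < 168) (hj : j < 168) : gm i j < 168 := by
  have h := (allBelow_iff _ _).1 ((allBelow_iff _ _).1 g168_mul i hi) j hj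
  rw [Bool.and_eq_true] at h
  exact Nat.le_of_ble_eq_true h.1

theorem gS_mul {i j : ℕ} (hi : i < 168) (hj : j < 168) : gS i * gS j = gS (gm i j) := by
  have h := (allBelow_iff _ _).1 ((allBelow_iff _ _).1 g168_mul i hi) j hj
  rw [Bool.and_eq_true] at h
  apply Subtype.ext
  rw [Matrix.SpecialLinearGroup.coe_mul, gS_val hi, gS_val hj, gS_val (gm_lt hi hj)]
  exact mulChk3_spec h.2

theorem gbit_lt (a t : ℕ) : gbit a t < 2 := Nat.lt_succ_of_le Nat.and_le_right

theorem gS_inj : ∀ i < 168, ∀ j < 168, gS i = gS j → i = j := by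
  intro i hi j hj e
  have h := (allBelow_iff _ _).1 ((allBelow_iff _ _).1 g168_inj i hi) j hj
  rw [Bool.or_eq_true] at h
  rcases h with h | h
  · exact Nat.eq_of_beq_eq_true h
  · exfalso
    have h2 : allBelow (fun t => Nat.beq (gbit (gcode i) t) (gbit (gcode j) t)) 9 = true := by
      rw [allBelow_iff]
      intro t ht
      have e1 : toM3 (gcode i) = toM3 (gcode j) := by rw [← gS_val hi, ← gS_val hj, e]
      have e2 := congrFun (congrFun e1 ⟨t / 3, by omega⟩) ⟨t % 3, by omega⟩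
      simp only [toM3] at e2
      rw [Nat.div_add_mod, ZMod.natCast_eq_natCast_iff', Nat.mod_eq_of_lt (gbit_lt _ _),
        Nat.mod_eq_of_lt (gbit_lt _ _)] at e2
      rw [e2]
      exact Nat.beq_refl _
    rw [h2] at h
    exact absurd h (by decide)

theorem g168_sl_simple : IsSimpleGroup SL32 := by
  have : Fact (Nat.Prime 2) := ⟨by norm_num⟩
  have hc : Subgroup.center (Matrix.SpecialLinearGroup (Fin 3) (ZMod 2)) = ⊥ := by
    apply Subgroup.eq_bot_of_card_eq
    rw [Cfsg.Agent.Lib.Helper6.card_center_SL_field (F := ZMod 2) 3 (by norm_num), ZMod.card]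
    rfl
  have e2 : Matrix.ProjectiveSpecialLinearGroup (Fin 3) (ZMod 2) ≃*
      Matrix.SpecialLinearGroup (Fin 3) (ZMod 2) ⧸ (⊥ : Subgroup (Matrix.SpecialLinearGroup (Fin 3) (ZMod 2))) :=
    QuotientGroup.quotientMulEquivOfEq hc
  have hs : IsSimpleGroup (Matrix.ProjectiveSpecialLinearGroup (Fin 3) (ZMod 2)) :=
    Cfsg.Agent.Lib.Helper6.PSL_isSimpleGroup_of_three_le (by simp)
  exact (e2.trans QuotientGroup.quotientBot).symm.isSimpleGroup

theorem g168_key : ∀ s : ZMod 2, s ≠ 0 → s = 1 := by decide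

theorem g168_sl_card : Nat.card SL32 = 168 := by
  have : Fact (Nat.Prime 2) := ⟨by norm_num⟩
  have e : SL32 ≃* GL (Fin 3) (ZMod 2) :=
    MulEquiv.ofBijective Matrix.SpecialLinearGroup.toGL ⟨Matrix.SpecialLinearGroup.toGL_injective, by
      intro A
      have h : IsUnit A.1 := A.isUnit
      rw [Matrix.isUnit_iff_isUnit_det] at h
      exact ⟨⟨A.1, g168_key _ h.ne_zero⟩, Units.ext rfl⟩⟩
  rw [Nat.card_congr e.toEquiv, Matrix.card_GL_field, ZMod.card]
  simp [Fin.prod_univ_three]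

theorem gS_surj : ∀ g : SL32, ∃ i < 168, gS i = g := by
  have hb := (Nat.bijective_iff_injective_and_card (fun i : Fin 168 => gS i.1)).2
    ⟨fun a b e => Fin.ext (gS_inj a.1 a.2 b.1 b.2 e), by rw [g168_sl_card]; simp⟩
  intro g
  obtain ⟨i, hi⟩ := hb.2 g
  exact ⟨i.1, i.2, hi⟩

/-- a coordinate system on a group of order 168 -/
structure Co168 (G : Type*) [Group G] (f : ℕ → G) : Prop where
  surj : ∀ g, ∃ i < 168, f i = g
  inj : ∀ i < 168, ∀ j < 168, f i = f j → i = j
  mul : ∀ i < 168, ∀ j < 168, f i * f j = f (gm i j)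

theorem exists_co168 {G : Type*} [Group G] [Finite G] [IsSimpleGroup G] (h : Nat.card G = 168) :
    ∃ f : ℕ → G, Co168 G f := by
  have : Fact (Nat.Prime 7) := ⟨by norm_num⟩
  have := g168_sl_simple
  obtain ⟨e1⟩ := Cfsg.Agent.S0495.result h (F := ZMod 7) (ZMod.card 7)
  obtain ⟨e2⟩ := Cfsg.Agent.S0495.result g168_sl_card (F := ZMod 7) (ZMod.card 7)
  refine ⟨fun i => (e2.trans e1.symm) (gS i), ?_, ?_, ?_⟩
  · intro g
    obtain ⟨i, hi, e⟩ := gS_surj ((e2.trans e1.symm).symm g)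
    exact ⟨i, hi, by rw [e, MulEquiv.apply_symm_apply]⟩
  · intro i hi j hj e
    exact gS_inj i hi j hj ((e2.trans e1.symm).injective e)
  · intro i hi j hj
    rw [← map_mul, gS_mul hi hj]

def gp (i : ℕ) : ℕ → ℕ
  | 0 => 0
  | (m + 1) => gm (gp i m) i

def gw (i : ℕ) : ℕ := g8 g168W i

def gr (c : ℕ) : ℕ := g8 g168R c

set_option maxRecDepth 1000000 in
theorem g168_inv : ∀ i < 168, gi i < 168 ∧ gm i (gi i) = 0 := by decide +kernel

set_option maxRecDepth 1000000 in
theorem g168_ord : ∀ i < 168, 0 < go i ∧ gp i (go i) = 0 ∧ ∀ m < go i, 0 < m → gp i m ≠ 0 := by decide +kernel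

set_option maxRecDepth 1000000 in
theorem g168_conj : ∀ i < 168, gw i < 168 ∧ gr (gk i) < 168 ∧ gm (gw i) i = gm (gr (gk i)) (gw i) := by
  decide +kernel

set_option maxRecDepth 1000000 in
theorem g168_cls : ∀ u < 168, ∀ i < 168, gk (gm (gm u i) (gi u)) = gk i := by decide +kernel

namespace Co168

variable {G : Type*} [Group G] {f : ℕ → G}

theorem one (h : Co168 G f) : f 0 = 1 := by
  have := h.mul 0 (by norm_num) 0 (by norm_num)
  rw [show gm 0 0 = 0 by decide +kernel] at this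
  exact mul_eq_left.1 this

theorem inv (h : Co168 G f) {i : ℕ} (hi : i < 168) : (f i)⁻¹ = f (gi i) := by
  have h1 := h.mul i hi _ (g168_inv i hi).1
  rw [(g168_inv i hi).2, h.one] at h1
  exact inv_eq_of_mul_eq_one_right h1

theorem gi_lt {i : ℕ} (hi : i < 168) : gi i < 168 := (g168_inv i hi).1

theorem gp_lt {i : ℕ} (hi : i < 168) (m : ℕ) : gp i m < 168 := by
  induction m with
  | zero => show 0 < 168; norm_num
  | succ m ih => exact gm_lt ih hi

theorem pow (h : Co168 G f) {i : ℕ} (hi : i < 168) (m : ℕ) : f i ^ m = f (gp i m) := by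
  induction m with
  | zero => rw [pow_zero]; exact h.one.symm
  | succ m ih =>
    rw [pow_succ, ih, h.mul _ (gp_lt hi m) i hi]
    rfl

theorem eq_one_iff (h : Co168 G f) {i : ℕ} (hi : i < 168) : f i = 1 ↔ i = 0 := by
  constructor
  · intro e
    exact h.inj i hi 0 (by norm_num) (e.trans h.one.symm)
  · rintro rfl
    exact h.one

theorem orderOf_eq (h : Co168 G f) {i : ℕ} (hi : i < 168) : orderOf (f i) = go i := by
  obtain ⟨h1, h2, h3⟩ := g168_ord i hi
  rw [orderOf_eq_iff h1]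
  refine ⟨by rw [h.pow hi, h2, h.one], ?_⟩
  intro m hm hm0 e
  rw [h.pow hi, h.eq_one_iff (gp_lt hi m)] at e
  exact h3 m hm hm0 e

theorem isConj_iff (h : Co168 G f) {i j : ℕ} (hi : i < 168) (hj : j < 168) :
    IsConj (f i) (f j) ↔ gk i = gk j := by
  constructor
  · intro hc
    obtain ⟨c, hc⟩ := _root_.isConj_iff.1 hc
    obtain ⟨u, hu, rfl⟩ := h.surj c
    rw [h.inv hu, h.mul u hu i hi, h.mul _ (gm_lt hu hi) _ (gi_lt hu)] at hc
    have := h.inj _ (gm_lt (gm_lt hu hi) (gi_lt hu)) j hj hc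
    rw [← this, g168_cls u hu i hi]
  · intro e
    have key : ∀ k < 168, IsConj (f k) (f (gr (gk k))) := by
      intro k hk
      obtain ⟨h1, h2, h3⟩ := g168_conj k hk
      apply _root_.isConj_iff.2
      refine ⟨f (gw k), ?_⟩
      rw [h.mul _ h1 k hk, h3, ← h.mul _ h2 _ h1, mul_inv_cancel_right]
    have h1 := key i hi
    have h2 := key j hj
    rw [← e] at h2
    exact h1.trans h2.symm

/-- counting elements with a property -/
theorem card_subtype (h : Co168 G f) (P : G → Prop) (p : ℕ → Bool) (hp : ∀ i < 168, P (f i) ↔ p i = true) :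
    Nat.card {g : G // P g} = cntBelow p 168 := by
  rw [cntBelow_eq, ← Fintype.card_coe, ← Nat.card_eq_fintype_card]
  symm
  apply Nat.card_congr
  refine Equiv.ofBijective (fun i => ⟨f i.1, (hp i.1 (Finset.mem_range.1 (Finset.mem_filter.1 i.2).1)).2
    (Finset.mem_filter.1 i.2).2⟩) ⟨?_, ?_⟩
  · intro a b e
    apply Subtype.ext
    exact h.inj _ (Finset.mem_range.1 (Finset.mem_filter.1 a.2).1) _
      (Finset.mem_range.1 (Finset.mem_filter.1 b.2).1) (congrArg Subtype.val e)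
  · rintro ⟨g, hg⟩
    obtain ⟨i, hi, rfl⟩ := h.surj g
    exact ⟨⟨i, Finset.mem_filter.2 ⟨Finset.mem_range.2 hi, (hp i hi).1 hg⟩⟩, rfl⟩

end Co168

end Cfsg.Agent.Lib.Helper34
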