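import Cfsg.Agent.Lib.Helper34.G168

set_option autoImplicit false

/-! Element orders and conjugacy classes in a simple group of order 168. -/

namespace Cfsg.Agent.Lib.Helper34

open Cfsg.Agent.Lib.Helper33

set_option maxRecDepth 1000000 in
theorem g168_orders : ∀ i < 168, go i = 1 ∨ go i = 2 ∨ go i = 3 ∨ go i = 4 ∨ go i = 7 := by decide +kernel

set_option maxRecDepth 1000000 in
theorem g168_cnt : cntBelow (fun i => Nat.beq (go i) 2) 168 = 21 ∧ cntBelow (fun i => Nat.beq (go i) 3) 168 = 56 ∧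
    cntBelow (fun i => Nat.beq (go i) 4) 168 = 42 ∧ cntBelow (fun i => Nat.beq (go i) 7) 168 = 48 := by
  decide +kernel

set_option maxRecDepth 1000000 in
theorem g168_cls_ord : ∀ i < 168, (go i = 2 → gk i = 1) ∧ (go i = 3 → gk i = 2) ∧ (go i = 4 → gk i = 3) ∧
    (go i = 7 → cntBelow (fun j => Nat.beq (gk i) (gk j)) 168 = 24 ∧ gk i ≠ gk (gi i)) := by decide +kernel

namespace Co168

variable {G : Type*} [Group G] {f : ℕ → G}

theorem card_order (h : Co168 G f) (n : ℕ) :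
    Nat.card {g : G // orderOf g = n} = cntBelow (fun i => Nat.beq (go i) n) 168 := by
  apply h.card_subtype
  intro i hi
  rw [h.orderOf_eq hi]
  exact ⟨fun e => by rw [e]; exact Nat.beq_refl _, Nat.eq_of_beq_eq_true⟩

theorem conj_of_order (h : Co168 G f) {n c : ℕ} (hc : ∀ i < 168, go i = n → gk i = c) (s t : G)
    (hs : orderOf s = n) (ht : orderOf t = n) : IsConj s t := by
  obtain ⟨i, hi, rfl⟩ := h.surj s
  obtain ⟨j, hj, rfl⟩ := h.surj t
  rw [h.orderOf_eq hi] at hs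
  rw [h.orderOf_eq hj] at ht
  rw [h.isConj_iff hi hj, hc i hi hs, hc j hj ht]

end Co168

theorem s1005 {G : Type*} [Group G] [Finite G] [IsSimpleGroup G] (h : Nat.card G = 168) :
    (∀ g : G, orderOf g = 1 ∨ orderOf g = 2 ∨ orderOf g = 3 ∨ orderOf g = 4 ∨ orderOf g = 7) ∧
    Nat.card {g : G // orderOf g = 2} = 21 ∧ ∀ s t : G, orderOf s = 2 → orderOf t = 2 → IsConj s t := by
  obtain ⟨f, hf⟩ := exists_co168 h
  refine ⟨?_, ?_, ?_⟩
  · intro g
    obtain ⟨i, hi, rfl⟩ := hf.surj g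
    rw [hf.orderOf_eq hi]
    exact g168_orders i hi
  · rw [hf.card_order, g168_cnt.1]
  · exact hf.conj_of_order (fun i hi => (g168_cls_ord i hi).1)

theorem s1006 {G : Type*} [Group G] [Finite G] [IsSimpleGroup G] (h : Nat.card G = 168) :
    Nat.card {g : G // orderOf g = 3} = 56 ∧ (∀ s t : G, orderOf s = 3 → orderOf t = 3 → IsConj s t) ∧
    Nat.card {g : G // orderOf g = 4} = 42 ∧ (∀ s t : G, orderOf s = 4 → orderOf t = 4 → IsConj s t) ∧
    Nat.card {g : G // orderOf g = 7} = 48 ∧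
    ∀ x : G, orderOf x = 7 → Nat.card {g : G // IsConj x g} = 24 ∧ ¬ IsConj x x⁻¹ := by
  obtain ⟨f, hf⟩ := exists_co168 h
  refine ⟨?_, ?_, ?_, ?_, ?_, ?_⟩
  · rw [hf.card_order, g168_cnt.2.1]
  · exact hf.conj_of_order (fun i hi => (g168_cls_ord i hi).2.1)
  · rw [hf.card_order, g168_cnt.2.2.1]
  · exact hf.conj_of_order (fun i hi => (g168_cls_ord i hi).2.2.1)
  · rw [hf.card_order, g168_cnt.2.2.2]
  · intro x hx
    obtain ⟨i, hi, rfl⟩ := hf.surj x
    rw [hf.orderOf_eq hi] at hx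
    obtain ⟨h1, h2⟩ := (g168_cls_ord i hi).2.2.2 hx
    constructor
    · rw [← h1]
      apply hf.card_subtype
      intro j hj
      rw [hf.isConj_iff hi hj]
      exact ⟨fun e => by rw [e]; exact Nat.beq_refl _, Nat.eq_of_beq_eq_true⟩
    · rw [hf.inv hi, hf.isConj_iff hi (Co168.gi_lt hi)]
      exact h2

end Cfsg.Agent.Lib.Helper34
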