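import Cfsg.Agent.Lib.Helper34.G168
import Cfsg.Agent.Lib.Helper59.TwoGroupRecog

set_option autoImplicit false

/-! Sylow 2-subgroups of a simple group of order 168. -/

namespace Cfsg.Agent.Lib.Helper34

open Cfsg.Agent.Lib.Helper33

/-- the order of the centraliser of an index -/
noncomputable def gcz (i : ℕ) : ℕ := cntBelow (fun j => Nat.beq (gm j i) (gm i j)) 168

set_option maxRecDepth 1000000 in
theorem g168_cz : ∀ i < 168, i ≠ 0 → 8 ≤ gcz i → go i = 2 ∧ gcz i = 8 := by decide +kernel

set_option maxRecDepth 1000000 in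
set_option synthInstance.maxSize 2000 in
set_option synthInstance.maxHeartbeats 2000000 in
theorem g168_cz_inj : ∀ i < 168, ∀ j < 168, go i = 2 → go j = 2 →
    (∀ k < 168, gm k i = gm i k → gm k j = gm j k) → i = j := by decide +kernel

set_option maxRecDepth 1000000 in
theorem g168_dih : ∀ i < 168, go i = 2 → ∃ r < 168, (go r = 4 ∧ gm r i = gm i r) ∧
    ∃ s < 168, gm s i = gm i s ∧ gm s s = 0 ∧ gm (gm s r) (gi s) = gi r := by decide +kernel

theorem card_sylow_two_168 {G : Type*} [Group G] [Finite G] (h : Nat.card G = 168) (T : Sylow 2 G) :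
    Nat.card (T : Subgroup G) = 8 := by
  have : Fact (Nat.Prime 2) := ⟨Nat.prime_two⟩
  have h1 := Subgroup.card_mul_index (T : Subgroup G)
  rw [h] at h1
  obtain ⟨k, hk⟩ := IsPGroup.iff_card.1 T.2
  have h2 := T.not_dvd_index
  rw [hk] at h1 ⊢
  have hk8 : k < 8 := by
    by_contra hc
    have h3 : 2 ^ 8 ≤ 2 ^ k := Nat.pow_le_pow_right (by norm_num) (by omega)
    have h4 : 0 < (T : Subgroup G).index := Nat.pos_of_ne_zero (Subgroup.index_ne_zero_of_finite)
    nlinarith
  interval_cases k <;> norm_num at h1 ⊢ <;> omega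

namespace Co168

variable {G : Type*} [Group G] {f : ℕ → G}

theorem comm_iff (h : Co168 G f) {i j : ℕ} (hi : i < 168) (hj : j < 168) :
    f j * f i = f i * f j ↔ gm j i = gm i j := by
  rw [h.mul j hj i hi, h.mul i hi j hj]
  exact ⟨h.inj _ (gm_lt hj hi) _ (gm_lt hi hj), fun e => by rw [e]⟩

theorem card_centralizer (h : Co168 G f) {i : ℕ} (hi : i < 168) :
    Nat.card (Subgroup.centralizer ({f i} : Set G)) = gcz i := by
  apply h.card_subtype (fun g => g ∈ Subgroup.centralizer ({f i} : Set G))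
  intro j hj
  rw [Subgroup.mem_centralizer_singleton_iff, h.comm_iff hi hj]
  exact ⟨fun e => by rw [e]; exact Nat.beq_refl _, Nat.eq_of_beq_eq_true⟩

end Co168

theorem s1004 {G : Type*} [Group G] [Finite G] [IsSimpleGroup G] (h : Nat.card G = 168) (T : Sylow 2 G) :
    Nonempty (↥(T : Subgroup G) ≃* DihedralGroup 4) ∧ Subgroup.normalizer ((T : Subgroup G) : Set G) = T ∧
    ∀ z : G, z ∈ (T : Subgroup G) → z ≠ 1 → (∀ t ∈ (T : Subgroup G), t * z = z * t) →
      Subgroup.centralizer ({z} : Set G) = T := by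
  have : Fact (Nat.Prime 2) := ⟨Nat.prime_two⟩
  obtain ⟨f, hf⟩ := exists_co168 h
  have hT8 := card_sylow_two_168 h T
  -- the third statement, with the index
  have key : ∀ i < 168, f i ≠ 1 → (∀ t ∈ (T : Subgroup G), t * f i = f i * t) →
      go i = 2 ∧ Subgroup.centralizer ({f i} : Set G) = T := by
    intro i hi hne hc
    have hle : (T : Subgroup G) ≤ Subgroup.centralizer ({f i} : Set G) := fun t ht =>
      Subgroup.mem_centralizer_singleton_iff.2 (hc t ht)
    have h1 := Subgroup.card_le_of_le hle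
    rw [hT8, hf.card_centralizer hi] at h1
    obtain ⟨h2, h3⟩ := g168_cz i hi (fun e => hne ((hf.eq_one_iff hi).2 e)) h1
    refine ⟨h2, (Subgroup.eq_of_le_of_card_ge hle ?_).symm⟩
    rw [hT8, hf.card_centralizer hi, h3]
  -- a central element
  have hnt : Nontrivial ↥(T : Subgroup G) := by
    rw [← Finite.one_lt_card_iff_nontrivial, hT8]
    norm_num
  have hcn := IsPGroup.center_nontrivial T.2
  obtain ⟨z', hz'⟩ := exists_ne (1 : Subgroup.center ↥(T : Subgroup G))
  obtain ⟨i, hi, hiz⟩ := hf.surj z'.1.1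
  have hzT : f i ∈ (T : Subgroup G) := hiz ▸ z'.1.2
  have hz1 : f i ≠ 1 := by
    rw [hiz]
    intro e
    exact hz' (Subtype.ext (Subtype.ext e))
  have hzc : ∀ t ∈ (T : Subgroup G), t * f i = f i * t := by
    intro t ht
    rw [hiz]
    exact congrArg Subtype.val (Subgroup.mem_center_iff.1 z'.2 ⟨t, ht⟩)
  obtain ⟨hi2, hCT⟩ := key i hi hz1 hzc
  refine ⟨?_, ?_, ?_⟩
  · obtain ⟨r, hr, ⟨hr4, hri⟩, s, hs, hsi, hss, hsr⟩ := g168_dih i hi hi2
    have hrT : f r ∈ (T : Subgroup G) := by
      rw [← hCT, Subgroup.mem_centralizer_singleton_iff, hf.comm_iff hi hr]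
      exact hri
    have hsT : f s ∈ (T : Subgroup G) := by
      rw [← hCT, Subgroup.mem_centralizer_singleton_iff, hf.comm_iff hi hs]
      exact hsi
    have e1 : f s * f s = 1 := by rw [hf.mul s hs s hs, hss, hf.one]
    have e2 : f s * f r * (f s)⁻¹ = (f r)⁻¹ := by
      rw [hf.inv hs, hf.inv hr, hf.mul s hs r hr, hf.mul _ (gm_lt hs hr) _ (Co168.gi_lt hs), hsr]
    have e3 : orderOf (f r) = 4 := by rw [hf.orderOf_eq hr, hr4]
    apply Cfsg.Agent.Lib.Helper59.dihedral_recog 4 (by norm_num) (⟨f r, hrT⟩ : ↥(T : Subgroup G)) ⟨f s, hsT⟩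
    · rw [Subgroup.orderOf_mk, e3]
    · exact Subtype.ext e1
    · exact Subtype.ext e2
    · intro hmem
      obtain ⟨k, hk⟩ := Subgroup.mem_zpowers_iff.1 hmem
      have hk' : f r ^ k = f s := by
        have := congrArg Subtype.val hk
        simpa using this
      have e4 : f s * f r * (f s)⁻¹ = f r := by
        rw [← hk', ← zpow_add_one, ← zpow_neg, ← zpow_add]
        simp
      rw [e4] at e2
      have e5 : f r ^ 2 = 1 := by
        rw [pow_two]
        nth_rewrite 1 [e2]
        exact inv_mul_cancel _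
      have := orderOf_dvd_of_pow_eq_one e5
      rw [e3] at this
      norm_num at this
    · rw [hT8]
  · apply le_antisymm _ Subgroup.le_normalizer
    intro n hn
    rw [Subgroup.mem_normalizer_iff] at hn
    obtain ⟨j, hj, hjn⟩ := hf.surj (n * f i * n⁻¹)
    have hj1 : f j ≠ 1 := by
      rw [hjn]
      intro e
      apply hz1
      calc f i = n⁻¹ * (n * f i * n⁻¹) * n := by group
        _ = 1 := by rw [e]; group
    have hjc : ∀ t ∈ (T : Subgroup G), t * f j = f j * t := by
      intro t ht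
      rw [hjn]
      have h1 : n⁻¹ * t * n ∈ (T : Subgroup G) := by
        rw [hn]
        have : n * (n⁻¹ * t * n) * n⁻¹ = t := by group
        rw [this]
        exact ht
      have h2 := hzc _ h1
      calc t * (n * f i * n⁻¹) = n * ((n⁻¹ * t * n) * f i) * n⁻¹ := by group
        _ = n * (f i * (n⁻¹ * t * n)) * n⁻¹ := by rw [h2]
        _ = n * f i * n⁻¹ * t := by group
    obtain ⟨hj2, hCT'⟩ := key j hj hj1 hjc
    have hij : i = j := by
      apply g168_cz_inj i hi j hj hi2 hj2
      intro k hk e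
      have h1 : f k ∈ Subgroup.centralizer ({f i} : Set G) :=
        Subgroup.mem_centralizer_singleton_iff.2 ((hf.comm_iff hi hk).2 e)
      rw [hCT, ← hCT'] at h1
      exact (hf.comm_iff hj hk).1 (Subgroup.mem_centralizer_singleton_iff.1 h1)
    rw [← hCT, Subgroup.mem_centralizer_singleton_iff]
    rw [← hij] at hjn
    calc n * f i = (n * f i * n⁻¹) * n := by group
      _ = f i * n := by rw [← hjn]
  · intro z hzT' hz1' hzc'
    obtain ⟨j, hj, rfl⟩ := hf.surj z
    exact (key j hj hz1' hzc').2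

end Cfsg.Agent.Lib.Helper34
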