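import Cfsg.Agent.Lib.Helper34.G168a
import Cfsg.Agent.Lib.Helper34.G168b
import Cfsg.Agent.Lib.Helper47.FourClasses
import Cfsg.Agent.S1012

set_option autoImplicit false

/-! Klein four-subgroups of a simple group of order 168. -/

namespace Cfsg.Agent.Lib.Helper34

open Cfsg.Agent.Lib.Helper33 Cfsg.Agent.Lib.Helper11 Cfsg.Agent.Lib.Helper47

def g168A : ℕ := 0x4900000017000000000000000000000000000000000000014d00000000000000000000000000000000000000210000005000000000000000010049004e0037000000000058214d4e0000005600000000000000000000002100000000000100000000000000000000000000000000000017000024000000000000000000010000000000000000000000000000000000000000001700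
def g168B : ℕ := 0x64000000490000000000000000000000000000000000004d6400000000000000000000000000000000000000500000007c0000000000000050004e005000490000000000644d587c0000009000000000000000000000003700000000003d0000000000000000000000000000000000002100003d000000000000000000240000000000000000000000000000000000000000003700

def ga (i : ℕ) : ℕ := g8 g168A i
def gb (i : ℕ) : ℕ := g8 g168B i

/-- conjugation of indices -/
def gcj (k a : ℕ) : ℕ := gm (gm k a) (gi k)

/-- membership in the four-group spanned by two indices -/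
def inU (a b x : ℕ) : Bool := Nat.beq x 0 || (Nat.beq x a || (Nat.beq x b || Nat.beq x (gm a b)))

/-- membership in the normaliser of the four-group spanned by two indices -/
def gnr (a b k : ℕ) : Bool :=
  inU a b (gcj k a) && (inU a b (gcj k b) && (inU a b (gcj (gi k) a) && inU a b (gcj (gi k) b)))

set_option maxRecDepth 1000000 in
set_option synthInstance.maxSize 2000 in
set_option synthInstance.maxHeartbeats 2000000 in
theorem g168_nr : ∀ a < 168, ∀ b < 168, go a = 2 → go b = 2 → a ≠ b → gm a b = gm b a →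
    cntBelow (gnr a b) 168 = 24 := by decide +kernel

set_option maxRecDepth 1000000 in
set_option synthInstance.maxSize 2000 in
set_option synthInstance.maxHeartbeats 2000000 in
theorem g168_ab : ∀ i < 168, go i = 2 → (ga i < 168 ∧ gb i < 168 ∧ go (ga i) = 2 ∧ go (gb i) = 2 ∧
    ga i ≠ i ∧ gb i ≠ i ∧ gm i (ga i) = gm (ga i) i ∧ gm i (gb i) = gm (gb i) i ∧
    inU i (ga i) (gb i) = false) := by decide +kernel

set_option maxRecDepth 1000000 in
theorem g168_two_chk : allBelow (fun i => !(Nat.beq (go i) 2) || allBelow (fun x =>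
    !(Nat.beq (go x) 2 && Nat.beq (gm x i) (gm i x)) || allBelow (fun y =>
      !(Nat.beq (go y) 2 && (Nat.beq (gm y i) (gm i y) && (!(Nat.beq x y) && Nat.beq (gm x y) (gm y x)))) ||
      ((inU i (ga i) x && inU i (ga i) y) || (inU i (gb i) x && inU i (gb i) y))) 168) 168) 168 = true := by
  decide +kernel

theorem beq_of_eq {a b : ℕ} (h : a = b) : Nat.beq a b = true := h ▸ Nat.beq_refl a

theorem beq_of_ne {a b : ℕ} (h : a ≠ b) : Nat.beq a b = false := by
  rw [← Bool.not_eq_true]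
  exact fun e => h (Nat.eq_of_beq_eq_true e)

theorem g168_two {i x y : ℕ} (hi : i < 168) (hx : x < 168) (hy : y < 168) (h1 : go i = 2) (h2 : go x = 2)
    (h3 : gm x i = gm i x) (h4 : go y = 2) (h5 : gm y i = gm i y) (h6 : x ≠ y) (h7 : gm x y = gm y x) :
    ((inU i (ga i) x = true ∧ inU i (ga i) y = true) ∨ (inU i (gb i) x = true ∧ inU i (gb i) y = true)) := by
  have h := (allBelow_iff _ _).1 g168_two_chk i hi
  simp only [beq_of_eq h1, Bool.not_true, Bool.false_or] at h
  have h := (allBelow_iff _ _).1 h x hx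
  simp only [beq_of_eq h2, beq_of_eq h3, Bool.and_self, Bool.not_true, Bool.false_or] at h
  have h := (allBelow_iff _ _).1 h y hy
  simp only [beq_of_eq h4, beq_of_eq h5, beq_of_ne h6, beq_of_eq h7, Bool.and_self, Bool.not_true, Bool.not_false,
    Bool.false_or, Bool.or_eq_true, Bool.and_eq_true] at h
  exact h

set_option maxRecDepth 1000000 in
set_option synthInstance.maxSize 2000 in
set_option synthInstance.maxHeartbeats 2000000 in
theorem g168_nc : ∀ i < 168, ∀ g < 168, go i = 2 →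
    ¬ (inU i (gb i) (gcj g i) = true ∧ inU i (gb i) (gcj g (ga i)) = true) ∧
    ¬ (inU i (ga i) (gcj g i) = true ∧ inU i (ga i) (gcj g (gb i)) = true) := by
  decide +kernel

theorem inU_iff {a b x : ℕ} : inU a b x = true ↔ x = 0 ∨ x = a ∨ x = b ∨ x = gm a b := by
  unfold inU
  simp only [Bool.or_eq_true]
  constructor
  · rintro (h | h | h | h)
    · exact Or.inl (Nat.eq_of_beq_eq_true h)
    · exact Or.inr (Or.inl (Nat.eq_of_beq_eq_true h))
    · exact Or.inr (Or.inr (Or.inl (Nat.eq_of_beq_eq_true h)))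
    · exact Or.inr (Or.inr (Or.inr (Nat.eq_of_beq_eq_true h)))
  · rintro (h | h | h | h)
    · exact Or.inl (beq_of_eq h)
    · exact Or.inr (Or.inl (beq_of_eq h))
    · exact Or.inr (Or.inr (Or.inl (beq_of_eq h)))
    · exact Or.inr (Or.inr (Or.inr (beq_of_eq h)))

theorem four_conj_closed {G : Type*} [Group G] {x y : G} {hxy : x * y = y * x} {hx : x * x = 1} {hy : y * y = 1}
    {g : G} (h1 : g * x * g⁻¹ ∈ fourSub x y hxy hx hy) (h2 : g * y * g⁻¹ ∈ fourSub x y hxy hx hy) :
    ∀ u ∈ fourSub x y hxy hx hy, g * u * g⁻¹ ∈ fourSub x y hxy hx hy := by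
  intro u hu
  rcases mem_fourSub.1 hu with rfl | rfl | rfl | rfl
  · rw [mul_one, mul_inv_cancel]
    exact Subgroup.one_mem _
  · exact h1
  · exact h2
  · have : g * (x * y) * g⁻¹ = (g * x * g⁻¹) * (g * y * g⁻¹) := by group
    rw [this]
    exact Subgroup.mul_mem _ h1 h2

namespace Co168

variable {G : Type*} [Group G] {f : ℕ → G}

theorem sq_one (h : Co168 G f) {a : ℕ} (ha : a < 168) (h2 : go a = 2) : f a * f a = 1 := by
  have := h.orderOf_eq ha
  rw [h2] at this
  rw [← pow_two, ← this, pow_orderOf_eq_one]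

theorem ne_one_of_go (h : Co168 G f) {a : ℕ} (ha : a < 168) (h2 : go a = 2) : f a ≠ 1 := by
  intro e
  have := h.orderOf_eq ha
  rw [h2, e, orderOf_one] at this
  omega

theorem go_two_of (h : Co168 G f) {a : ℕ} (ha : a < 168) (h1 : f a ≠ 1) (h2 : f a * f a = 1) : go a = 2 := by
  rw [← h.orderOf_eq ha]
  exact orderOf_eq_prime (by rw [pow_two]; exact h2) h1

theorem gcj_lt {k a : ℕ} (hk : k < 168) (ha : a < 168) : gcj k a < 168 := gm_lt (gm_lt hk ha) (gi_lt hk)

theorem cj (h : Co168 G f) {k a : ℕ} (hk : k < 168) (ha : a < 168) : f k * f a * (f k)⁻¹ = f (gcj k a) := by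
  rw [h.inv hk, h.mul k hk a ha, h.mul _ (gm_lt hk ha) _ (gi_lt hk)]
  rfl

theorem eq_iff (h : Co168 G f) {a b : ℕ} (ha : a < 168) (hb : b < 168) : f a = f b ↔ a = b :=
  ⟨h.inj a ha b hb, fun e => by rw [e]⟩

theorem mem_four_iff (h : Co168 G f) {a b x : ℕ} (ha : a < 168) (hb : b < 168) (hx : x < 168)
    {hab : f a * f b = f b * f a} {h1 : f a * f a = 1} {h2 : f b * f b = 1} :
    f x ∈ fourSub (f a) (f b) hab h1 h2 ↔ inU a b x = true := by
  rw [mem_fourSub, inU_iff, h.eq_one_iff hx, h.eq_iff hx ha, h.eq_iff hx hb, h.mul a ha b hb,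
    h.eq_iff hx (gm_lt ha hb)]

theorem mem_normalizer_four (h : Co168 G f) {a b k : ℕ} (ha : a < 168) (hb : b < 168) (hk : k < 168)
    {hab : f a * f b = f b * f a} {h1 : f a * f a = 1} {h2 : f b * f b = 1} :
    f k ∈ Subgroup.normalizer ((fourSub (f a) (f b) hab h1 h2 : Subgroup G) : Set G) ↔ gnr a b k = true := by
  have haU : f a ∈ fourSub (f a) (f b) hab h1 h2 := mem_fourSub.2 (Or.inr (Or.inl rfl))
  have hbU : f b ∈ fourSub (f a) (f b) hab h1 h2 := mem_fourSub.2 (Or.inr (Or.inr (Or.inl rfl)))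
  unfold gnr
  simp only [Bool.and_eq_true]
  rw [← h.mem_four_iff ha hb (gcj_lt hk ha) (hab := hab) (h1 := h1) (h2 := h2),
    ← h.mem_four_iff ha hb (gcj_lt hk hb) (hab := hab) (h1 := h1) (h2 := h2),
    ← h.mem_four_iff ha hb (gcj_lt (gi_lt hk) ha) (hab := hab) (h1 := h1) (h2 := h2),
    ← h.mem_four_iff ha hb (gcj_lt (gi_lt hk) hb) (hab := hab) (h1 := h1) (h2 := h2),
    ← h.cj hk ha, ← h.cj hk hb, ← h.cj (gi_lt hk) ha, ← h.cj (gi_lt hk) hb, ← h.inv hk]
  constructor
  · intro hn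
    have hn' := Subgroup.inv_mem _ hn
    rw [Subgroup.mem_normalizer_iff] at hn hn'
    exact ⟨(hn _).1 haU, (hn _).1 hbU, (hn' _).1 haU, (hn' _).1 hbU⟩
  · rintro ⟨c1, c2, c3, c4⟩
    rw [Subgroup.mem_normalizer_iff]
    intro u
    constructor
    · exact four_conj_closed c1 c2 u
    · intro hu
      have := four_conj_closed c3 c4 _ hu
      have e : (f k)⁻¹ * (f k * u * (f k)⁻¹) * (f k)⁻¹⁻¹ = u := by group
      rwa [e] at this

/-- a Klein four-subgroup in coordinates -/
theorem exists_four (h : Co168 G f) (U : Subgroup G) (hU : IsKleinFour U) :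
    ∃ a < 168, ∃ b < 168, go a = 2 ∧ go b = 2 ∧ a ≠ b ∧ gm a b = gm b a ∧
      ∃ (hab : f a * f b = f b * f a) (h1 : f a * f a = 1) (h2 : f b * f b = 1),
        fourSub (f a) (f b) hab h1 h2 = U := by
  obtain ⟨⟨x, y⟩, ⟨hx1, hy1, hne, hxx, hyy, hxy⟩, e⟩ := exists_pair_of_kleinFour U hU
  obtain ⟨a, ha, rfl⟩ := h.surj x
  obtain ⟨b, hb, rfl⟩ := h.surj y
  refine ⟨a, ha, b, hb, h.go_two_of ha hx1 hxx, h.go_two_of hb hy1 hyy, fun e => hne (by rw [e]),
    (h.comm_iff hb ha).1 hxy, hxy, hxx, hyy, e⟩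

end Co168

theorem four_normalizer_s4 {G : Type*} [Group G] [Finite G] {f : ℕ → G} (hf : Co168 G f) (U : Subgroup G)
    (hU : IsKleinFour U) : Nonempty (↥(Subgroup.normalizer (U : Set G)) ≃* Equiv.Perm (Fin 4)) := by
  obtain ⟨a, ha, b, hb, ha2, hb2, hne, hc, hab, h1, h2, rfl⟩ := hf.exists_four U hU
  apply Cfsg.Agent.S1012.result
  · rw [← g168_nr a ha b hb ha2 hb2 hne hc]
    apply hf.card_subtype (fun g => g ∈ Subgroup.normalizer ((fourSub (f a) (f b) hab h1 h2 : Subgroup G) : Set G))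
    intro k hk
    exact hf.mem_normalizer_four ha hb hk
  · intro g
    rw [← Subgroup.orderOf_coe]
    obtain ⟨k, hk, e⟩ := hf.surj g.1
    rw [← e, hf.orderOf_eq hk]
    rcases g168_orders k hk with h | h | h | h | h <;> omega

theorem sylow_index {G : Type*} [Group G] [Finite G] [IsSimpleGroup G] (h : Nat.card G = 168) {f : ℕ → G}
    (hf : Co168 G f) (T : Sylow 2 G) :
    ∃ i < 168, go i = 2 ∧ Subgroup.centralizer ({f i} : Set G) = T := by
  have : Fact (Nat.Prime 2) := ⟨Nat.prime_two⟩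
  have hT8 := card_sylow_two_168 h T
  have hnt : Nontrivial ↥(T : Subgroup G) := by
    rw [← Finite.one_lt_card_iff_nontrivial, hT8]
    norm_num
  have hcn := IsPGroup.center_nontrivial T.2
  obtain ⟨z', hz'⟩ := exists_ne (1 : Subgroup.center ↥(T : Subgroup G))
  obtain ⟨i, hi, hiz⟩ := hf.surj z'.1.1
  have hzT : f i ∈ (T : Subgroup G) := hiz ▸ z'.1.2
  have hz1 : f i ≠ 1 := by
    rw [hiz]
    intro e
    exact hz' (Subtype.ext (Subtype.ext e))
  have hzc : ∀ t ∈ (T : Subgroup G), t * f i = f i * t := by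
    intro t ht
    rw [hiz]
    exact congrArg Subtype.val (Subgroup.mem_center_iff.1 z'.2 ⟨t, ht⟩)
  have hC := (s1004 h T).2.2 (f i) hzT hz1 hzc
  have h8 : gcz i = 8 := by rw [← hf.card_centralizer hi, hC, hT8]
  exact ⟨i, hi, (g168_cz i hi (fun e => hz1 ((hf.eq_one_iff hi).2 e)) (by omega)).1, hC⟩

theorem s1007 {G : Type*} [Group G] [Finite G] [IsSimpleGroup G] (h : Nat.card G = 168) (T : Sylow 2 G) :
    Nat.card {U : Subgroup G // U ≤ (T : Subgroup G) ∧ IsKleinFour ↥U} = 2 ∧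
    (∀ U W : Subgroup G, U ≤ (T : Subgroup G) → W ≤ (T : Subgroup G) → IsKleinFour ↥U → IsKleinFour ↥W → U ≠ W →
      ∀ g : G, U.map (MulAut.conj g).toMonoidHom ≠ W) ∧
    ∀ U : Subgroup G, IsKleinFour ↥U →
      Nonempty (↥(Subgroup.normalizer (U : Set G)) ≃* Equiv.Perm (Fin 4)) := by
  obtain ⟨f, hf⟩ := exists_co168 h
  obtain ⟨i, hi, hi2, hC⟩ := sylow_index h hf T
  obtain ⟨hA, hB, hA2, hB2, hAi, hBi, hcA, hcB, hBU⟩ := g168_ab i hi hi2
  have e_i := hf.sq_one hi hi2
  have e_a := hf.sq_one hA hA2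
  have e_b := hf.sq_one hB hB2
  have cA : f i * f (ga i) = f (ga i) * f i := (hf.comm_iff hA hi).2 hcA
  have cB : f i * f (gb i) = f (gb i) * f i := (hf.comm_iff hB hi).2 hcB
  have K1 : IsKleinFour (fourSub (f i) (f (ga i)) cA e_i e_a) :=
    isKleinFour_fourSub _ _ _ _ _ (hf.ne_one_of_go hi hi2) (hf.ne_one_of_go hA hA2)
      (fun e => hAi (hf.inj _ hi _ hA e).symm)
  have K2 : IsKleinFour (fourSub (f i) (f (gb i)) cB e_i e_b) :=
    isKleinFour_fourSub _ _ _ _ _ (hf.ne_one_of_go hi hi2) (hf.ne_one_of_go hB hB2)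
      (fun e => hBi (hf.inj _ hi _ hB e).symm)
  have hle : ∀ (y : G) (c : f i * y = y * f i) (e : y * y = 1), fourSub (f i) y c e_i e ≤ (T : Subgroup G) := by
    intro y c e u hu
    rw [← hC, Subgroup.mem_centralizer_singleton_iff]
    rcases mem_fourSub.1 hu with rfl | rfl | rfl | rfl
    · rw [one_mul, mul_one]
    · rfl
    · exact c.symm
    · rw [mul_assoc, ← c]
  have key : ∀ U : Subgroup G, U ≤ (T : Subgroup G) → IsKleinFour ↥U →
      U = fourSub (f i) (f (ga i)) cA e_i e_a ∨ U = fourSub (f i) (f (gb i)) cB e_i e_b := by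
    intro U hUT hU
    obtain ⟨x, hx, y, hy, hx2, hy2, hne, hc, hab, h1, h2, rfl⟩ := hf.exists_four U hU
    have hxi : gm x i = gm i x := by
      have : f x ∈ (T : Subgroup G) := hUT (mem_fourSub.2 (Or.inr (Or.inl rfl)))
      rw [← hC, Subgroup.mem_centralizer_singleton_iff] at this
      exact (hf.comm_iff hi hx).1 this
    have hyi : gm y i = gm i y := by
      have : f y ∈ (T : Subgroup G) := hUT (mem_fourSub.2 (Or.inr (Or.inr (Or.inl rfl))))
      rw [← hC, Subgroup.mem_centralizer_singleton_iff] at this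
      exact (hf.comm_iff hi hy).1 this
    have n1 := hf.ne_one_of_go hx hx2
    have n2 := hf.ne_one_of_go hy hy2
    have n3 : f x ≠ f y := fun e => hne (hf.inj _ hx _ hy e)
    rcases g168_two hi hx hy hi2 hx2 hxi hy2 hyi hne hc with ⟨m1, m2⟩ | ⟨m1, m2⟩
    · left
      exact fourSub_eq_of_mem _ K1 (f x) (f y) hab h1 h2 n1 n2 n3 ((hf.mem_four_iff hi hA hx).2 m1)
        ((hf.mem_four_iff hi hA hy).2 m2)
    · right
      exact fourSub_eq_of_mem _ K2 (f x) (f y) hab h1 h2 n1 n2 n3 ((hf.mem_four_iff hi hB hx).2 m1)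
        ((hf.mem_four_iff hi hB hy).2 m2)
  have hne12 : fourSub (f i) (f (ga i)) cA e_i e_a ≠ fourSub (f i) (f (gb i)) cB e_i e_b := by
    intro e
    have h1 : f (gb i) ∈ fourSub (f i) (f (gb i)) cB e_i e_b := mem_fourSub.2 (Or.inr (Or.inr (Or.inl rfl)))
    rw [← e, hf.mem_four_iff hi hA hB, hBU] at h1
    exact absurd h1 (by decide)
  have nc : ∀ g : G,
      (fourSub (f i) (f (ga i)) cA e_i e_a).map (MulAut.conj g).toMonoidHom ≠
        fourSub (f i) (f (gb i)) cB e_i e_b ∧
      (fourSub (f i) (f (gb i)) cB e_i e_b).map (MulAut.conj g).toMonoidHom ≠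
        fourSub (f i) (f (ga i)) cA e_i e_a := by
    intro g
    obtain ⟨k, hk, rfl⟩ := hf.surj g
    obtain ⟨q1, q2⟩ := g168_nc i hi k hk hi2
    constructor
    · intro e
      apply q1
      constructor
      · rw [← hf.mem_four_iff hi hB (Co168.gcj_lt hk hi) (hab := cB) (h1 := e_i) (h2 := e_b), ← e, ← hf.cj hk hi]
        exact ⟨f i, mem_fourSub.2 (Or.inr (Or.inl rfl)), rfl⟩
      · rw [← hf.mem_four_iff hi hB (Co168.gcj_lt hk hA) (hab := cB) (h1 := e_i) (h2 := e_b), ← e, ← hf.cj hk hA]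
        exact ⟨f (ga i), mem_fourSub.2 (Or.inr (Or.inr (Or.inl rfl))), rfl⟩
    · intro e
      apply q2
      constructor
      · rw [← hf.mem_four_iff hi hA (Co168.gcj_lt hk hi) (hab := cA) (h1 := e_i) (h2 := e_a), ← e, ← hf.cj hk hi]
        exact ⟨f i, mem_fourSub.2 (Or.inr (Or.inl rfl)), rfl⟩
      · rw [← hf.mem_four_iff hi hA (Co168.gcj_lt hk hB) (hab := cA) (h1 := e_i) (h2 := e_a), ← e, ← hf.cj hk hB]
        exact ⟨f (gb i), mem_fourSub.2 (Or.inr (Or.inr (Or.inl rfl))), rfl⟩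
  refine ⟨?_, ?_, fun U hU => four_normalizer_s4 hf U hU⟩
  · rw [Nat.card_eq_two_iff]
    refine ⟨⟨_, hle _ cA e_a, K1⟩, ⟨_, hle _ cB e_b, K2⟩, fun e => hne12 (congrArg Subtype.val e), ?_⟩
    ext ⟨U, hUT, hU⟩
    simp only [Set.mem_insert_iff, Set.mem_singleton_iff, Set.mem_univ, iff_true]
    rcases key U hUT hU with e | e
    · exact Or.inl (Subtype.ext e)
    · exact Or.inr (Subtype.ext e)
  · intro U W hUT hWT hU hW hne g
    rcases key U hUT hU with rfl | rfl <;> rcases key W hWT hW with rfl | rfl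
    · exact absurd rfl hne
    · exact (nc g).1
    · exact (nc g).2
    · exact absurd rfl hne

end Cfsg.Agent.Lib.Helper34
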