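import Cfsg.Agent.Lib.Helper34.G168d

set_option autoImplicit false

/-! Maximal subgroups of a simple group of order 168. -/

namespace Cfsg.Agent.Lib.Helper34

open Cfsg.Agent.Lib.Helper33 Cfsg.Agent.Lib.Helper11 Cfsg.Agent.Lib.Helper47

theorem nall_iff (p : ℕ → Bool) (n : ℕ) : (!(allBelow (fun m => !(p m)) n)) = true ↔ ∃ m < n, p m = true := by
  constructor
  · intro h
    by_contra hc
    push Not at hc
    have h2 : allBelow (fun m => !(p m)) n = true := (allBelow_iff _ _).2 (fun m hm => by simp [hc m hm])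
    rw [h2] at h
    exact absurd h (by decide)
  · rintro ⟨m, hm, e⟩
    by_contra hc
    have h2 : allBelow (fun m => !(p m)) n = true := by simpa using hc
    have h3 := (allBelow_iff _ _).1 h2 m hm
    rw [e] at h3
    exact absurd h3 (by decide)

theorem inP_iff {z w : ℕ} : inP z w = true ↔ ∃ m < 7, gp z m = w := by
  unfold inP
  rw [nall_iff]
  exact ⟨fun ⟨m, hm, e⟩ => ⟨m, hm, Nat.eq_of_beq_eq_true e⟩, fun ⟨m, hm, e⟩ => ⟨m, hm, beq_of_eq e⟩⟩

theorem hasOrd_iff {z w n : ℕ} : hasOrd z w n = true ↔ ∃ m < 7, go (gm (gp z m) w) = n := by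
  unfold hasOrd
  rw [nall_iff]
  exact ⟨fun ⟨m, hm, e⟩ => ⟨m, hm, Nat.eq_of_beq_eq_true e⟩, fun ⟨m, hm, e⟩ => ⟨m, hm, beq_of_eq e⟩⟩

theorem mem_normalizer_zpowers {G : Type*} [Group G] {x z : G} (h1 : x * z * x⁻¹ ∈ Subgroup.zpowers z)
    (h2 : x⁻¹ * z * x⁻¹⁻¹ ∈ Subgroup.zpowers z) :
    x ∈ Subgroup.normalizer ((Subgroup.zpowers z : Subgroup G) : Set G) := by
  rw [Subgroup.mem_normalizer_iff]
  intro u
  constructor
  · intro hu
    obtain ⟨n, rfl⟩ := Subgroup.mem_zpowers_iff.1 hu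
    rw [← conj_zpow]
    exact Subgroup.zpow_mem _ h1 n
  · intro hu
    obtain ⟨n, hn⟩ := Subgroup.mem_zpowers_iff.1 hu
    have e : u = x⁻¹ * (z ^ n) * x⁻¹⁻¹ := by rw [hn]; group
    rw [e, ← conj_zpow]
    exact Subgroup.zpow_mem _ h2 n

theorem eq_top_of_orders {G : Type*} [Group G] [Finite G] [IsSimpleGroup G] (h : Nat.card G = 168)
    (M : Subgroup G) {a b c : G} (ha : a ∈ M) (hb : b ∈ M) (hc : c ∈ M) (h7 : orderOf a = 7)
    (h4 : orderOf b = 4) (h3 : orderOf c = 3) : M = ⊤ := by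
  have d7 : 7 ∣ Nat.card M := by
    have := orderOf_dvd_natCard (⟨a, ha⟩ : M)
    rwa [Subgroup.orderOf_mk, h7] at this
  have d4 : 4 ∣ Nat.card M := by
    have := orderOf_dvd_natCard (⟨b, hb⟩ : M)
    rwa [Subgroup.orderOf_mk, h4] at this
  have d3 : 3 ∣ Nat.card M := by
    have := orderOf_dvd_natCard (⟨c, hc⟩ : M)
    rwa [Subgroup.orderOf_mk, h3] at this
  have d12 : 4 * 3 ∣ Nat.card M := Nat.Coprime.mul_dvd_of_dvd_of_dvd (by norm_num) d4 d3
  have d84 : 4 * 3 * 7 ∣ Nat.card M := Nat.Coprime.mul_dvd_of_dvd_of_dvd (by norm_num) d12 d7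
  obtain ⟨t, ht⟩ := d84
  have h1 := Subgroup.card_mul_index M
  rw [h, ht] at h1
  have h2 : t * M.index = 2 := by nlinarith
  have ht0 : t ≠ 0 := by
    rintro rfl
    omega
  have hi : M.index = 1 ∨ M.index = 2 := by
    have : M.index ∣ 2 := ⟨t, by rw [← h2, mul_comm]⟩
    exact (Nat.dvd_prime Nat.prime_two).1 this
  rcases hi with hi | hi
  · exact Subgroup.index_eq_one.1 hi
  · have hn : M.Normal := Subgroup.normal_of_index_eq_two hi
    rcases hn.eq_bot_or_eq_top with e | e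
    · rw [e, Subgroup.card_bot] at ht
      omega
    · exact e

theorem le_of_le_union {G : Type*} [Group G] {M A B : Subgroup G} (h : ∀ x ∈ M, x ∈ A ∨ x ∈ B) :
    M ≤ A ∨ M ≤ B := by
  by_contra hc
  push Not at hc
  obtain ⟨h1, h2⟩ := hc
  obtain ⟨a, haM, haA⟩ := SetLike.not_le_iff_exists.1 h1
  obtain ⟨b, hbM, hbB⟩ := SetLike.not_le_iff_exists.1 h2
  have haB : a ∈ B := (h a haM).resolve_left haA
  have hbA : b ∈ A := (h b hbM).resolve_right hbB
  rcases h (a * b) (M.mul_mem haM hbM) with h3 | h3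
  · exact haA ((Subgroup.mul_mem_cancel_right A hbA).1 h3)
  · exact hbB ((Subgroup.mul_mem_cancel_left B haB).1 h3)

namespace Co168

variable {G : Type*} [Group G] {f : ℕ → G}

theorem mem_zpowers_iff (h : Co168 G f) {z w : ℕ} (hz : z < 168) (hw : w < 168) (h7 : go z = 7) :
    f w ∈ Subgroup.zpowers (f z) ↔ inP z w = true := by
  rw [inP_iff]
  constructor
  · intro hm
    obtain ⟨n, hn⟩ := Subgroup.mem_zpowers_iff.1 hm
    have ho : orderOf (f z) = 7 := by rw [h.orderOf_eq hz, h7]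
    have h1 : f z ^ (n % 7) = f w := by
      have := zpow_mod_orderOf (f z) n
      rw [ho] at this
      rw [← hn]
      exact this
    have h2 : 0 ≤ n % 7 := Int.emod_nonneg _ (by norm_num)
    have h3 : n % 7 < 7 := Int.emod_lt_of_pos _ (by norm_num)
    refine ⟨(n % 7).toNat, by omega, ?_⟩
    apply h.inj _ (gp_lt hz _) _ hw
    rw [← h.pow hz, ← h1, ← zpow_natCast, Int.toNat_of_nonneg h2]
  · rintro ⟨m, _, rfl⟩
    rw [← h.pow hz]
    exact Subgroup.pow_mem _ (Subgroup.mem_zpowers _) m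

theorem mem_normalizer_seven (h : Co168 G f) {z k : ℕ} (hz : z < 168) (hk : k < 168) (h7 : go z = 7) :
    f k ∈ Subgroup.normalizer ((Subgroup.zpowers (f z) : Subgroup G) : Set G) ↔ gn7 z k = true := by
  unfold gn7
  rw [Bool.and_eq_true, ← h.mem_zpowers_iff hz (gcj_lt hk hz) h7, ← h.mem_zpowers_iff hz (gcj_lt (gi_lt hk) hz) h7,
    ← h.cj hk hz, ← h.cj (gi_lt hk) hz, ← h.inv hk]
  constructor
  · intro hn
    have hn' := Subgroup.inv_mem _ hn
    rw [Subgroup.mem_normalizer_iff] at hn hn'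
    exact ⟨(hn _).1 (Subgroup.mem_zpowers _), (hn' _).1 (Subgroup.mem_zpowers _)⟩
  · rintro ⟨h1, h2⟩
    exact mem_normalizer_zpowers h1 h2

theorem card_normalizer_seven (h : Co168 G f) {z : ℕ} (hz : z < 168) (h7 : go z = 7) :
    Nat.card (Subgroup.normalizer ((Subgroup.zpowers (f z) : Subgroup G) : Set G)) = 21 := by
  rw [← (g168_n7 z hz h7).1]
  apply h.card_subtype (fun g => g ∈ Subgroup.normalizer ((Subgroup.zpowers (f z) : Subgroup G) : Set G))
  intro k hk
  exact h.mem_normalizer_seven hz hk h7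

theorem card_normalizer_four (h : Co168 G f) (U : Subgroup G) (hU : IsKleinFour U) :
    Nat.card (Subgroup.normalizer (U : Set G)) = 24 := by
  obtain ⟨a, ha, b, hb, ha2, hb2, hne, hc, hab, h1, h2, rfl⟩ := h.exists_four U hU
  rw [← g168_nr a ha b hb ha2 hb2 hne hc]
  apply h.card_subtype (fun g => g ∈ Subgroup.normalizer ((fourSub (f a) (f b) hab h1 h2 : Subgroup G) : Set G))
  intro k hk
  exact h.mem_normalizer_four ha hb hk

end Co168

/-- every proper subgroup lies in the normaliser of a four-group or of a subgroup of order seven -/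
theorem claimA {G : Type*} [Group G] [Finite G] [IsSimpleGroup G] (h : Nat.card G = 168) {f : ℕ → G}
    (hf : Co168 G f) (M : Subgroup G) (hM : M ≠ ⊤) :
    (∃ U : Subgroup G, IsKleinFour U ∧ M ≤ Subgroup.normalizer (U : Set G)) ∨
    (∃ z < 168, go z = 7 ∧ M ≤ Subgroup.normalizer ((Subgroup.zpowers (f z) : Subgroup G) : Set G)) := by
  by_cases h7 : ∃ z < 168, go z = 7 ∧ f z ∈ M
  · right
    obtain ⟨z, hz, hz7, hzM⟩ := h7
    refine ⟨z, hz, hz7, ?_⟩
    have key : ∀ x ∈ M, x * f z * x⁻¹ ∈ Subgroup.zpowers (f z) := by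
      intro x hx
      obtain ⟨k, hk, rfl⟩ := hf.surj x
      have hwM : f (gcj k z) ∈ M := by
        rw [← hf.cj hk hz]
        exact M.mul_mem (M.mul_mem hx hzM) (M.inv_mem hx)
      have hw := Co168.gcj_lt hk hz
      have hw7 : go (gcj k z) = 7 := by rw [g168_ord_cj k hk z hz, hz7]
      have c := (allBelow_iff _ _).1 g168_seven_chk z hz
      simp only [beq_of_eq hz7, Bool.not_true, Bool.false_or] at c
      have c := (allBelow_iff _ _).1 c _ hw
      simp only [beq_of_eq hw7, Bool.not_true, Bool.false_or, Bool.or_eq_true, Bool.and_eq_true] at c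
      rcases c with c | ⟨c4, c3⟩
      · rw [hf.cj hk hz]
        exact (hf.mem_zpowers_iff hz hw hz7).2 c
      · exfalso
        apply hM
        obtain ⟨m4, _, e4⟩ := hasOrd_iff.1 c4
        obtain ⟨m3, _, e3⟩ := hasOrd_iff.1 c3
        have q : ∀ m, f (gm (gp z m) (gcj k z)) ∈ M := by
          intro m
          rw [← hf.mul _ (Co168.gp_lt hz m) _ hw, ← hf.pow hz]
          exact M.mul_mem (M.pow_mem hzM m) hwM
        exact eq_top_of_orders h M hzM (q m4) (q m3) (by rw [hf.orderOf_eq hz, hz7])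
          (by rw [hf.orderOf_eq (gm_lt (Co168.gp_lt hz m4) hw), e4])
          (by rw [hf.orderOf_eq (gm_lt (Co168.gp_lt hz m3) hw), e3])
    intro x hx
    exact mem_normalizer_zpowers (key x hx) (key _ (M.inv_mem hx))
  · left
    push Not at h7
    by_cases h3 : ∃ x < 168, go x = 3 ∧ f x ∈ M
    · obtain ⟨x, hx, hx3, hxM⟩ := h3
      obtain ⟨l1, l2, l3, l4, o1, o2, o3, o4, n12, n34, c12, c34⟩ := g168_x x hx hx3
      have C12 : f (gx1 x) * f (gx2 x) = f (gx2 x) * f (gx1 x) := (hf.comm_iff l2 l1).2 c12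
      have C34 : f (gx3 x) * f (gx4 x) = f (gx4 x) * f (gx3 x) := (hf.comm_iff l4 l3).2 c34
      have hun : ∀ y ∈ M,
          y ∈ Subgroup.normalizer ((fourSub (f (gx1 x)) (f (gx2 x)) C12 (hf.sq_one l1 o1) (hf.sq_one l2 o2) :
            Subgroup G) : Set G) ∨
          y ∈ Subgroup.normalizer ((fourSub (f (gx3 x)) (f (gx4 x)) C34 (hf.sq_one l3 o3) (hf.sq_one l4 o4) :
            Subgroup G) : Set G) := by
        intro y hy
        obtain ⟨k, hk, rfl⟩ := hf.surj y
        have c := (allBelow_iff _ _).1 g168_three_chk x hx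
        simp only [beq_of_eq hx3, Bool.not_true, Bool.false_or] at c
        have c := (allBelow_iff _ _).1 c k hk
        simp only [Bool.or_eq_true] at c
        have hxy : f (gm x k) ∈ M := by
          rw [← hf.mul x hx k hk]
          exact M.mul_mem hxM hy
        rcases c with c | c | c | c | c | c
        · exact Or.inl ((hf.mem_normalizer_four l1 l2 hk).2 c)
        · exact Or.inr ((hf.mem_normalizer_four l3 l4 hk).2 c)
        · exact absurd hy (h7 k hk (Nat.eq_of_beq_eq_true c))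
        · exact absurd hxy (h7 _ (gm_lt hx hk) (Nat.eq_of_beq_eq_true c))
        · exfalso
          have l5 := gm_lt hx hx
          have l6 := gm_lt l5 hk
          have l7 := gm_lt l6 hx
          have l8 := gm_lt l7 hk
          have l9 := gm_lt l8 hk
          apply h7 _ l9 (Nat.eq_of_beq_eq_true c)
          show f (gm (gm (gm (gm (gm x x) k) x) k) k) ∈ M
          rw [← hf.mul _ l8 k hk, ← hf.mul _ l7 k hk, ← hf.mul _ l6 x hx, ← hf.mul _ l5 k hk, ← hf.mul x hx x hx]
          exact M.mul_mem (M.mul_mem (M.mul_mem (M.mul_mem (M.mul_mem hxM hxM) hy) hxM) hy) hy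
        · exfalso
          have l5 := gm_lt hx hk
          have l6 := gm_lt l5 hx
          have l7 := gm_lt l6 hk
          have l8 := gm_lt l7 hk
          have l9 := gm_lt l8 hk
          apply h7 _ l9 (Nat.eq_of_beq_eq_true c)
          show f (gm (gm (gm (gm (gm x k) x) k) k) k) ∈ M
          rw [← hf.mul _ l8 k hk, ← hf.mul _ l7 k hk, ← hf.mul _ l6 k hk, ← hf.mul _ l5 x hx, ← hf.mul x hx k hk]
          exact M.mul_mem (M.mul_mem (M.mul_mem (M.mul_mem (M.mul_mem hxM hy) hxM) hy) hy) hy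
      rcases le_of_le_union hun with hle | hle
      · exact ⟨_, isKleinFour_fourSub _ _ _ _ _ (hf.ne_one_of_go l1 o1) (hf.ne_one_of_go l2 o2)
          (fun e => n12 (hf.inj _ l1 _ l2 e)), hle⟩
      · exact ⟨_, isKleinFour_fourSub _ _ _ _ _ (hf.ne_one_of_go l3 o3) (hf.ne_one_of_go l4 o4)
          (fun e => n34 (hf.inj _ l3 _ l4 e)), hle⟩
    · push Not at h3
      have : Fact (Nat.Prime 2) := ⟨Nat.prime_two⟩
      have hp : IsPGroup 2 M := by
        intro m
        refine ⟨2, ?_⟩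
        apply Subtype.ext
        obtain ⟨k, hk, e⟩ := hf.surj m.1
        have hkM : f k ∈ M := e ▸ m.2
        have ho := hf.orderOf_eq hk
        show m.1 ^ (2 ^ 2) = 1
        rw [← e]
        apply orderOf_dvd_iff_pow_eq_one.1
        rw [ho]
        rcases g168_orders k hk with o | o | o | o | o
        · rw [o]; norm_num
        · rw [o]; norm_num
        · exact absurd hkM (h3 k hk o)
        · rw [o]; norm_num
        · exact absurd hkM (h7 k hk o)
      obtain ⟨T, hT⟩ := hp.exists_le_sylow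
      obtain ⟨i, hi, hi2, hC⟩ := sylow_index h hf T
      obtain ⟨hA, hB, hA2, hB2, hAi, hBi, hcA, hcB, hBU⟩ := g168_ab i hi hi2
      have cA : f i * f (ga i) = f (ga i) * f i := (hf.comm_iff hA hi).2 hcA
      refine ⟨fourSub (f i) (f (ga i)) cA (hf.sq_one hi hi2) (hf.sq_one hA hA2),
        isKleinFour_fourSub _ _ _ _ _ (hf.ne_one_of_go hi hi2) (hf.ne_one_of_go hA hA2)
          (fun e => hAi (hf.inj _ hi _ hA e).symm), ?_⟩
      intro m hm
      have h1 := hT hm
      rw [← hC, Subgroup.mem_centralizer_singleton_iff] at h1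
      obtain ⟨k, hk, rfl⟩ := hf.surj m
      exact (hf.mem_normalizer_four hi hA hk).2 (g168_two_nr i hi k hk hi2 ((hf.comm_iff hi hk).1 h1))

theorem ne_top_of_card {G : Type*} [Group G] (h : Nat.card G = 168) {X : Subgroup G} {n : ℕ}
    (hX : Nat.card X = n) (hn : n ≠ 168) : X ≠ ⊤ := by
  rintro rfl
  rw [Subgroup.card_top, h] at hX
  exact hn hX.symm

theorem coatom_cases {G : Type*} [Group G] [Finite G] [IsSimpleGroup G] (h : Nat.card G = 168) {f : ℕ → G}
    (hf : Co168 G f) (M : Subgroup G) (hM : IsCoatom M) :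
    (∃ U : Subgroup G, IsKleinFour U ∧ M = Subgroup.normalizer (U : Set G)) ∨
    (∃ z < 168, go z = 7 ∧ M = Subgroup.normalizer ((Subgroup.zpowers (f z) : Subgroup G) : Set G)) := by
  rcases claimA h hf M hM.1 with ⟨U, hU, hle⟩ | ⟨z, hz, h7, hle⟩
  · left
    refine ⟨U, hU, ?_⟩
    by_contra hne
    exact ne_top_of_card h (hf.card_normalizer_four U hU) (by norm_num) (hM.2 _ (lt_of_le_of_ne hle hne))
  · right
    refine ⟨z, hz, h7, ?_⟩
    by_contra hne
    exact ne_top_of_card h (hf.card_normalizer_seven hz h7) (by norm_num) (hM.2 _ (lt_of_le_of_ne hle hne))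

theorem four_normalizer_coatom {G : Type*} [Group G] [Finite G] (h : Nat.card G = 168) {f : ℕ → G}
    (hf : Co168 G f) (U : Subgroup G) (hU : IsKleinFour U) : IsCoatom (Subgroup.normalizer (U : Set G)) := by
  have h24 := hf.card_normalizer_four U hU
  refine ⟨ne_top_of_card h h24 (by norm_num), ?_⟩
  intro X hX
  obtain ⟨a, ha⟩ := Subgroup.card_dvd_of_le hX.le
  obtain ⟨b, hb⟩ := Subgroup.card_subgroup_dvd_card X
  rw [h24] at ha
  rw [h, ha] at hb
  have hab : a * b = 7 := by nlinarith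
  have ha7 : a = 1 ∨ a = 7 := (Nat.dvd_prime (by norm_num)).1 ⟨b, hab.symm⟩
  rcases ha7 with rfl | rfl
  · exfalso
    apply hX.ne
    exact Subgroup.eq_of_le_of_card_ge hX.le (by rw [ha, h24])
  · apply Subgroup.eq_top_of_card_eq
    rw [ha, h]

theorem map_four_eq {G : Type*} [Group G] [Finite G] {U : Subgroup G} (hU : IsKleinFour U) {x y g : G}
    {hxy : x * y = y * x} {hx : x * x = 1} {hy : y * y = 1} (hK : IsKleinFour (fourSub x y hxy hx hy))
    (h1 : g * x * g⁻¹ ∈ U) (h2 : g * y * g⁻¹ ∈ U) :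
    (fourSub x y hxy hx hy).map (MulAut.conj g).toMonoidHom = U := by
  apply Subgroup.eq_of_le_of_card_ge
  · rintro _ ⟨u, hu, rfl⟩
    show g * u * g⁻¹ ∈ U
    rcases mem_fourSub.1 hu with rfl | rfl | rfl | rfl
    · rw [mul_one, mul_inv_cancel]
      exact U.one_mem
    · exact h1
    · exact h2
    · have : g * (x * y) * g⁻¹ = (g * x * g⁻¹) * (g * y * g⁻¹) := by group
      rw [this]
      exact U.mul_mem h1 h2
  · rw [Subgroup.card_map_of_injective (MulAut.conj g).injective, hK.card_four, hU.card_four]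

theorem s1008 {G : Type*} [Group G] [Finite G] [IsSimpleGroup G] (h : Nat.card G = 168) :
    (∀ M : Subgroup G, IsCoatom M → Nonempty (↥M ≃* Equiv.Perm (Fin 4)) ∨
      (Nat.card ↥M = 21 ∧ ¬ IsMulCommutative ↥M)) ∧
    (∀ M M' : Subgroup G, IsCoatom M → IsCoatom M' → Nat.card ↥M = 21 → Nat.card ↥M' = 21 →
      ∃ g : G, M' = M.map (MulAut.conj g).toMonoidHom) ∧
    ∃ M₁ M₂ : Subgroup G, IsCoatom M₁ ∧ IsCoatom M₂ ∧ Nonempty (↥M₁ ≃* Equiv.Perm (Fin 4)) ∧
      Nonempty (↥M₂ ≃* Equiv.Perm (Fin 4)) ∧ (∀ g : G, M₂ ≠ M₁.map (MulAut.conj g).toMonoidHom) ∧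
      ∀ M : Subgroup G, IsCoatom M → Nonempty (↥M ≃* Equiv.Perm (Fin 4)) →
        ∃ g : G, M = M₁.map (MulAut.conj g).toMonoidHom ∨ M = M₂.map (MulAut.conj g).toMonoidHom := by
  obtain ⟨f, hf⟩ := exists_co168 h
  refine ⟨?_, ?_, ?_⟩
  · intro M hM
    rcases coatom_cases h hf M hM with ⟨U, hU, rfl⟩ | ⟨z, hz, h7, rfl⟩
    · exact Or.inl (four_normalizer_s4 hf U hU)
    · right
      refine ⟨hf.card_normalizer_seven hz h7, ?_⟩
      intro hc
      obtain ⟨k, hk, hk7, hne⟩ := (g168_n7 z hz h7).2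
      have h1 := (hf.mem_normalizer_seven hz hk h7).2 hk7
      have h2 : f z ∈ Subgroup.normalizer ((Subgroup.zpowers (f z) : Subgroup G) : Set G) :=
        Subgroup.le_normalizer (Subgroup.mem_zpowers _)
      have h3 := hc.is_comm.comm ⟨f k, h1⟩ ⟨f z, h2⟩
      exact hne ((hf.comm_iff hz hk).1 (congrArg Subtype.val h3))
  · intro M M' hM hM' c c'
    have red : ∀ X : Subgroup G, IsCoatom X → Nat.card X = 21 →
        ∃ z < 168, go z = 7 ∧ X = Subgroup.normalizer ((Subgroup.zpowers (f z) : Subgroup G) : Set G) := by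
      intro X hX cX
      rcases coatom_cases h hf X hX with ⟨U, hU, rfl⟩ | hz
      · rw [hf.card_normalizer_four U hU] at cX
        omega
      · exact hz
    obtain ⟨z, hz, h7, rfl⟩ := red M hM c
    obtain ⟨w, hw, h7', rfl⟩ := red M' hM' c'
    have key : ∃ g : G, (Subgroup.zpowers (f z)).map (MulAut.conj g).toMonoidHom = Subgroup.zpowers (f w) := by
      rcases g168_c7 z hz w hw h7 h7' with e | e
      · obtain ⟨g, hg⟩ := isConj_iff.1 ((hf.isConj_iff hz hw).2 e)
        refine ⟨g, ?_⟩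
        rw [MonoidHom.map_zpowers, ← hg]
        rfl
      · obtain ⟨g, hg⟩ := isConj_iff.1 ((hf.isConj_iff (Co168.gi_lt hz) hw).2 e)
        refine ⟨g, ?_⟩
        rw [← Subgroup.zpowers_inv, hf.inv hz, MonoidHom.map_zpowers, ← hg]
        rfl
    obtain ⟨g, hg⟩ := key
    exact ⟨g, by rw [Subgroup.map_equiv_normalizer_eq, hg]⟩
  · have h12 : go 1 = 2 := by decide +kernel
    have l1 : (1 : ℕ) < 168 := by norm_num
    obtain ⟨hA, hB, hA2, hB2, hAi, hBi, hcA, hcB, hBU⟩ := g168_ab 1 l1 h12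
    have e_i := hf.sq_one l1 h12
    have e_a := hf.sq_one hA hA2
    have e_b := hf.sq_one hB hB2
    have cA : f 1 * f (ga 1) = f (ga 1) * f 1 := (hf.comm_iff hA l1).2 hcA
    have cB : f 1 * f (gb 1) = f (gb 1) * f 1 := (hf.comm_iff hB l1).2 hcB
    have K1 : IsKleinFour (fourSub (f 1) (f (ga 1)) cA e_i e_a) :=
      isKleinFour_fourSub _ _ _ _ _ (hf.ne_one_of_go l1 h12) (hf.ne_one_of_go hA hA2)
        (fun e => hAi (hf.inj _ l1 _ hA e).symm)
    have K2 : IsKleinFour (fourSub (f 1) (f (gb 1)) cB e_i e_b) :=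
      isKleinFour_fourSub _ _ _ _ _ (hf.ne_one_of_go l1 h12) (hf.ne_one_of_go hB hB2)
        (fun e => hBi (hf.inj _ l1 _ hB e).symm)
    refine ⟨_, _, four_normalizer_coatom h hf _ K1, four_normalizer_coatom h hf _ K2,
      four_normalizer_s4 hf _ K1, four_normalizer_s4 hf _ K2, ?_, ?_⟩
    · intro g e
      obtain ⟨k, hk, rfl⟩ := hf.surj g
      obtain ⟨m, hm, m1, m2⟩ := g168_nn k hk
      have q1 : f m ∈ Subgroup.normalizer ((fourSub (f 1) (f (ga 1)) cA e_i e_a : Subgroup G) : Set G) :=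
        (hf.mem_normalizer_four l1 hA hm).2 m1
      have q2 : f (gcj k m) ∈ (Subgroup.normalizer ((fourSub (f 1) (f (ga 1)) cA e_i e_a : Subgroup G) :
          Set G)).map (MulAut.conj (f k)).toMonoidHom := by
        rw [← hf.cj hk hm]
        exact ⟨f m, q1, rfl⟩
      rw [← e, hf.mem_normalizer_four l1 hB (Co168.gcj_lt hk hm), m2] at q2
      exact absurd q2 (by decide)
    · intro M hM ⟨eM⟩
      have c24 : Nat.card M = 24 := by
        rw [Nat.card_congr eM.toEquiv, Nat.card_eq_fintype_card, Fintype.card_perm, Fintype.card_fin]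
        rfl
      rcases coatom_cases h hf M hM with ⟨U, hU, rfl⟩ | ⟨z, hz, h7, rfl⟩
      · obtain ⟨c, hc, d, hd, hc2, hd2, hne, hcd, hab, h1, h2, rfl⟩ := hf.exists_four U hU
        have q := (allBelow_iff _ _).1 g168_cf_chk c hc
        simp only [beq_of_eq hc2, Bool.not_true, Bool.false_or] at q
        have q := (allBelow_iff _ _).1 q d hd
        simp only [beq_of_eq hd2, beq_of_ne hne, beq_of_eq hcd, Bool.not_false, Bool.and_self, Bool.not_true,
          Bool.false_or] at q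
        obtain ⟨k, hk, q⟩ := (nall_iff _ _).1 q
        simp only [Bool.or_eq_true, Bool.and_eq_true] at q
        refine ⟨f k, ?_⟩
        rcases q with ⟨q1, q2⟩ | ⟨q1, q2⟩
        · left
          rw [Subgroup.map_equiv_normalizer_eq, map_four_eq hU K1]
          · rw [hf.cj hk l1]
            exact (hf.mem_four_iff hc hd (Co168.gcj_lt hk l1)).2 q1
          · rw [hf.cj hk hA]
            exact (hf.mem_four_iff hc hd (Co168.gcj_lt hk hA)).2 q2
        · right
          rw [Subgroup.map_equiv_normalizer_eq, map_four_eq hU K2]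
          · rw [hf.cj hk l1]
            exact (hf.mem_four_iff hc hd (Co168.gcj_lt hk l1)).2 q1
          · rw [hf.cj hk hB]
            exact (hf.mem_four_iff hc hd (Co168.gcj_lt hk hB)).2 q2
      · rw [hf.card_normalizer_seven hz h7] at c24
        omega

end Cfsg.Agent.Lib.Helper34
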