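import Cfsg.Agent.Lib.Helper34.GolayCosets
import Cfsg.Agent.Lib.Helper33.Tab

set_option autoImplicit false

/-! The punctured code of length 23. -/

namespace Cfsg.Agent.Lib.Helper34

open Cfsg Cfsg.Agent.Lib.Helper33

/-- restriction of a word of length 24 to the 23 residues -/
def res (w : GolayPt → ZMod 2) : ZMod 23 → ZMod 2 := fun x => w (some x)

/-- extension of a word of length 23 by a value at the extra point -/
def ext (b : ZMod 2) (u : ZMod 23 → ZMod 2) : GolayPt → ZMod 2 := fun p =>
  match p with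
  | none => b
  | some x => u x

theorem res_ext (b : ZMod 2) (u : ZMod 23 → ZMod 2) : res (ext b u) = u := rfl

theorem ext_res (w : GolayPt → ZMod 2) : ext (w none) (res w) = w := by
  funext p
  cases p <;> rfl

theorem res_add (v w : GolayPt → ZMod 2) : res (v + w) = res v + res w := rfl

theorem res_sub (v w : GolayPt → ZMod 2) : res (v - w) = res v - res w := rfl

theorem dist_eq_norm_sub (x y : ZMod 23 → ZMod 2) : hammingDist x y = hammingNorm (x - y) := by
  unfold hammingDist hammingNorm
  congr 1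
  ext i
  simp [sub_eq_zero]

theorem card_support (w : GolayPt → ZMod 2) :
    (support₂ w).card = (if w none ≠ 0 then 1 else 0) + hammingNorm (res w) := by
  unfold support₂ hammingNorm
  rw [Finset.card_filter, Finset.card_filter, Fintype.sum_option]
  rfl

theorem norm_res_le (w : GolayPt → ZMod 2) : hammingNorm (res w) ≤ (support₂ w).card := by
  rw [card_support]; omega

theorem card_support_le (w : GolayPt → ZMod 2) : (support₂ w).card ≤ hammingNorm (res w) + 1 := by
  rw [card_support]; split_ifs <;> omega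

/-- the punctured code -/
def code23 : Set (ZMod 23 → ZMod 2) := {u | ∃ w ∈ golayCode, ∀ x : ZMod 23, u x = w (some x)}

theorem mem_code23 {u : ZMod 23 → ZMod 2} : u ∈ code23 ↔ ∃ w ∈ golayCode, u = res w := by
  constructor
  · rintro ⟨w, hw, h⟩; exact ⟨w, hw, funext h⟩
  · rintro ⟨w, hw, rfl⟩; exact ⟨w, hw, fun _ => rfl⟩

theorem card_support_code {w : GolayPt → ZMod 2} (hw : w ∈ golayCode) :
    (support₂ w).card = 0 ∨ (support₂ w).card = 8 ∨ (support₂ w).card = 12 ∨ (support₂ w).card = 16 ∨
      (support₂ w).card = 24 :=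
  card_of_mem_supports ((mem_code_iff_support w).1 hw)

theorem eq_zero_of_card_support {w : GolayPt → ZMod 2} (h : (support₂ w).card = 0) : w = 0 := by
  rw [← ind_support w, Finset.card_eq_zero.1 h, ind_empty]

/-- restriction is injective on the code -/
theorem res_injOn {v w : GolayPt → ZMod 2} (hv : v ∈ golayCode) (hw : w ∈ golayCode)
    (h : hammingDist (res v) (res w) ≤ 6) : v = w := by
  have h1 : v - w ∈ golayCode := golayCode.sub_mem hv hw
  have h2 := card_support_le (v - w)
  rw [res_sub, ← dist_eq_norm_sub] at h2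
  have h3 : (support₂ (v - w)).card = 0 := by
    rcases card_support_code h1 with hc | hc | hc | hc | hc <;> omega
  exact sub_eq_zero.1 (eq_zero_of_card_support h3)

theorem exists_close (u : ZMod 23 → ZMod 2) : ∃ c ∈ code23, hammingDist u c ≤ 3 := by
  obtain ⟨b, hb⟩ : ∃ b : ZMod 2, (support₂ (ext b u)).card % 2 = 1 := by
    by_cases h : hammingNorm u % 2 = 1
    · refine ⟨0, ?_⟩
      rw [card_support, res_ext]
      simpa [ext] using h
    · refine ⟨1, ?_⟩
      rw [card_support, res_ext]
      simp only [ext]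
      simp only [ne_eq, one_ne_zero, not_false_eq_true, if_true]
      omega
  obtain ⟨T, hT4, hT⟩ := exists_leader (support₂ (ext b u))
  have hadd := card_symmDiff_add (support₂ (ext b u)) T
  have hT3 : T.card ≤ 3 := by
    rcases card_of_mem_supports hT with hc | hc | hc | hc | hc <;> omega
  refine ⟨res (ind (symmDiff (support₂ (ext b u)) T)), mem_code23.2 ⟨_, (ind_mem_code_iff _).2 hT, rfl⟩, ?_⟩
  have e : u - res (ind (symmDiff (support₂ (ext b u)) T)) = res (ind T) := by
    rw [ind_symmDiff, ind_support, res_add, res_ext]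
    funext x
    have h2 : ∀ a c : ZMod 2, a - (a + c) = c := by decide
    exact h2 _ _
  rw [dist_eq_norm_sub, e]
  refine le_trans (norm_res_le _) ?_
  rw [support_ind]
  exact hT3

theorem golay23_perfect (u : ZMod 23 → ZMod 2) : ∃! c : ZMod 23 → ZMod 2, c ∈ code23 ∧ hammingDist u c ≤ 3 := by
  obtain ⟨c, hc, hd⟩ := exists_close u
  refine ⟨c, ⟨hc, hd⟩, ?_⟩
  rintro c' ⟨hc', hd'⟩
  obtain ⟨w, hw, rfl⟩ := mem_code23.1 hc
  obtain ⟨w', hw', rfl⟩ := mem_code23.1 hc'
  have h1 : hammingDist (res w') (res w) ≤ 6 := by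
    have := hammingDist_triangle (res w') u (res w)
    rw [hammingDist_comm (res w') u] at this
    omega
  rw [res_injOn hw' hw h1]

/-! ### the weight distribution -/

/-- the words of the punctured code, enumerated -/
def c23 (x : ℕ) : ZMod 23 → ZMod 2 := res (wordOf (enc x))

theorem mem_code23_iff {u : ZMod 23 → ZMod 2} : u ∈ code23 ↔ ∃ x < 4096, u = c23 x := by
  rw [mem_code23]
  constructor
  · rintro ⟨w, hw, rfl⟩
    obtain ⟨x, hx, rfl⟩ := (mem_code_iff w).1 hw
    exact ⟨x, hx, rfl⟩
  · rintro ⟨x, hx, rfl⟩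
    exact ⟨_, enc_mem hx, rfl⟩

theorem c23_inj : ∀ x < 4096, ∀ y < 4096, c23 x = c23 y → x = y := by
  intro x hx y hy h
  have h1 : wordOf (enc x) = wordOf (enc y) := by
    apply res_injOn (enc_mem hx) (enc_mem hy)
    have : res (wordOf (enc x)) = res (wordOf (enc y)) := h
    rw [this, hammingDist_self]
    norm_num
  have h2 : unmask (enc x) = unmask (enc y) := by
    rw [← support_wordOf, ← support_wordOf, h1]
  have h3 := unmask_inj (enc_lt hx) (enc_lt hy) h2
  rw [← enc_and hx, ← enc_and hy, h3]

theorem low_bits : ∀ x : ZMod 23, (0x7FFFFF : ℕ).testBit (idx (some x)) = true := by decide +kernel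

theorem norm_c23 (x : ℕ) : hammingNorm (c23 x) = popc (Nat.land (enc x) 0x7FFFFF) := by
  have hlt : Nat.land (enc x) 0x7FFFFF < 2 ^ 24 :=
    lt_of_le_of_lt Nat.and_le_right (by norm_num)
  have h1 : c23 x = res (wordOf (Nat.land (enc x) 0x7FFFFF)) := by
    funext a
    show wordOf (enc x) (some a) = wordOf (Nat.land (enc x) 0x7FFFFF) (some a)
    unfold wordOf
    have : (Nat.land (enc x) 0x7FFFFF).testBit (idx (some a)) = (enc x).testBit (idx (some a)) := by
      show ((enc x) &&& 0x7FFFFF).testBit (idx (some a)) = _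
      rw [Nat.testBit_and, low_bits, Bool.and_true]
    rw [this]
  have h2 := card_support (wordOf (Nat.land (enc x) 0x7FFFFF))
  have h3 : wordOf (Nat.land (enc x) 0x7FFFFF) none = 0 := by
    unfold wordOf
    have : (Nat.land (enc x) 0x7FFFFF).testBit (idx none) = false := by
      show ((enc x) &&& 0x7FFFFF).testBit (idx none) = _
      rw [Nat.testBit_and]
      have : (0x7FFFFF : ℕ).testBit (idx none) = false := by decide +kernel
      rw [this, Bool.and_false]
    rw [this]
    simp
  rw [h3, support_wordOf, card_unmask hlt] at h2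
  rw [h1]
  simpa using h2.symm

theorem count23 (k : ℕ) : {u : ZMod 23 → ZMod 2 | u ∈ code23 ∧ hammingNorm u = k}.ncard =
    cntBelow (fun x => Nat.beq (popc (Nat.land (enc x) 0x7FFFFF)) k) 4096 := by
  rw [cntBelow_eq]
  have : {u : ZMod 23 → ZMod 2 | u ∈ code23 ∧ hammingNorm u = k} = c23 ''
      (((Finset.range 4096).filter (fun x => Nat.beq (popc (Nat.land (enc x) 0x7FFFFF)) k = true) : Finset ℕ) : Set ℕ) := by
    ext u
    constructor
    · rintro ⟨hu, hk⟩
      obtain ⟨x, hx, rfl⟩ := mem_code23_iff.1 hu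
      refine ⟨x, ?_, rfl⟩
      rw [Finset.mem_coe, Finset.mem_filter, Finset.mem_range]
      refine ⟨hx, ?_⟩
      rw [← norm_c23, hk]
      exact Nat.beq_refl _
    · rintro ⟨x, hx, rfl⟩
      rw [Finset.mem_coe, Finset.mem_filter, Finset.mem_range] at hx
      exact ⟨mem_code23_iff.2 ⟨x, hx.1, rfl⟩, by rw [norm_c23]; exact Nat.eq_of_beq_eq_true hx.2⟩
  rw [this, Set.InjOn.ncard_image, Set.ncard_coe_finset]
  intro a ha b hb hab
  rw [Finset.mem_coe, Finset.mem_filter, Finset.mem_range] at ha hb
  exact c23_inj a ha.1 b hb.1 hab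

theorem ncard_code23 : code23.ncard = 4096 := by
  have : code23 = c23 '' ((Finset.range 4096 : Finset ℕ) : Set ℕ) := by
    ext u
    rw [mem_code23_iff]
    constructor
    · rintro ⟨x, hx, rfl⟩; exact ⟨x, by simpa using hx, rfl⟩
    · rintro ⟨x, hx, rfl⟩; exact ⟨x, by simpa using hx, rfl⟩
  rw [this, Set.InjOn.ncard_image, Set.ncard_coe_finset, Finset.card_range]
  intro a ha b hb hab
  exact c23_inj a (by simpa using ha) b (by simpa using hb) hab

set_option maxRecDepth 1000000 in
theorem cnt23_7 : cntBelow (fun x => Nat.beq (popc (Nat.land (enc x) 0x7FFFFF)) 7) 4096 = 253 := by decide +kernel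
set_option maxRecDepth 1000000 in
theorem cnt23_8 : cntBelow (fun x => Nat.beq (popc (Nat.land (enc x) 0x7FFFFF)) 8) 4096 = 506 := by decide +kernel
set_option maxRecDepth 1000000 in
theorem cnt23_11 : cntBelow (fun x => Nat.beq (popc (Nat.land (enc x) 0x7FFFFF)) 11) 4096 = 1288 := by decide +kernel
set_option maxRecDepth 1000000 in
theorem cnt23_12 : cntBelow (fun x => Nat.beq (popc (Nat.land (enc x) 0x7FFFFF)) 12) 4096 = 1288 := by decide +kernel
set_option maxRecDepth 1000000 in
theorem cnt23_15 : cntBelow (fun x => Nat.beq (popc (Nat.land (enc x) 0x7FFFFF)) 15) 4096 = 506 := by decide +kernel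
set_option maxRecDepth 1000000 in
theorem cnt23_16 : cntBelow (fun x => Nat.beq (popc (Nat.land (enc x) 0x7FFFFF)) 16) 4096 = 253 := by decide +kernel

theorem min_weight23 : ∀ u ∈ code23, u ≠ 0 → 7 ≤ hammingNorm u := by
  intro u hu hne
  obtain ⟨w, hw, rfl⟩ := mem_code23.1 hu
  have h1 := card_support_le w
  have h2 : (support₂ w).card ≠ 0 := by
    intro h0
    apply hne
    rw [eq_zero_of_card_support h0]
    rfl
  rcases card_support_code hw with hc | hc | hc | hc | hc <;> omega

end Cfsg.Agent.Lib.Helper34
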