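import Cfsg.Agent.Lib.Helper33.OctData
import Cfsg.Agent.Lib.Helper33.DodData

set_option autoImplicit false

/-! The permutation module `F₂^24` of `M24`: indicator words, the action, and the fact that an
invariant subspace containing a code word different from `0`, `1` contains the whole code. -/

namespace Cfsg.Agent.Lib.Helper34

open Cfsg Cfsg.Agent.Lib.Helper33
open scoped Pointwise

/-- the binary word with support `s` -/
def ind (s : Finset GolayPt) : GolayPt → ZMod 2 := fun p => if p ∈ s then 1 else 0

theorem support_ind (s : Finset GolayPt) : support₂ (ind s) = s := by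
  ext p
  by_cases h : p ∈ s <;> simp [support₂, ind, h]

theorem zmod2_cases (a : ZMod 2) : a = 0 ∨ a = 1 := by revert a; decide

theorem ind_support (w : GolayPt → ZMod 2) : ind (support₂ w) = w := by
  funext p
  rcases zmod2_cases (w p) with h | h <;> simp [support₂, ind, h]

theorem ind_injective : Function.Injective ind := fun s t h => by
  rw [← support_ind s, ← support_ind t, h]

theorem ind_symmDiff (s t : Finset GolayPt) : ind (symmDiff s t) = ind s + ind t := by
  funext p
  simp only [ind, Finset.mem_symmDiff, Pi.add_apply]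
  by_cases h1 : p ∈ s <;> by_cases h2 : p ∈ t <;> simp [h1, h2]
  decide

theorem ind_empty : ind ∅ = 0 := by
  funext p; simp [ind]

theorem ind_univ : ind Finset.univ = fun _ => (1 : ZMod 2) := by
  funext p; simp [ind]

theorem ind_unmask (m : ℕ) : ind (unmask m) = wordOf m := by
  rw [← support_wordOf, ind_support]

theorem ind_mem_code_iff (s : Finset GolayPt) :
    ind s ∈ golayCode ↔ s ∈ supports (golayCode : Set (GolayPt → ZMod 2)) := by
  constructor
  · intro h; exact ⟨ind s, h, support_ind s⟩
  · rintro ⟨w, hw, rfl⟩; rw [ind_support]; exact hw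

theorem mem_code_iff_support (w : GolayPt → ZMod 2) :
    w ∈ golayCode ↔ support₂ w ∈ supports (golayCode : Set (GolayPt → ZMod 2)) := by
  rw [← ind_mem_code_iff, ind_support]

/-- the action of a permutation on words, applied to an indicator word -/
theorem act_ind (σ : Equiv.Perm GolayPt) (s : Finset GolayPt) :
    (fun p => ind s (σ.symm p)) = ind (σ • s) := by
  funext p
  have : σ.symm p ∈ s ↔ p ∈ σ • s := by
    rw [← Finset.inv_smul_mem_iff]; rfl
  simp only [ind, this]

theorem univ_mem_supports : (Finset.univ : Finset GolayPt) ∈ supports (golayCode : Set (GolayPt → ZMod 2)) := by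
  rw [← unmask_all]
  exact (unmask_mem_supports_iff (by norm_num)).2 (by decide +kernel)

theorem one_mem_code : (fun _ : GolayPt => (1 : ZMod 2)) ∈ golayCode := by
  rw [← ind_univ, ind_mem_code_iff]; exact univ_mem_supports

theorem card_symmDiff_add (s t : Finset GolayPt) :
    (symmDiff s t).card + 2 * (s ∩ t).card = s.card + t.card := by
  have h1 : symmDiff s t = (s \ t) ∪ (t \ s) := rfl
  have h2 : Disjoint (s \ t) (t \ s) := by
    rw [Finset.disjoint_left]
    intro a ha hb
    exact (Finset.mem_sdiff.1 hb).2 (Finset.mem_sdiff.1 ha).1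
  rw [h1, Finset.card_union_of_disjoint h2]
  have h3 := Finset.card_sdiff_add_card_inter s t
  have h4 := Finset.card_sdiff_add_card_inter t s
  rw [Finset.inter_comm t s] at h4
  omega

section Invariant

variable {W : Submodule (ZMod 2) (GolayPt → ZMod 2)}

theorem inv_smul_mem (hW : ∀ σ ∈ M24, ∀ w ∈ W, (fun p => w (σ.symm p)) ∈ W) {g : Equiv.Perm GolayPt}
    (hg : g ∈ M24) {s : Finset GolayPt} (hs : ind s ∈ W) : ind (g • s) ∈ W := by
  rw [← act_ind]; exact hW g hg _ hs

theorem symmDiff_mem {s t : Finset GolayPt} (hs : ind s ∈ W) (ht : ind t ∈ W) :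
    ind (symmDiff s t) ∈ W := by
  rw [ind_symmDiff]; exact W.add_mem hs ht

theorem qr_dodecad (t : ZMod 23) : support₂ (qrWord t) ∈ dodecads := by
  refine ⟨⟨qrWord t, Submodule.subset_span (Or.inl ⟨t, rfl⟩), rfl⟩, ?_⟩
  rw [qrWord_eq, support_wordOf, card_unmask (fld24_lt _ _)]
  revert t; decide +kernel

theorem compl_dodecad {d : Finset GolayPt} (hd : d ∈ dodecads) : symmDiff d Finset.univ ∈ dodecads := by
  refine ⟨supports_symmDiff hd.1 univ_mem_supports, ?_⟩
  have := card_symmDiff_add d Finset.univ
  rw [Finset.inter_univ, hd.2, Finset.card_univ] at this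
  have h24 : Fintype.card GolayPt = 24 := by decide
  omega

/-- an invariant subspace containing a dodecad contains the code -/
theorem code_le_of_dodecad (hW : ∀ σ ∈ M24, ∀ w ∈ W, (fun p => w (σ.symm p)) ∈ W)
    {d : Finset GolayPt} (hd : d ∈ dodecads) (h : ind d ∈ W) : golayCode ≤ W := by
  have hall : ∀ d' ∈ dodecads, ind d' ∈ W := by
    intro d' hd'
    obtain ⟨g, hg⟩ := dod_rank.trans d hd
    obtain ⟨g', hg'⟩ := dod_rank.trans d' hd'
    have : d' = ((g'⁻¹ * g : ↥M24) : Equiv.Perm GolayPt) • d := by
      show d' = (g'⁻¹ * g) • d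
      rw [mul_smul, hg, ← hg', inv_smul_smul]
    rw [this]
    exact inv_smul_mem hW (g'⁻¹ * g).2 h
  apply Submodule.span_le.2
  rintro w (⟨t, rfl⟩ | hw)
  · have := hall _ (qr_dodecad t)
    rwa [ind_support] at this
  · have h1 := symmDiff_mem h (hall _ (compl_dodecad hd))
    have h2 : symmDiff d (symmDiff d Finset.univ) = Finset.univ := by
      rw [← symmDiff_assoc, symmDiff_self, bot_symmDiff]
    rw [h2, ind_univ] at h1
    have hw' : w = 1 := hw
    rw [hw']
    exact h1

/-- an invariant subspace containing an octad contains the code -/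
theorem code_le_of_octad (hW : ∀ σ ∈ M24, ∀ w ∈ W, (fun p => w (σ.symm p)) ∈ W)
    {o : Finset GolayPt} (ho : o ∈ octads) (h : ind o ∈ W) : golayCode ≤ W := by
  have hc := oct_rank.count' ho 2
  rw [octSz_2] at hc
  have hne : {y | y ∈ octads ∧ (o ∩ y).card = 2}.Nonempty := by
    rw [← Set.ncard_pos (Set.toFinite _), hc]; norm_num
  obtain ⟨o', ho', h2⟩ := hne
  obtain ⟨g, hg⟩ := oct_rank.trans o ho
  obtain ⟨g', hg'⟩ := oct_rank.trans o' ho'
  have e : o' = ((g'⁻¹ * g : ↥M24) : Equiv.Perm GolayPt) • o := by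
    show o' = (g'⁻¹ * g) • o
    rw [mul_smul, hg, ← hg', inv_smul_smul]
  have h' : ind o' ∈ W := by
    rw [e]; exact inv_smul_mem hW (g'⁻¹ * g).2 h
  refine code_le_of_dodecad hW (d := symmDiff o o') ⟨supports_symmDiff ho.1 ho'.1, ?_⟩ (symmDiff_mem h h')
  have := card_symmDiff_add o o'
  rw [h2, ho.2, ho'.2] at this
  omega

/-- an invariant subspace containing the complement of an octad contains the code -/
theorem code_le_of_compl_octad (hW : ∀ σ ∈ M24, ∀ w ∈ W, (fun p => w (σ.symm p)) ∈ W)
    {o : Finset GolayPt} (ho : o ∈ octads) (h : ind (symmDiff o Finset.univ) ∈ W) : golayCode ≤ W := by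
  have hc := oct_rank.count' ho 2
  rw [octSz_2] at hc
  have hne : {y | y ∈ octads ∧ (o ∩ y).card = 2}.Nonempty := by
    rw [← Set.ncard_pos (Set.toFinite _), hc]; norm_num
  obtain ⟨o', ho', h2⟩ := hne
  obtain ⟨g, hg⟩ := oct_rank.trans o ho
  obtain ⟨g', hg'⟩ := oct_rank.trans o' ho'
  have e : o' = ((g'⁻¹ * g : ↥M24) : Equiv.Perm GolayPt) • o := by
    show o' = (g'⁻¹ * g) • o
    rw [mul_smul, hg, ← hg', inv_smul_smul]
  have h' : ind (symmDiff o' Finset.univ) ∈ W := by
    have := inv_smul_mem hW (g'⁻¹ * g).2 h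
    rw [Finset.smul_finset_symmDiff, ← e, Finset.smul_finset_univ] at this
    exact this
  have h3 := symmDiff_mem h h'
  have h4 : symmDiff (symmDiff o Finset.univ) (symmDiff o' Finset.univ) = symmDiff o o' := by
    rw [symmDiff_symmDiff_symmDiff_comm, symmDiff_self, symmDiff_bot]
  rw [h4] at h3
  refine code_le_of_dodecad hW (d := symmDiff o o') ⟨supports_symmDiff ho.1 ho'.1, ?_⟩ h3
  have := card_symmDiff_add o o'
  rw [h2, ho.2, ho'.2] at this
  omega

/-- an invariant subspace containing a code word other than `0`, `1` contains the code -/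
theorem code_le_of_mem (hW : ∀ σ ∈ M24, ∀ w ∈ W, (fun p => w (σ.symm p)) ∈ W)
    {s : Finset GolayPt} (hs : s ∈ supports (golayCode : Set (GolayPt → ZMod 2)))
    (h0 : s ≠ ∅) (h1 : s ≠ Finset.univ) (h : ind s ∈ W) : golayCode ≤ W := by
  rcases card_of_mem_supports hs with hc | hc | hc | hc | hc
  · exact absurd (Finset.card_eq_zero.1 hc) h0
  · exact code_le_of_octad hW ⟨hs, hc⟩ h
  · exact code_le_of_dodecad hW ⟨hs, hc⟩ h
  · have ho : symmDiff s Finset.univ ∈ octads := by
      refine ⟨supports_symmDiff hs univ_mem_supports, ?_⟩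
      have := card_symmDiff_add s Finset.univ
      rw [Finset.inter_univ, hc, Finset.card_univ] at this
      have h24 : Fintype.card GolayPt = 24 := by decide
      omega
    refine code_le_of_compl_octad hW ho ?_
    rw [symmDiff_assoc, symmDiff_self, symmDiff_bot]
    exact h
  · exfalso
    apply h1
    apply Finset.eq_univ_of_card
    rw [hc]; decide

end Invariant

end Cfsg.Agent.Lib.Helper34
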