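import Cfsg.Agent.Lib.Helper33.OctData
import Cfsg.Agent.Lib.Helper94.GolayTrans

set_option autoImplicit false

/-! Rank data for the point stabilisers `M23`, `M22` of `M24` acting on families of octads
(those containing / avoiding the fixed points).  Builds on helper33's certified forests. -/

namespace Cfsg.Agent.Lib.Helper34

open Cfsg Cfsg.Agent.Lib.Helper33
open scoped Pointwise

/-- transport of `RankData` along conjugation by an element `a` of the ambient group -/
theorem rankData_conj {G X ι : Type*} [Group G] [MulAction G X] {K K' : Subgroup G} {Ω Ω' : Set X}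
    {rel : X → X → ι} {x₀ : X} {sz : ι → ℕ} (D : RankData ↥K Ω rel x₀ sz) (a : G)
    (hK : ∀ g ∈ K, a⁻¹ * g * a ∈ K')
    (hK' : ∀ g ∈ K', a * g * a⁻¹ ∈ K)
    (hΩ : ∀ y, y ∈ Ω' ↔ a • y ∈ Ω)
    (hrel : ∀ x y, rel (a • x) (a • y) = rel x y) :
    RankData ↥K' Ω' rel (a⁻¹ • x₀) sz := by
  have key : ∀ (g : G) (y : X), a • g • y = (a * g * a⁻¹) • a • y := by
    intro g y
    rw [mul_smul, mul_smul, inv_smul_smul]
  refine ⟨?_, ?_, ?_, ?_, ?_, ?_⟩
  · rw [hΩ, smul_inv_smul]; exact D.mem₀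
  · rintro ⟨g, hg⟩ y hy
    show g • y ∈ Ω'
    rw [hΩ, key]
    exact D.smul_mem ⟨_, hK' g hg⟩ _ ((hΩ y).1 hy)
  · intro y hy
    obtain ⟨⟨g, hg⟩, h⟩ := D.trans _ ((hΩ y).1 hy)
    refine ⟨⟨_, hK g hg⟩, ?_⟩
    show (a⁻¹ * g * a) • y = a⁻¹ • x₀
    rw [mul_smul, mul_smul]
    exact congrArg (fun z => a⁻¹ • z) h
  · rintro ⟨g, hg⟩ x y
    show rel (g • x) (g • y) = rel x y
    rw [← hrel, key, key, ← hrel x y]
    exact D.rel_smul ⟨_, hK' g hg⟩ _ _
  · intro y hy z hz h
    have h1 : rel x₀ (a • y) = rel x₀ (a • z) := by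
      have e1 := hrel (a⁻¹ • x₀) y
      have e2 := hrel (a⁻¹ • x₀) z
      rw [smul_inv_smul] at e1 e2
      rw [e1, e2, h]
    obtain ⟨⟨g, hg⟩, h2, h3⟩ := D.trans₂ _ ((hΩ y).1 hy) _ ((hΩ z).1 hz) h1
    refine ⟨⟨_, hK g hg⟩, ?_, ?_⟩
    · show (a⁻¹ * g * a) • a⁻¹ • x₀ = a⁻¹ • x₀
      rw [mul_smul, mul_smul, smul_inv_smul]
      exact congrArg (fun z => a⁻¹ • z) h2
    · show (a⁻¹ * g * a) • y = z
      rw [mul_smul, mul_smul]
      have h3' : g • a • y = a • z := h3
      rw [h3', inv_smul_smul]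
  · intro i
    rw [← D.count i]
    have : {y | y ∈ Ω ∧ rel x₀ y = i} = (fun y => a • y) '' {y | y ∈ Ω' ∧ rel (a⁻¹ • x₀) y = i} := by
      ext y
      constructor
      · rintro ⟨hy, hr⟩
        refine ⟨a⁻¹ • y, ⟨?_, ?_⟩, smul_inv_smul a y⟩
        · rw [hΩ, smul_inv_smul]; exact hy
        · rw [← hrel, smul_inv_smul, smul_inv_smul, hr]
      · rintro ⟨z, ⟨hz, hr⟩, rfl⟩
        refine ⟨(hΩ z).1 hz, ?_⟩
        have e1 := hrel (a⁻¹ • x₀) z
        rw [smul_inv_smul] at e1
        show rel x₀ (a • z) = i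
        rw [e1, hr]
    rw [this, Set.ncard_image_of_injective _ (MulAction.injective a)]

/-- the pointwise stabiliser of two points in `M24` -/
def ptStab (p q : GolayPt) : Subgroup (Equiv.Perm GolayPt) :=
  M24 ⊓ (MulAction.stabilizer (Equiv.Perm GolayPt) p ⊓ MulAction.stabilizer (Equiv.Perm GolayPt) q)

theorem mem_ptStab {p q : GolayPt} {g : Equiv.Perm GolayPt} :
    g ∈ ptStab p q ↔ g ∈ M24 ∧ g p = p ∧ g q = q := by
  rw [ptStab, Subgroup.mem_inf, Subgroup.mem_inf, MulAction.mem_stabilizer_iff,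
    MulAction.mem_stabilizer_iff]
  rfl

/-- the octads with prescribed incidence with two points -/
def octFam (p q : GolayPt) (bp bq : Bool) : Set (Finset GolayPt) :=
  {o | o ∈ octads ∧ decide (p ∈ o) = bp ∧ decide (q ∈ o) = bq}

theorem mem_octFam {p q : GolayPt} {bp bq : Bool} {o : Finset GolayPt} :
    o ∈ octFam p q bp bq ↔ o ∈ octads ∧ decide (p ∈ o) = bp ∧ decide (q ∈ o) = bq := Iff.rfl

theorem smul_mem_octads_iff {g : Equiv.Perm GolayPt} (hg : g ∈ M24) {s : Finset GolayPt} :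
    g • s ∈ octads ↔ s ∈ octads := by
  constructor
  · intro h
    have := smul_mem_octads (M24.inv_mem hg) h
    rwa [inv_smul_smul] at this
  · exact smul_mem_octads hg

theorem apply_mem_smul_iff (g : Equiv.Perm GolayPt) (p : GolayPt) (s : Finset GolayPt) :
    g p ∈ g • s ↔ p ∈ s := by
  have : g p = g • p := rfl
  rw [this, Finset.smul_mem_smul_finset_iff]

theorem smul_mem_octFam_iff {g : Equiv.Perm GolayPt} (hg : g ∈ M24) {p q : GolayPt} {bp bq : Bool}
    {s : Finset GolayPt} : g • s ∈ octFam (g p) (g q) bp bq ↔ s ∈ octFam p q bp bq := by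
  rw [mem_octFam, mem_octFam, smul_mem_octads_iff hg]
  simp only [apply_mem_smul_iff]

/-- kernel test: `P` codes an element of `M24` fixing the points with indices `i`, `j` -/
noncomputable def inPtStab (i j P : ℕ) : Bool :=
  inM24 P && (Nat.beq (fld5 P i) i && Nat.beq (fld5 P j) j)

theorem inPtStab_spec {i j P : ℕ} (hi : i < 24) (hj : j < 24) (h : inPtStab i j P = true) :
    isPerm P = true ∧ permOf P ∈ ptStab (pt i) (pt j) := by
  rw [inPtStab, Bool.and_eq_true, Bool.and_eq_true] at h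
  obtain ⟨h1, h2, h3⟩ := h
  have hp := isPerm_of_inM24 h1
  refine ⟨hp, mem_ptStab.2 ⟨permOf_mem_M24 h1, ?_, ?_⟩⟩
  · rw [permOf_apply hp, idx_pt hi, Nat.eq_of_beq_eq_true h2]
  · rw [permOf_apply hp, idx_pt hj, Nat.eq_of_beq_eq_true h3]

/-- the packed permutations `gens` lie in the point stabiliser and fix the mask `m` -/
noncomputable def gensFixPt (i j gens ng m : ℕ) : Bool :=
  allBelow (fun t => inPtStab i j (fldP gens t) && Nat.beq (permMask (fldP gens t) m) m) ng

theorem gensFixPt_spec {i j gens ng m : ℕ} (hi : i < 24) (hj : j < 24)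
    (h : gensFixPt i j gens ng m = true) :
    ∀ t < ng, isPerm (fldP gens t) = true ∧
      permOf (fldP gens t) ∈ ptStab (pt i) (pt j) ⊓
        MulAction.stabilizer (Equiv.Perm GolayPt) (unmask m) := by
  rw [gensFixPt, allBelow_iff] at h
  intro t ht
  have := h t ht
  rw [Bool.and_eq_true] at this
  obtain ⟨h1, h2⟩ := inPtStab_spec hi hj this.1
  refine ⟨h1, Subgroup.mem_inf.2 ⟨h2, ?_⟩⟩
  rw [MulAction.mem_stabilizer_iff, smul_unmask h1, Nat.eq_of_beq_eq_true this.2]

/-- the `t`-th packed permutation of `fus` lies in the point stabiliser and maps root `t` to node `0` -/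
noncomputable def fuseOKPt (i j fus tab rts r : ℕ) : Bool :=
  allBelow (fun t => inPtStab i j (fldP fus t) &&
    Nat.beq (permMask (fldP fus t) (fld24 tab (fld12 rts t))) (fld24 tab 0)) r

theorem fuseOKPt_spec {i j fus tab rts r : ℕ} (hi : i < 24) (hj : j < 24)
    (h : fuseOKPt i j fus tab rts r = true) :
    ∀ t < r, ∃ g ∈ ptStab (pt i) (pt j),
      g • unmask (fld24 tab (fld12 rts t)) = unmask (fld24 tab 0) := by
  rw [fuseOKPt, allBelow_iff] at h
  intro t ht
  have := h t ht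
  rw [Bool.and_eq_true] at this
  obtain ⟨h1, h2⟩ := inPtStab_spec hi hj this.1
  exact ⟨_, h2, by rw [smul_unmask h1, Nat.eq_of_beq_eq_true this.2]⟩

/-- kernel test: `tab` lists (without repetition) the octads with the prescribed incidence; `pos` sends the
index of an octad in `octTab` to its index in `tab`. -/
noncomputable def famOK (i j : ℕ) (bp bq : Bool) (tab pos n : ℕ) : Bool :=
  allBelow (fun k => !((Nat.testBit (fld24 octTab k) i == bp) && (Nat.testBit (fld24 octTab k) j == bq)) ||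
    (Nat.beq (fld24 tab (fld12 pos k)) (fld24 octTab k) && Nat.blt (fld12 pos k) n)) 759 &&
  allBelow (fun k => Nat.beq (fld12 pos (fld12 octPos (Nat.land (fld24 tab k) 0xFFF))) k &&
    ((isCode (fld24 tab k) && Nat.beq (popc (fld24 tab k)) 8) &&
      ((Nat.testBit (fld24 tab k) i == bp) && (Nat.testBit (fld24 tab k) j == bq)))) n

theorem decide_pt_mem_unmask {i m : ℕ} (hi : i < 24) : decide (pt i ∈ unmask m) = m.testBit i := by
  rw [Bool.eq_iff_iff, decide_eq_true_iff, mem_unmask, idx_pt hi]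

theorem famOK_spec {i j : ℕ} {bp bq : Bool} {tab pos n : ℕ} (hi : i < 24) (hj : j < 24)
    (h : famOK i j bp bq tab pos n = true) :
    (∀ y ∈ octFam (pt i) (pt j) bp bq, ∃ k < n, y = unmask (fld24 tab k)) ∧
    (∀ k < n, unmask (fld24 tab k) ∈ octFam (pt i) (pt j) bp bq) ∧
    (∀ k < n, ∀ k' < n, fld24 tab k = fld24 tab k' → k = k') := by
  rw [famOK, Bool.and_eq_true, allBelow_iff, allBelow_iff] at h
  obtain ⟨h1, h2⟩ := h
  refine ⟨?_, ?_, ?_⟩
  · rintro y ⟨hy, hp, hq⟩
    obtain ⟨k, hk, rfl⟩ := (codeFam_spec oct_fam).1 y hy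
    rw [decide_pt_mem_unmask hi] at hp
    rw [decide_pt_mem_unmask hj] at hq
    have := h1 k hk
    rw [hp, hq] at this
    simp only [beq_self_eq_true, Bool.and_self, Bool.not_true, Bool.false_or, Bool.and_eq_true] at this
    exact ⟨_, blt_iff.1 this.2, by rw [Nat.eq_of_beq_eq_true this.1]⟩
  · intro k hk
    have := h2 k hk
    simp only [Bool.and_eq_true, beq_iff_eq] at this
    obtain ⟨_, ⟨h3, h4⟩, h5, h6⟩ := this
    refine ⟨(unmask_mem_octads_iff (fld24_lt _ _)).2 ⟨h3, Nat.eq_of_beq_eq_true h4⟩, ?_, ?_⟩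
    · rw [decide_pt_mem_unmask hi, h5]
    · rw [decide_pt_mem_unmask hj, h6]
  · intro k hk k' hk' h
    have a := h2 k hk
    have b := h2 k' hk'
    simp only [Bool.and_eq_true] at a b
    rw [← Nat.eq_of_beq_eq_true a.1, ← Nat.eq_of_beq_eq_true b.1, h]

/-- intersection size of the base octad with root `t` -/
def rootC (tab rts t : ℕ) : ℕ := popc (Nat.land (fld24 tab 0) (fld24 tab (fld12 rts t)))

/-- class sizes -/
def famSz (tab trs rts n v : ℕ) : ℕ :=
  ((Finset.range n).filter (fun k => rootC tab rts (fld4 trs k) = v)).card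

/-- `RankData` for the stabiliser of the points `pt i`, `pt j` on a family of octads. -/
theorem famRankData (i j : ℕ) (bp bq : Bool) (gens fus tab pos par gi trs rts ng r n : ℕ)
    (hi : i < 24) (hj : j < 24) (hn : 0 < n)
    (hfam : famOK i j bp bq tab pos n = true)
    (hgens : gensFixPt i j gens ng (fld24 tab 0) = true)
    (hforest : allBelow (nodeOK gens tab par gi trs rts ng r) n = true)
    (hfuse : fuseOKPt i j fus tab rts r = true)
    (hroots : ∀ t < r, ∀ t' < r, rootC tab rts t = rootC tab rts t' → t = t') :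
    RankData ↥(ptStab (pt i) (pt j)) (octFam (pt i) (pt j) bp bq) (fun x y => (x ∩ y).card)
      (unmask (fld24 tab 0)) (famSz tab trs rts n) := by
  obtain ⟨cover, mem, inj⟩ := famOK_spec hi hj hfam
  have hF := maskForest _ gens tab par gi trs rts ng r n (gensFixPt_spec hi hj hgens) hforest
  refine RankData.ofForest _ _ (unmask (fld24 tab 0)) (fun k => unmask (fld24 tab k)) n
    (fun k => fld12 rts (fld4 trs k)) (fun k => rootC tab rts (fld4 trs k)) (mem 0 hn)
    ?_ (fun g x y => card_inter_smul g.1 x y) cover mem ?_ ?_ ?_ ?_ ?_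
  · rintro ⟨g, hg⟩ y hy
    obtain ⟨h1, h2, h3⟩ := mem_ptStab.1 hg
    have := (smul_mem_octFam_iff h1 (p := pt i) (q := pt j) (bp := bp) (bq := bq) (s := y)).2 hy
    rw [h2, h3] at this
    exact this
  · intro k hk k' hk' h
    exact inj k hk k' hk' (unmask_inj (fld24_lt _ _) (fld24_lt _ _) h)
  · intro k hk
    obtain ⟨_, g, hg, h⟩ := hF k hk
    exact ⟨⟨g, hg.1⟩, hg.2, h⟩
  · intro k hk
    obtain ⟨g, hg, h⟩ := fuseOKPt_spec hi hj hfuse _ (hF k hk).1
    exact ⟨⟨g, hg⟩, h⟩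
  · intro k hk
    exact card_inter_unmask _ _ (fld24_lt _ _)
  · intro k hk k' hk' h
    show fld12 rts (fld4 trs k) = fld12 rts (fld4 trs k')
    rw [hroots _ (hF k hk).1 _ (hF k' hk').1 h]

/-- the size of the family -/
theorem fam_ncard {i j : ℕ} {bp bq : Bool} {tab pos n : ℕ} (hi : i < 24) (hj : j < 24)
    (hfam : famOK i j bp bq tab pos n = true) : (octFam (pt i) (pt j) bp bq).ncard = n := by
  obtain ⟨cover, mem, inj⟩ := famOK_spec hi hj hfam
  have : octFam (pt i) (pt j) bp bq =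
      (fun k => unmask (fld24 tab k)) '' ((Finset.range n : Finset ℕ) : Set ℕ) := by
    ext y
    constructor
    · intro hy
      obtain ⟨k, hk, rfl⟩ := cover y hy
      exact ⟨k, by simpa using hk, rfl⟩
    · rintro ⟨k, hk, rfl⟩
      exact mem k (by simpa using hk)
  rw [this, Set.InjOn.ncard_image, Set.ncard_coe_finset, Finset.card_range]
  intro k hk k' hk' h
  exact inj k (by simpa using hk) k' (by simpa using hk')
    (unmask_inj (fld24_lt _ _) (fld24_lt _ _) h)

/-! ### transport to arbitrary points -/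

theorem exists_notMem_list (l : List GolayPt) (h : l.length < 24) : ∃ x, x ∉ l := by
  by_contra hc
  push Not at hc
  have h1 : l.toFinset = Finset.univ := by
    ext x; simp [hc x]
  have h2 := List.toFinset_card_le l
  rw [h1, Finset.card_univ] at h2
  have h3 : Fintype.card GolayPt = 24 := by decide
  omega

theorem two_trans {p q p' q' : GolayPt} (h : p ≠ q) (h' : p' ≠ q') :
    ∃ a ∈ M24, a p = p' ∧ a q = q' := by
  have ext5 : ∀ p q : GolayPt, p ≠ q → ∃ r s t, [p, q, r, s, t].Nodup := by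
    intro p q h
    obtain ⟨r, hr⟩ := exists_notMem_list [p, q] (by simp)
    obtain ⟨s, hs⟩ := exists_notMem_list [p, q, r] (by simp)
    obtain ⟨t, ht⟩ := exists_notMem_list [p, q, r, s] (by simp)
    refine ⟨r, s, t, ?_⟩
    simp only [List.mem_cons, List.not_mem_nil, or_false, not_or] at hr hs ht
    simp only [List.nodup_cons, List.mem_cons, List.not_mem_nil, or_false, not_or, List.nodup_nil,
      and_true, not_false_eq_true]
    obtain ⟨a1, a2⟩ := hr
    obtain ⟨b1, b2, b3⟩ := hs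
    obtain ⟨c1, c2, c3, c4⟩ := ht
    exact ⟨⟨h, Ne.symm a1, Ne.symm b1, Ne.symm c1⟩, ⟨Ne.symm a2, Ne.symm b2, Ne.symm c2⟩,
      ⟨Ne.symm b3, Ne.symm c3⟩, Ne.symm c4⟩
  obtain ⟨r, s, t, h1⟩ := ext5 p q h
  obtain ⟨r', s', t', h2⟩ := ext5 p' q' h'
  obtain ⟨a, ha, e1, e2, _⟩ := Cfsg.Agent.Lib.Helper94.five_trans p q r s t p' q' r' s' t' h1 h2
  exact ⟨a, ha, e1, e2⟩

theorem one_trans (p p' : GolayPt) : ∃ a ∈ M24, a p = p' := by
  obtain ⟨q, hq⟩ := exists_notMem_list [p] (by simp)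
  obtain ⟨q', hq'⟩ := exists_notMem_list [p'] (by simp)
  simp only [List.mem_cons, List.not_mem_nil, or_false] at hq hq'
  obtain ⟨a, ha, e1, _⟩ := two_trans (Ne.symm hq) (Ne.symm hq')
  exact ⟨a, ha, e1⟩

theorem perm_inv_apply (a : Equiv.Perm GolayPt) (x : GolayPt) : a⁻¹ (a x) = x :=
  Equiv.Perm.inv_eq_iff_eq.mpr rfl

/-- transport of the rank data from `(a p, a q)` to `(p, q)` -/
theorem famRank_transport {p q : GolayPt} {bp bq : Bool} {a : Equiv.Perm GolayPt} (ha : a ∈ M24)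
    {o₀ : Finset GolayPt} {sz : ℕ → ℕ}
    (D : RankData ↥(ptStab (a p) (a q)) (octFam (a p) (a q) bp bq) (fun x y => (x ∩ y).card) o₀ sz) :
    RankData ↥(ptStab p q) (octFam p q bp bq) (fun x y => (x ∩ y).card) (a⁻¹ • o₀) sz := by
  refine rankData_conj D a ?_ ?_ (fun y => (smul_mem_octFam_iff ha).symm) (card_inter_smul a)
  · intro g hg
    obtain ⟨h1, h2, h3⟩ := mem_ptStab.1 hg
    refine mem_ptStab.2 ⟨M24.mul_mem (M24.mul_mem (M24.inv_mem ha) h1) ha, ?_, ?_⟩
    · rw [Equiv.Perm.mul_apply, Equiv.Perm.mul_apply, h2, perm_inv_apply]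
    · rw [Equiv.Perm.mul_apply, Equiv.Perm.mul_apply, h3, perm_inv_apply]
  · intro g hg
    obtain ⟨h1, h2, h3⟩ := mem_ptStab.1 hg
    refine mem_ptStab.2 ⟨M24.mul_mem (M24.mul_mem ha h1) (M24.inv_mem ha), ?_, ?_⟩
    · rw [Equiv.Perm.mul_apply, Equiv.Perm.mul_apply, perm_inv_apply, h2]
    · rw [Equiv.Perm.mul_apply, Equiv.Perm.mul_apply, perm_inv_apply, h3]

theorem fam_ncard_transport {p q : GolayPt} {bp bq : Bool} {a : Equiv.Perm GolayPt} (ha : a ∈ M24) :
    (octFam p q bp bq).ncard = (octFam (a p) (a q) bp bq).ncard := by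
  have : octFam (a p) (a q) bp bq = (fun y => a • y) '' octFam p q bp bq := by
    ext y
    constructor
    · intro hy
      refine ⟨a⁻¹ • y, ?_, smul_inv_smul a y⟩
      rw [← smul_mem_octFam_iff ha, smul_inv_smul]; exact hy
    · rintro ⟨z, hz, rfl⟩
      exact (smul_mem_octFam_iff ha).2 hz
  rw [this, Set.ncard_image_of_injective _ (MulAction.injective a)]

end Cfsg.Agent.Lib.Helper34
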