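import Cfsg.Agent.Lib.Helper34.GolayCosets
import Cfsg.Agent.Lib.Helper34.M24Fam

set_option autoImplicit false

/-! The `M24`-invariant subspaces of `F₂^24`. -/

namespace Cfsg.Agent.Lib.Helper34

open Cfsg Cfsg.Agent.Lib.Helper33
open scoped Pointwise

/-- the pointwise stabiliser of at most four points is transitive on the remaining points -/
theorem exists_fix_move (F : Finset GolayPt) (hF : F.card ≤ 4) (x y : GolayPt) (hx : x ∉ F) (hy : y ∉ F) :
    ∃ g ∈ M24, (∀ t ∈ F, g t = t) ∧ g x = y := by
  have h24 : Fintype.card GolayPt = 24 := by decide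
  have hsub : F ⊆ (Finset.univ \ {x, y} : Finset GolayPt) := by
    intro t ht
    simp only [Finset.mem_sdiff, Finset.mem_univ, Finset.mem_insert, Finset.mem_singleton, true_and, not_or]
    exact ⟨fun e => hx (e ▸ ht), fun e => hy (e ▸ ht)⟩
  have hcard : 4 ≤ (Finset.univ \ {x, y} : Finset GolayPt).card := by
    have h1 := Finset.card_sdiff_add_card_inter (Finset.univ : Finset GolayPt) {x, y}
    have h2 : ((Finset.univ : Finset GolayPt) ∩ {x, y}).card ≤ 2 :=
      le_trans (Finset.card_le_card Finset.inter_subset_right) Finset.card_le_two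
    rw [Finset.card_univ, h24] at h1
    omega
  obtain ⟨F', h1, h2, h3⟩ := Finset.exists_subsuperset_card_eq hsub hF hcard
  have hl : F'.toList.length = 4 := by rw [Finset.length_toList, h3]
  obtain ⟨a, b, c, d, hlist⟩ := List.length_eq_four.1 hl
  have hnd : [a, b, c, d].Nodup := hlist ▸ F'.nodup_toList
  have hmem : ∀ t, t ∈ F' ↔ t ∈ [a, b, c, d] := fun t => by rw [← hlist, Finset.mem_toList]
  have hx' : x ∉ [a, b, c, d] := by
    intro h
    have := h2 ((hmem x).2 h)
    simp at this
  have hy' : y ∉ [a, b, c, d] := by
    intro h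
    have := h2 ((hmem y).2 h)
    simp at this
  obtain ⟨g, hg, e1, e2, e3, e4, e5⟩ := Cfsg.Agent.Lib.Helper94.five_trans x a b c d y a b c d
    (List.nodup_cons.2 ⟨hx', hnd⟩) (List.nodup_cons.2 ⟨hy', hnd⟩)
  refine ⟨g, hg, ?_, e1⟩
  intro t ht
  have := (hmem t).1 (h1 ht)
  simp only [List.mem_cons, List.not_mem_nil, or_false] at this
  rcases this with rfl | rfl | rfl | rfl <;> assumption

theorem smul_eq_of_fix {g : Equiv.Perm GolayPt} {F : Finset GolayPt} (h : ∀ t ∈ F, g t = t) : g • F = F := by
  have : g • F = F.image (fun t => g t) := rfl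
  rw [this]
  conv_rhs => rw [← Finset.image_id (s := F)]
  exact Finset.image_congr (fun t ht => h t ht)

section Invariant

variable {W : Submodule (ZMod 2) (GolayPt → ZMod 2)}

/-- from a set (or the complement of a set) of size 1..4 we get a duad -/
theorem exists_duad (hW : ∀ σ ∈ M24, ∀ w ∈ W, (fun p => w (σ.symm p)) ∈ W)
    {S T c : Finset GolayPt} (hS : ind S ∈ W) (hT1 : T.Nonempty) (hT4 : T.card ≤ 4)
    (hc : ∀ g : Equiv.Perm GolayPt, g • c = c) (hST : S = symmDiff c T) :
    ∃ x y : GolayPt, x ≠ y ∧ ind {x, y} ∈ W := by
  obtain ⟨x, hx⟩ := hT1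
  have h24 : Fintype.card GolayPt = 24 := by decide
  obtain ⟨y, _, hy⟩ := Finset.exists_mem_notMem_of_card_lt_card
    (s := T) (t := Finset.univ) (by rw [Finset.card_univ, h24]; omega)
  have hxy : x ≠ y := fun e => hy (e ▸ hx)
  have hyF : y ∉ T.erase x := fun h => hy (Finset.mem_of_mem_erase h)
  obtain ⟨g, hg, hfix, hgx⟩ := exists_fix_move (T.erase x)
    (le_trans (Finset.card_erase_le) hT4) x y (Finset.notMem_erase x T) hyF
  refine ⟨x, y, hxy, ?_⟩
  have h1 := symmDiff_mem (inv_smul_mem hW hg hS) hS
  have h2 : symmDiff (g • S) S = {x, y} := by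
    rw [hST, Finset.smul_finset_symmDiff, hc, symmDiff_symmDiff_symmDiff_comm, symmDiff_self, bot_symmDiff]
    have e1 : T = insert x (T.erase x) := (Finset.insert_erase hx).symm
    have e2 : g • T = insert y (T.erase x) := by
      conv_lhs => rw [e1]
      rw [Finset.smul_finset_insert, smul_eq_of_fix hfix]
      congr 1
    rw [e2]
    have key : ∀ F : Finset GolayPt, x ∉ F → y ∉ F → symmDiff (insert y F) (insert x F) = {x, y} := by
      intro F hxF hyF
      ext z
      simp only [Finset.mem_symmDiff, Finset.mem_insert, Finset.mem_singleton]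
      constructor
      · rintro (⟨h | h, h'⟩ | ⟨h | h, h'⟩)
        · exact Or.inr h
        · exact absurd (Or.inr h) h'
        · exact Or.inl h
        · exact absurd (Or.inr h) h'
      · rintro (rfl | rfl)
        · right
          exact ⟨Or.inl rfl, fun h => h.elim hxy hxF⟩
        · left
          exact ⟨Or.inl rfl, fun h => h.elim (fun e => hxy e.symm) hyF⟩
    have := key (T.erase x) (Finset.notMem_erase x T) hyF
    rwa [Finset.insert_erase hx] at this
  rw [h2] at h1
  exact h1

/-- an invariant subspace containing a duad contains all words of even weight -/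
theorem even_mem_of_duad (hW : ∀ σ ∈ M24, ∀ w ∈ W, (fun p => w (σ.symm p)) ∈ W)
    {x y : GolayPt} (hxy : x ≠ y) (h : ind {x, y} ∈ W) : ∀ S : Finset GolayPt, Even S.card → ind S ∈ W := by
  have hall : ∀ x' y' : GolayPt, x' ≠ y' → ind {x', y'} ∈ W := by
    intro x' y' h'
    obtain ⟨a, ha, e1, e2⟩ := two_trans hxy h'
    have := inv_smul_mem hW ha h
    rw [Finset.smul_finset_insert, Finset.smul_finset_singleton] at this
    have e1' : a • x = x' := e1
    have e2' : a • y = y' := e2
    rwa [e1', e2'] at this
  intro S
  induction' hn : S.card using Nat.strong_induction_on with n ih generalizing S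
  intro hev
  rcases Nat.eq_zero_or_pos n with h0 | hpos
  · rw [h0] at hn
    rw [Finset.card_eq_zero.1 hn, ind_empty]; exact W.zero_mem
  · have h2 : 2 ≤ n := by
      rcases hev with ⟨k, hk⟩; omega
    obtain ⟨a, ha⟩ : S.Nonempty := by rw [← Finset.card_pos]; omega
    obtain ⟨b, hb⟩ : (S.erase a).Nonempty := by
      rw [← Finset.card_pos, Finset.card_erase_of_mem ha]; omega
    have hab : a ≠ b := fun e => (Finset.mem_erase.1 hb).1 e.symm
    have hc : ((S.erase a).erase b).card = n - 2 := by
      rw [Finset.card_erase_of_mem hb, Finset.card_erase_of_mem ha, hn]; omega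
    have h3 := ih (n - 2) (by omega) ((S.erase a).erase b) hc (by
      rcases hev with ⟨k, hk⟩; exact ⟨k - 1, by omega⟩)
    have h4 := symmDiff_mem h3 (hall a b hab)
    have h5 : symmDiff ((S.erase a).erase b) {a, b} = S := by
      have hd : Disjoint ((S.erase a).erase b) {a, b} := by
        rw [Finset.disjoint_left]
        intro z hz hz'
        simp only [Finset.mem_insert, Finset.mem_singleton] at hz'
        simp only [Finset.mem_erase] at hz
        rcases hz' with rfl | rfl
        · exact hz.2.1 rfl
        · exact hz.1 rfl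
      rw [hd.symmDiff_eq_sup]
      ext z
      simp only [Finset.sup_eq_union, Finset.mem_union, Finset.mem_erase, Finset.mem_insert,
        Finset.mem_singleton]
      constructor
      · rintro (h | rfl | rfl)
        · exact h.2.2
        · exact ha
        · exact Finset.mem_of_mem_erase hb
      · intro hz
        by_cases h1 : z = a
        · exact Or.inr (Or.inl h1)
        · by_cases h2 : z = b
          · exact Or.inr (Or.inr h2)
          · exact Or.inl ⟨h2, h1, hz⟩
    rw [h5] at h4
    exact h4

theorem sum_ind (S : Finset GolayPt) : ∑ p, ind S p = (S.card : ZMod 2) := by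
  simp [ind, Finset.sum_ite_mem]

theorem sum_eq_zero_iff (w : GolayPt → ZMod 2) : ∑ p, w p = 0 ↔ Even (support₂ w).card := by
  conv_lhs => rw [← ind_support w]
  rw [sum_ind, ZMod.natCast_eq_zero_iff_even]

/-- classification of the invariant subspaces -/
theorem invariant_classification (hW : ∀ σ ∈ M24, ∀ w ∈ W, (fun p => w (σ.symm p)) ∈ W) :
    W = ⊥ ∨ W = Submodule.span (ZMod 2) {fun _ => (1 : ZMod 2)} ∨ W = golayCode ∨
      (W : Set (GolayPt → ZMod 2)) = {w | ∑ p, w p = 0} ∨ W = ⊤ := by
  by_cases hle : W ≤ golayCode
  · by_cases hex : ∃ w ∈ W, w ≠ 0 ∧ w ≠ fun _ => (1 : ZMod 2)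
    · obtain ⟨w, hw, h0, h1⟩ := hex
      right; right; left
      apply le_antisymm hle
      apply code_le_of_mem hW (s := support₂ w) ((mem_code_iff_support w).1 (hle hw)) ?_ ?_
        (by rw [ind_support]; exact hw)
      · intro h; apply h0; rw [← ind_support w, h, ind_empty]
      · intro h; apply h1; rw [← ind_support w, h, ind_univ]
    · push Not at hex
      by_cases h1 : (fun _ => (1 : ZMod 2)) ∈ W
      · right; left
        apply le_antisymm
        · intro w hw
          by_cases h0 : w = 0
          · rw [h0]; exact Submodule.zero_mem _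
          · rw [hex w hw h0]; exact Submodule.subset_span rfl
        · exact Submodule.span_le.2 (by simpa using h1)
      · left
        rw [eq_bot_iff]
        intro w hw
        by_contra h0
        exact h1 (hex w hw h0 ▸ hw)
  · obtain ⟨w, hw, hnot⟩ := SetLike.not_le_iff_exists.1 hle
    right; right; right
    set S := support₂ w with hSdef
    have hS : ind S ∈ W := by rw [hSdef, ind_support]; exact hw
    have hSn : S ∉ supports (golayCode : Set (GolayPt → ZMod 2)) :=
      fun h => hnot ((mem_code_iff_support w).2 h)
    obtain ⟨T, hT4, hc⟩ := exists_leader S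
    set c := symmDiff S T with hcdef
    have hST : S = symmDiff c T := by
      rw [hcdef, symmDiff_assoc, symmDiff_self, symmDiff_bot]
    have hT1 : T.Nonempty := by
      rw [Finset.nonempty_iff_ne_empty]
      intro h
      apply hSn
      have : c = S := by
        rw [hcdef, h]; exact symmDiff_bot S
      rw [← this]; exact hc
    -- a duad lies in `W`
    have hduad : ∃ x y : GolayPt, x ≠ y ∧ ind {x, y} ∈ W := by
      by_cases hc0 : c = ∅
      · exact exists_duad hW hS hT1 hT4 (fun g => by rw [hc0, Finset.smul_finset_empty]) hST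
      by_cases hc1 : c = Finset.univ
      · exact exists_duad hW hS hT1 hT4 (fun g => by rw [hc1, Finset.smul_finset_univ]) hST
      -- `c` is a non-trivial code word
      have hc8 : 8 ≤ c.card ∧ c.card ≤ 16 := by
        rcases card_of_mem_supports hc with h | h | h | h | h
        · exact absurd (Finset.card_eq_zero.1 h) hc0
        · omega
        · omega
        · omega
        · exfalso; apply hc1; apply Finset.eq_univ_of_card; rw [h]; decide
      obtain ⟨x, hxc, hxT⟩ := Finset.exists_mem_notMem_of_card_lt_card (s := T) (t := c) (by omega)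
      have h24 : Fintype.card GolayPt = 24 := by decide
      obtain ⟨y, _, hy⟩ := Finset.exists_mem_notMem_of_card_lt_card (s := c ∪ T) (t := Finset.univ) (by
        rw [Finset.card_univ, h24]
        have := Finset.card_union_le c T
        omega)
      have hyc : y ∉ c := fun h => hy (Finset.mem_union_left _ h)
      have hyT : y ∉ T := fun h => hy (Finset.mem_union_right _ h)
      obtain ⟨g, hg, hfix, hgx⟩ := exists_fix_move T hT4 x y hxT hyT
      have h1 := symmDiff_mem (inv_smul_mem hW hg hS) hS
      have h2 : symmDiff (g • S) S = symmDiff (g • c) c := by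
        rw [hST, Finset.smul_finset_symmDiff, smul_eq_of_fix hfix, symmDiff_symmDiff_symmDiff_comm,
          symmDiff_self, symmDiff_bot]
      rw [h2] at h1
      have hyg : y ∈ g • c := by rw [← hgx]; exact (apply_mem_smul_iff g x c).2 hxc
      obtain ⟨t, ht⟩ := hT1
      have hCW : golayCode ≤ W := by
        refine code_le_of_mem hW (supports_symmDiff (smul_mem_supports hg hc) hc) ?_ ?_ h1
        · intro h
          have : y ∈ symmDiff (g • c) c := Finset.mem_symmDiff.2 (Or.inl ⟨hyg, hyc⟩)
          rw [h] at this
          exact absurd this (Finset.notMem_empty y)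
        · intro h
          have : t ∈ symmDiff (g • c) c := by rw [h]; exact Finset.mem_univ t
          have hiff : t ∈ g • c ↔ t ∈ c := by
            conv_lhs => rw [← hfix t ht]
            exact apply_mem_smul_iff g t c
          rcases Finset.mem_symmDiff.1 this with ⟨a, b⟩ | ⟨a, b⟩
          · exact b (hiff.1 a)
          · exact b (hiff.2 a)
      have hTW : ind T ∈ W := by
        have := symmDiff_mem (hCW ((ind_mem_code_iff c).2 hc)) hS
        rwa [hST, ← symmDiff_assoc, symmDiff_self, bot_symmDiff] at this
      exact exists_duad hW hTW ⟨t, ht⟩ hT4 (c := ∅) (fun g => Finset.smul_finset_empty g)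
        (bot_symmDiff T).symm
    obtain ⟨x, y, hxy, hd⟩ := hduad
    have hev := even_mem_of_duad hW hxy hd
    by_cases hodd : ∃ v ∈ W, ¬ Even (support₂ v).card
    · right
      obtain ⟨v, hv, hvo⟩ := hodd
      rw [eq_top_iff]
      intro u _
      by_cases hu : Even (support₂ u).card
      · have := hev _ hu
        rwa [ind_support] at this
      · have h1 : Even (symmDiff (support₂ u) (support₂ v)).card := by
          have := card_symmDiff_add (support₂ u) (support₂ v)
          rw [Nat.not_even_iff_odd] at hu hvo
          have h2 : Even ((support₂ u).card + (support₂ v).card) := hu.add_odd hvo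
          rw [← this] at h2
          exact (Nat.even_add.1 h2).2 (even_two_mul _)
        have h2 := hev _ h1
        rw [ind_symmDiff, ind_support, ind_support] at h2
        have h3 := W.add_mem h2 hv
        have h4 : u + v + v = u := by
          funext p
          simp only [Pi.add_apply]
          rw [add_assoc, CharTwo.add_self_eq_zero, add_zero]
        rwa [h4] at h3
    · left
      push Not at hodd
      ext u
      constructor
      · intro hu
        exact (sum_eq_zero_iff u).2 (hodd u hu)
      · intro hu
        have := hev _ ((sum_eq_zero_iff u).1 hu)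
        rwa [ind_support] at this

end Invariant

end Cfsg.Agent.Lib.Helper34
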