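import Cfsg.Agent.Lib.Helper34.GolayModule

set_option autoImplicit false

/-! Syndrome decomposition of 24-bit masks with respect to the Golay code, and the fact that the
stabiliser of a code word fixes no non-trivial coset of the code. -/

namespace Cfsg.Agent.Lib.Helper34

open Cfsg Cfsg.Agent.Lib.Helper33
open scoped Pointwise

theorem shift_of_low_zero {r : ℕ} (h : r &&& 0xFFF = 0) : (r >>> 12) <<< 12 = r := by
  have h1 : r &&& 0xFFF = r % 2 ^ 12 := Nat.and_two_pow_sub_one_eq_mod r 12
  rw [h1] at h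
  rw [Nat.shiftRight_eq_div_pow, Nat.shiftLeft_eq]
  omega

/-- every mask is a code word plus a mask supported on the twelve high bits -/
theorem mask_decomp {m : ℕ} (hm : m < 2 ^ 24) :
    ∃ x < 4096, ∃ ρ < 4096, m = enc x ^^^ (ρ <<< 12) ∧ (isCode m = true ↔ ρ = 0) := by
  have hx : m &&& 0xFFF < 4096 := lt_of_le_of_lt Nat.and_le_right (by norm_num)
  set x := m &&& 0xFFF with hxdef
  set r := m ^^^ enc x with hr
  have hr24 : r < 2 ^ 24 := Nat.xor_lt_two_pow hm (enc_lt hx)
  have hlow : r &&& 0xFFF = 0 := by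
    rw [hr, Nat.and_xor_distrib_right, enc_and hx, ← hxdef, Nat.xor_self]
  have hsh := shift_of_low_zero hlow
  refine ⟨x, hx, r >>> 12, ?_, ?_, ?_⟩
  · rw [Nat.shiftRight_eq_div_pow]
    apply Nat.div_lt_of_lt_mul
    norm_num at hr24 ⊢
    exact hr24
  · rw [hsh, hr, Nat.xor_comm m, ← Nat.xor_assoc, Nat.xor_self, Nat.zero_xor]
  · constructor
    · intro h
      have h1 : enc x = m := Nat.eq_of_beq_eq_true h
      have : r = 0 := by rw [hr, h1, Nat.xor_self]
      rw [this]; rfl
    · intro h
      have h0 : r = 0 := by rw [← hsh, h]; rfl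
      have h1 : enc x = m := by
        have : m ^^^ enc x = 0 := h0
        exact (Nat.xor_eq_zero_iff.1 this).symm
      show Nat.beq (enc (m &&& 0xFFF)) m = true
      rw [← hxdef, h1]
      exact Nat.beq_refl _

theorem shl12_lt {ρ : ℕ} (h : ρ < 4096) : ρ <<< 12 < 2 ^ 24 := by
  rw [Nat.shiftLeft_eq]; norm_num; omega

/-- kernel test: every non-zero syndrome is moved by one of the first `ng` packed permutations -/
noncomputable def movesAll (gens ng : ℕ) : Bool :=
  allBelow (fun ρ => Nat.beq ρ 0 ||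
    !(allBelow (fun i => isCode (Nat.xor (permMask (fldP gens i) (Nat.shiftLeft ρ 12)) (Nat.shiftLeft ρ 12))) ng))
    4096

theorem notMem_of_symmDiff {s t : Finset GolayPt}
    (hs : s ∈ supports (golayCode : Set (GolayPt → ZMod 2)))
    (ht : t ∉ supports (golayCode : Set (GolayPt → ZMod 2))) :
    symmDiff s t ∉ supports (golayCode : Set (GolayPt → ZMod 2)) := by
  intro h
  apply ht
  have := supports_symmDiff hs h
  rwa [← symmDiff_assoc, symmDiff_self, bot_symmDiff] at this

theorem movesAll_spec {gens ng m₀ : ℕ} (hg : gensFix gens ng m₀ = true) (h : movesAll gens ng = true)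
    {S : Finset GolayPt} (hS : S ∉ supports (golayCode : Set (GolayPt → ZMod 2))) :
    ∃ g ∈ M24, g • unmask m₀ = unmask m₀ ∧
      symmDiff (g • S) S ∉ supports (golayCode : Set (GolayPt → ZMod 2)) := by
  obtain ⟨m, hm, rfl⟩ := exists_unmask S
  obtain ⟨x, hx, ρ, hρ, e, hiff⟩ := mask_decomp hm
  have hρ0 : ρ ≠ 0 := by
    intro h0
    exact hS ((unmask_mem_supports_iff hm).2 (hiff.2 h0))
  rw [movesAll, allBelow_iff] at h
  have h1 := h ρ hρ
  rw [Bool.or_eq_true] at h1
  rcases h1 with h1 | h1
  · exact absurd (Nat.eq_of_beq_eq_true h1) hρ0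
  · rw [Bool.not_eq_true', ← Bool.not_eq_true, allBelow_iff] at h1
    push Not at h1
    obtain ⟨i, hi, h2⟩ := h1
    obtain ⟨hp, hmem⟩ := gensFix_spec hg i hi
    refine ⟨_, hmem.1, hmem.2, ?_⟩
    have hc : unmask (enc x) ∈ supports (golayCode : Set (GolayPt → ZMod 2)) :=
      (mem_supports_iff _).2 ⟨x, hx, rfl⟩
    have e2 : symmDiff (permOf (fldP gens i) • unmask m) (unmask m) =
        symmDiff (symmDiff (permOf (fldP gens i) • unmask (enc x)) (unmask (enc x)))
          (symmDiff (permOf (fldP gens i) • unmask (ρ <<< 12)) (unmask (ρ <<< 12))) := by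
      rw [e, unmask_xor, Finset.smul_finset_symmDiff, symmDiff_symmDiff_symmDiff_comm]
    rw [e2]
    apply notMem_of_symmDiff (supports_symmDiff (smul_mem_supports hmem.1 hc) hc)
    rw [smul_unmask hp, ← unmask_xor,
      unmask_mem_supports_iff (Nat.xor_lt_two_pow (permMask_lt hp _) (shl12_lt hρ))]
    exact h2

set_option maxRecDepth 1000000 in
theorem oct_moves : movesAll octGens 2 = true := by decide +kernel

set_option maxRecDepth 1000000 in
theorem dod_moves : movesAll dodGens 2 = true := by decide +kernel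

theorem smul_mem_supports_iff {g : Equiv.Perm GolayPt} (hg : g ∈ M24) {s : Finset GolayPt} :
    g • s ∈ supports (golayCode : Set (GolayPt → ZMod 2)) ↔
      s ∈ supports (golayCode : Set (GolayPt → ZMod 2)) := by
  constructor
  · intro h
    have := smul_mem_supports (M24.inv_mem hg) h
    rwa [inv_smul_smul] at this
  · exact smul_mem_supports hg

/-- transport of the "moves every coset" property -/
theorem moves_transport {U₀ : Finset GolayPt}
    (h : ∀ S ∉ supports (golayCode : Set (GolayPt → ZMod 2)), ∃ g ∈ M24, g • U₀ = U₀ ∧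
      symmDiff (g • S) S ∉ supports (golayCode : Set (GolayPt → ZMod 2)))
    {a : Equiv.Perm GolayPt} (ha : a ∈ M24) {U : Finset GolayPt} (hU : a • U = U₀) :
    ∀ S ∉ supports (golayCode : Set (GolayPt → ZMod 2)), ∃ g ∈ M24, g • U = U ∧
      symmDiff (g • S) S ∉ supports (golayCode : Set (GolayPt → ZMod 2)) := by
  intro S hS
  obtain ⟨g, hg, h1, h2⟩ := h (a • S) (fun hc => hS ((smul_mem_supports_iff ha).1 hc))
  refine ⟨a⁻¹ * g * a, M24.mul_mem (M24.mul_mem (M24.inv_mem ha) hg) ha, ?_, ?_⟩
  · rw [mul_smul, mul_smul, hU, h1, ← hU, inv_smul_smul]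
  · intro hc
    apply h2
    have := smul_mem_supports ha hc
    rwa [Finset.smul_finset_symmDiff, mul_smul, mul_smul, smul_inv_smul] at this

/-- the stabiliser of a code word moves every non-trivial coset of the code -/
theorem stabilizer_moves {U : Finset GolayPt} (hU : U ∈ supports (golayCode : Set (GolayPt → ZMod 2))) :
    ∀ S ∉ supports (golayCode : Set (GolayPt → ZMod 2)), ∃ g ∈ M24, g • U = U ∧
      symmDiff (g • S) S ∉ supports (golayCode : Set (GolayPt → ZMod 2)) := by
  have hoct : ∀ o ∈ octads, ∀ S ∉ supports (golayCode : Set (GolayPt → ZMod 2)), ∃ g ∈ M24, g • o = o ∧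
      symmDiff (g • S) S ∉ supports (golayCode : Set (GolayPt → ZMod 2)) := by
    intro o ho
    obtain ⟨a, ha⟩ := oct_rank.trans o ho
    exact moves_transport (fun S hS => movesAll_spec oct_gens oct_moves hS) a.2 ha
  have hany : ∀ S ∉ supports (golayCode : Set (GolayPt → ZMod 2)), ∃ g ∈ M24,
      symmDiff (g • S) S ∉ supports (golayCode : Set (GolayPt → ZMod 2)) := by
    intro S hS
    obtain ⟨g, hg, _, h⟩ := hoct _ oct_rank.mem₀ S hS
    exact ⟨g, hg, h⟩
  rcases card_of_mem_supports hU with hc | hc | hc | hc | hc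
  · intro S hS
    obtain ⟨g, hg, h⟩ := hany S hS
    refine ⟨g, hg, ?_, h⟩
    rw [Finset.card_eq_zero.1 hc, Finset.smul_finset_empty]
  · exact hoct U ⟨hU, hc⟩
  · obtain ⟨a, ha⟩ := dod_rank.trans U ⟨hU, hc⟩
    exact moves_transport (fun S hS => movesAll_spec dod_gens dod_moves hS) a.2 ha
  · have ho : symmDiff U Finset.univ ∈ octads := by
      refine ⟨supports_symmDiff hU univ_mem_supports, ?_⟩
      have := card_symmDiff_add U Finset.univ
      rw [Finset.inter_univ, hc, Finset.card_univ] at this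
      have h24 : Fintype.card GolayPt = 24 := by decide
      omega
    intro S hS
    obtain ⟨g, hg, h1, h⟩ := hoct _ ho S hS
    refine ⟨g, hg, ?_, h⟩
    rw [Finset.smul_finset_symmDiff, Finset.smul_finset_univ] at h1
    exact symmDiff_left_injective _ h1
  · intro S hS
    obtain ⟨g, hg, h⟩ := hany S hS
    refine ⟨g, hg, ?_, h⟩
    have : U = Finset.univ := by
      apply Finset.eq_univ_of_card
      rw [hc]; decide
    rw [this, Finset.smul_finset_univ]

end Cfsg.Agent.Lib.Helper34
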