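import Cfsg.Agent.Lib.Helper34.L211Tab
import Cfsg.Agent.Lib.Helper7.SL2Center

set_option autoImplicit false

/-! The stabiliser of the points `0`, `5` in the base `M12` is isomorphic to `PSL(2,11)`. -/

namespace Cfsg.Agent.Lib.Helper34

open Cfsg Cfsg.Agent.Lib.Helper33
open Cfsg.Agent.Lib.Helper9 (D0 H12 fixL mem_fixL H12_mem_iff)
open scoped Pointwise

/-- `SL(2,11)` -/
abbrev SL11 : Type := Matrix.SpecialLinearGroup (Fin 2) (ZMod 11)

theorem sl_det (A : SL11) : A.1 0 0 * A.1 1 1 - A.1 0 1 * A.1 1 0 = 1 := by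
  have := A.2
  rwa [Matrix.det_fin_two] at this

/-- the packed permutation attached to a matrix -/
def slP (A : SL11) : ℕ := fldP slTab (code11 (A.1 0 0) (A.1 0 1) (A.1 1 0) (A.1 1 1))

theorem slP_spec (A : SL11) : isPerm (slP A) = true ∧ permOf (slP A) ∈ fixL H12 [5, 0] :=
  inFix_spec (by decide) (sl_mem _ _ _ _ (sl_det A))

/-- the permutation attached to a matrix -/
noncomputable def slFun (A : SL11) : Equiv.Perm GolayPt := permOf (slP A)

/-- rank of a matrix: word length in the generators -/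
def slRank (A : SL11) : ℕ := fld8 slRk (code11 (A.1 0 0) (A.1 0 1) (A.1 1 0) (A.1 1 1))

def slT : SL11 := ⟨!![1, 1; 0, 1], by rw [Matrix.det_fin_two_of]; decide⟩
def slT' : SL11 := ⟨!![1, -1; 0, 1], by rw [Matrix.det_fin_two_of]; decide⟩
def slS : SL11 := ⟨!![0, -1; 1, 0], by rw [Matrix.det_fin_two_of]; decide⟩
def slS' : SL11 := ⟨!![0, 1; -1, 0], by rw [Matrix.det_fin_two_of]; decide⟩

theorem sl_mul_entry (A B : SL11) (i j : Fin 2) : (A * B).1 i j = A.1 i 0 * B.1 0 j + A.1 i 1 * B.1 1 j := by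
  rw [Matrix.SpecialLinearGroup.coe_mul, Matrix.mul_apply, Fin.sum_univ_two]

theorem slT'_mul : slT' * slT = 1 := by
  ext i j
  rw [sl_mul_entry]
  fin_cases i <;> fin_cases j <;> decide

theorem slS'_mul : slS' * slS = 1 := by
  ext i j
  rw [sl_mul_entry]
  fin_cases i <;> fin_cases j <;> decide

theorem slFun_mul_T (A : SL11) : slFun (A * slT) = slFun A * slFun slT := by
  unfold slFun
  apply mulChk_spec (slP_spec _).1 (slP_spec _).1 (slP_spec _).1
  have h := sl_mulT _ _ _ _ (sl_det A)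
  have t00 : slT.1 0 0 = 1 := rfl
  have t01 : slT.1 0 1 = 1 := rfl
  have t10 : slT.1 1 0 = 0 := rfl
  have t11 : slT.1 1 1 = 1 := rfl
  unfold slP
  rw [sl_mul_entry, sl_mul_entry, sl_mul_entry, sl_mul_entry, t00, t01, t10, t11]
  simp only [mul_one, mul_zero, add_zero]
  exact h

theorem slFun_mul_S (A : SL11) : slFun (A * slS) = slFun A * slFun slS := by
  unfold slFun
  apply mulChk_spec (slP_spec _).1 (slP_spec _).1 (slP_spec _).1
  have h := sl_mulS _ _ _ _ (sl_det A)
  have t00 : slS.1 0 0 = 0 := rfl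
  have t01 : slS.1 0 1 = -1 := rfl
  have t10 : slS.1 1 0 = 1 := rfl
  have t11 : slS.1 1 1 = 0 := rfl
  unfold slP
  rw [sl_mul_entry, sl_mul_entry, sl_mul_entry, sl_mul_entry, t00, t01, t10, t11]
  simp only [mul_one, mul_zero, add_zero, zero_add, mul_neg]
  exact h

theorem slFun_one : slFun 1 = 1 := by
  have h := slFun_mul_T 1
  rw [one_mul] at h
  exact mul_right_cancel (b := slFun slT) (by rw [one_mul]; exact h.symm)

theorem slRank_T' (A : SL11) : slRank (A * slT') =
    fld8 slRk (code11 (A.1 0 0) (A.1 0 1 - A.1 0 0) (A.1 1 0) (A.1 1 1 - A.1 1 0)) := by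
  have t00 : slT'.1 0 0 = 1 := rfl
  have t01 : slT'.1 0 1 = -1 := rfl
  have t10 : slT'.1 1 0 = 0 := rfl
  have t11 : slT'.1 1 1 = 1 := rfl
  unfold slRank
  rw [sl_mul_entry, sl_mul_entry, sl_mul_entry, sl_mul_entry, t00, t01, t10, t11]
  simp only [mul_one, mul_zero, add_zero, mul_neg, neg_add_eq_sub]

theorem slRank_S' (A : SL11) : slRank (A * slS') =
    fld8 slRk (code11 (-A.1 0 1) (A.1 0 0) (-A.1 1 1) (A.1 1 0)) := by
  have t00 : slS'.1 0 0 = 0 := rfl
  have t01 : slS'.1 0 1 = 1 := rfl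
  have t10 : slS'.1 1 0 = -1 := rfl
  have t11 : slS'.1 1 1 = 0 := rfl
  unfold slRank
  rw [sl_mul_entry, sl_mul_entry, sl_mul_entry, sl_mul_entry, t00, t01, t10, t11]
  simp only [mul_one, mul_zero, add_zero, zero_add, mul_neg]

theorem slFun_mul_aux (n : ℕ) : ∀ A : SL11, slRank A = n → ∀ B : SL11,
    slFun (B * A) = slFun B * slFun A := by
  induction n using Nat.strong_induction_on with
  | _ n ih =>
    intro A hA B
    have step : ∀ s s' : SL11, s' * s = 1 → (∀ X, slFun (X * s) = slFun X * slFun s) →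
        slRank (A * s') < slRank A → slFun (B * A) = slFun B * slFun A := by
      intro s s' hs hmul hlt
      have e1 : B * A = (B * (A * s')) * s := by
        rw [mul_assoc, mul_assoc, hs, mul_one]
      have e2 : A = (A * s') * s := by
        rw [mul_assoc, hs, mul_one]
      rw [e1, hmul, ih _ (hA ▸ hlt) (A * s') rfl B, mul_assoc, ← hmul, ← e2]
    rcases sl_rk _ _ _ _ (sl_det A) with h | h | h
    · have : A = 1 := by
        ext i j
        fin_cases i <;> fin_cases j
        · exact h.1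
        · exact h.2.1
        · exact h.2.2.1
        · exact h.2.2.2
      rw [this, mul_one, slFun_one, mul_one]
    · exact step slT slT' slT'_mul slFun_mul_T (by rw [slRank_T']; exact h)
    · exact step slS slS' slS'_mul slFun_mul_S (by rw [slRank_S']; exact h)

theorem slFun_mul (A B : SL11) : slFun (A * B) = slFun A * slFun B := slFun_mul_aux _ B rfl A

/-- the homomorphism from `SL(2,11)` given by the table -/
noncomputable def slHom : SL11 →* Equiv.Perm GolayPt := MonoidHom.mk' slFun slFun_mul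

theorem slHom_apply (A : SL11) : slHom A = permOf (slP A) := by
  unfold slHom
  rw [MonoidHom.mk'_apply, slFun]

theorem mem_center11 (A : SL11) :
    A ∈ Subgroup.center SL11 ↔ A.1 0 1 = 0 ∧ A.1 1 0 = 0 ∧ A.1 0 0 = A.1 1 1 := by
  have : Fact (Nat.Prime 11) := ⟨by norm_num⟩
  exact Cfsg.Agent.Lib.Helper7.mem_center_SL2_iff (F := ZMod 11)

theorem card_psl11 : Nat.card (SL11 ⧸ Subgroup.center SL11) = 660 := by
  have h20 : (2 : ZMod 11) ≠ 0 := by decide
  have : Fact (Nat.Prime 11) := ⟨by norm_num⟩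
  have h := Cfsg.Agent.Lib.Helper7.card_PSL2 (F := ZMod 11) h20
  rw [ZMod.card] at h
  have h' : Nat.card (SL11 ⧸ Subgroup.center SL11) * 2 = 11 * (11 ^ 2 - 1) := h
  omega

theorem slHom_ker : slHom.ker = Subgroup.center SL11 := by
  ext A
  rw [MonoidHom.mem_ker, mem_center11, slHom_apply]
  have hp := (slP_spec A).1
  constructor
  · intro hA
    have hfix : ∀ i < 24, fld5 (slP A) i = i := by
      intro i hi
      have := idx_permOf hp (pt i)
      rw [hA, Equiv.Perm.one_apply, idx_pt hi] at this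
      exact this.symm
    exact sl_ker _ _ _ _ (sl_det A) (hfix 1 (by norm_num)) (hfix 2 (by norm_num)) (hfix 3 (by norm_num))
      (hfix 4 (by norm_num))
  · rintro ⟨h1, h2, h3⟩
    have hd := sl_det A
    rw [h1, h2, ← h3, mul_zero, sub_zero] at hd
    have h := sl_ker' _ hd
    have e : slP A = fldP slTab (code11 (A.1 0 0) 0 0 (A.1 0 0)) := by
      unfold slP
      rw [h1, h2, ← h3]
    rw [← e] at h
    have hT : fldP slTab (code11 1 1 0 1) = slP slT := rfl
    rw [hT] at h
    have := mulChk_spec (slP_spec slT).1 hp (slP_spec slT).1 h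
    exact mul_right_cancel (b := permOf (slP slT)) (by rw [one_mul]; exact this.symm)

theorem card_fix50 : Nat.card (fixL H12 [5, 0]) = 660 := by
  have h := Cfsg.Agent.Lib.Helper9.card_fixL_step H12 [0] 5 0xfacca0 (by norm_num)
    (by
      intro g hg
      have h1 : g (pt 5) ∉ unmask D0 := by
        rw [H12_mem_iff hg.1, pt_mem_unmask (by norm_num)]
        decide
      rw [notMem_unmask_iff, mem_unmask] at h1
      exact h1)
    (by
      intro q hq hD
      obtain ⟨t, ht, _, h2⟩ := Cfsg.Agent.Lib.Helper9.m11c_T2 q hq hD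
      exact ⟨t, Cfsg.Agent.Lib.Helper9.K11_le ht, h2⟩)
  rw [Cfsg.Agent.Lib.Helper9.m12_cards.1] at h
  have h12 : popc 0xfacca0 = 12 := by decide +kernel
  rw [h12] at h
  omega

theorem slHom_range : slHom.range = fixL H12 [5, 0] := by
  apply Subgroup.eq_of_le_of_card_ge
  · rintro _ ⟨A, rfl⟩
    rw [slHom_apply]
    exact (slP_spec A).2
  · rw [card_fix50, ← Nat.card_congr (QuotientGroup.quotientKerEquivRange slHom).toEquiv, slHom_ker,
      card_psl11]

/-- the base group is `PSL(2,11)` -/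
theorem fix50_equiv : Nonempty (↥(fixL H12 [5, 0]) ≃* Matrix.ProjectiveSpecialLinearGroup (Fin 2) (ZMod 11)) :=
  ⟨((QuotientGroup.quotientMulEquivOfEq slHom_ker.symm).trans
    ((QuotientGroup.quotientKerEquivRange slHom).trans (MulEquiv.subgroupCongr slHom_range))).symm⟩

end Cfsg.Agent.Lib.Helper34
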