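import Cfsg.Agent.Lib.Helper34.Plane4
import Cfsg.Agent.Lib.Helper6.SLGen
import Cfsg.Agent.Lib.Helper6.SLCard
import Cfsg.Agent.Lib.Helper6.SLEquiv
import Cfsg.Agent.Lib.Helper9.M24Trans

set_option autoImplicit false

/-! The pointwise stabiliser of the points `23, 0, 1` in `M24` is isomorphic to `PSL(3,4)`. -/

namespace Cfsg.Agent.Lib.Helper34

open Cfsg Cfsg.Agent.Lib.Helper33
open Cfsg.Agent.Lib.Helper9 (fixL mem_fixL)
open scoped Pointwise

/-- `SL(3,4)` over the concrete field -/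
abbrev SL34 : Type := Matrix.SpecialLinearGroup (Fin 3) F4c

theorem sl34_mulVec_ne (B : SL34) (v : Fin 3 → F4c) (hv : v ≠ 0) : B.1.mulVec v ≠ 0 := by
  intro h
  apply hv
  have : (B⁻¹).1.mulVec (B.1.mulVec v) = v := by
    rw [Matrix.mulVec_mulVec, ← Matrix.SpecialLinearGroup.coe_mul, inv_mul_cancel,
      Matrix.SpecialLinearGroup.coe_one, Matrix.one_mulVec]
  rw [← this, h, Matrix.mulVec_zero]

/-- the permutation of the 24 points induced by a matrix -/
def plPerm (A : SL34) : Equiv.Perm GolayPt where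
  toFun := plFun A.1
  invFun := plFun (A⁻¹).1
  left_inv p := by
    rw [← plFun_mul _ _ (sl34_mulVec_ne A), ← Matrix.SpecialLinearGroup.coe_mul, inv_mul_cancel,
      Matrix.SpecialLinearGroup.coe_one, plFun_one]
  right_inv p := by
    rw [← plFun_mul _ _ (sl34_mulVec_ne A⁻¹), ← Matrix.SpecialLinearGroup.coe_mul, mul_inv_cancel,
      Matrix.SpecialLinearGroup.coe_one, plFun_one]

theorem plPerm_apply (A : SL34) (p : GolayPt) : plPerm A p = plFun A.1 p := rfl

theorem plPerm_mul (A B : SL34) : plPerm (A * B) = plPerm A * plPerm B := by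
  ext1 p
  rw [Equiv.Perm.mul_apply, plPerm_apply, plPerm_apply, plPerm_apply, Matrix.SpecialLinearGroup.coe_mul,
    plFun_mul _ _ (sl34_mulVec_ne B)]

/-- the action as a homomorphism -/
def plHom : SL34 →* Equiv.Perm GolayPt := MonoidHom.mk' plPerm plPerm_mul

theorem plHom_apply (A : SL34) (p : GolayPt) : plHom A p = plFun A.1 p := by
  unfold plHom
  rw [MonoidHom.mk'_apply, plPerm_apply]

theorem plHom_tv_eq (i j : Fin 3) (h : i ≠ j) (c : F4c) :
    isPerm (fldP plTv (c.val + 4 * (j.val + 3 * i.val))) = true ∧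
    permOf (fldP plTv (c.val + 4 * (j.val + 3 * i.val))) ∈ fixL M24 [1, 0, 23] ∧
    plHom (Matrix.SpecialLinearGroup.transvection h c) =
      permOf (fldP plTv (c.val + 4 * (j.val + 3 * i.val))) := by
  obtain ⟨h1, h2⟩ := pl_tv i j h c
  obtain ⟨hp, hm⟩ := inFix_spec (by decide) h1
  refine ⟨hp, ⟨hm.1.1, hm.2⟩, ?_⟩
  ext1 p
  rw [plHom_apply, permOf_apply hp, ← h2 _ (idx_lt p)]
  by_cases hb : (0x7FFFFC : ℕ).testBit (idx p) = true
  · rw [plFun_pos _ hb, if_pos hb]
    rfl
  · rw [plFun_neg _ hb, if_neg hb, pt_idx]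

theorem plHom_mem (A : SL34) : plHom A ∈ fixL M24 [1, 0, 23] := by
  refine Cfsg.Agent.Lib.Helper6.SL_transvection_induction (fun A => plHom A ∈ fixL M24 [1, 0, 23]) ?_ ?_ A
  · intro i j h c
    obtain ⟨_, h2, h3⟩ := plHom_tv_eq i j h c
    show plHom _ ∈ _
    rw [h3]; exact h2
  · intro A B hA hB
    show plHom _ ∈ _
    rw [map_mul]
    exact Subgroup.mul_mem _ hA hB

theorem center_le_ker : Subgroup.center SL34 ≤ plHom.ker := by
  intro A hA
  rw [Matrix.SpecialLinearGroup.mem_center_iff] at hA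
  obtain ⟨r, hr, e⟩ := hA
  have hr0 : r ≠ 0 := by
    intro h
    rw [h] at hr
    simp at hr
  rw [MonoidHom.mem_ker]
  ext1 p
  rw [plHom_apply, ← e, plFun_scalar r hr0, Equiv.Perm.one_apply]

/-- the induced homomorphism on `PSL(3,4)` -/
def plHomP : Matrix.ProjectiveSpecialLinearGroup (Fin 3) F4c →* Equiv.Perm GolayPt :=
  QuotientGroup.lift (Subgroup.center SL34) plHom center_le_ker

theorem plHomP_injective : Function.Injective plHomP := by
  have hs : IsSimpleGroup (Matrix.ProjectiveSpecialLinearGroup (Fin 3) F4c) :=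
    Cfsg.Agent.Lib.Helper6.PSL_isSimpleGroup_of_three_le (by simp)
  rw [← MonoidHom.ker_eq_bot_iff]
  rcases (plHomP.normal_ker).eq_bot_or_eq_top with h | h
  · exact h
  · exfalso
    have h01 : (0 : Fin 3) ≠ 1 := by decide
    obtain ⟨hp, _, h3⟩ := plHom_tv_eq 0 1 h01 1
    have h1 : plHomP (QuotientGroup.mk (Matrix.SpecialLinearGroup.transvection h01 (1 : F4c))) = 1 := by
      rw [← MonoidHom.mem_ker, h]; trivial
    have h2 : plHom (Matrix.SpecialLinearGroup.transvection h01 (1 : F4c)) = 1 := h1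
    rw [h3] at h2
    have h4 := idx_permOf hp (pt 3)
    rw [h2, Equiv.Perm.one_apply, idx_pt (by norm_num)] at h4
    revert h4
    decide +kernel

theorem card_psl34 : Nat.card (Matrix.ProjectiveSpecialLinearGroup (Fin 3) F4c) = 20160 := by
  have h := Cfsg.Agent.Lib.Helper6.card_PSL_field (F := F4c) 3 (by norm_num)
  rw [F4c.card] at h
  simp only [Fin.prod_univ_three, Fin.val_zero, Fin.val_one, Fin.val_two] at h
  have e : Nat.gcd 3 (4 - 1) = 3 := by norm_num
  rw [e] at h
  omega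

/-- the base group is `PSL(3,4)` -/
theorem m21b_equiv (hc : Nat.card (fixL M24 [1, 0, 23]) = 20160) :
    Nonempty (↥(fixL M24 [1, 0, 23]) ≃* Matrix.ProjectiveSpecialLinearGroup (Fin 3) F4c) := by
  have hr : plHomP.range = fixL M24 [1, 0, 23] := by
    apply Subgroup.eq_of_le_of_card_ge
    · rintro _ ⟨A, rfl⟩
      induction A using QuotientGroup.induction_on with
      | H A => exact plHom_mem A
    · rw [hc, ← Nat.card_congr (MonoidHom.ofInjective plHomP_injective).toEquiv, card_psl34]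
  exact ⟨((MonoidHom.ofInjective plHomP_injective).trans (MulEquiv.subgroupCongr hr)).symm⟩

end Cfsg.Agent.Lib.Helper34
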