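import Cfsg.Agent.Lib.Helper34.TabGrp
import Cfsg.Agent.Lib.Helper34.M21Iso

set_option autoImplicit false

/-! Subgroups of order three in `PSL(3,4)`. -/

namespace Cfsg.Agent.Lib.Helper34

open Cfsg Cfsg.Agent.Lib.Helper33
open Cfsg.Agent.Lib.Helper9 (fixL mem_fixL)
open scoped Pointwise

def p9Tab : ℕ := 0xbaeb013e914b14520e48999d669c20bd8d31a4e2932055c5f5521c4a3420b910a8c9a37b265b0926855cb3d020bd903a3d4d4944e59e468d5849c020b92b13a6149146eb35e81198b54c20bacc26ca677962e251351a19682820b90c753c534ba8cb42556a0ab88c20bad0d8246a938ec24de6a54b614420bdab49ca307b9ac5a928398a418820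

def p9Conj : ℕ := 0xbbd87811b4b18559456e995091a820b964d3d671310566290f8256ea0c20b9974894737244f4358455a5581c20b95eda563345a0470cd21256c3a820bbca385851219a84d16e532b23cc20bd56a1ba272bc4944196a12466cc20baccd125437b28eb46483d4a484c20bdab49ca307b9ac5a928398a418820bdab49ca307b9ac5a928398a418820


theorem card_M21b : Nat.card (fixL M24 [1, 0, 23]) = 20160 := by
  rw [← Cfsg.Agent.Lib.Helper9.card_stabilizer_three (pt 23) (pt 0) (pt 1) (pt_ne (by norm_num) (by norm_num) (by norm_num))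
    (pt_ne (by norm_num) (by norm_num) (by norm_num)) (pt_ne (by norm_num) (by norm_num) (by norm_num))]
  apply Nat.card_congr
  exact ⟨fun g => ⟨⟨g.1, g.2.1⟩, ⟨⟨g.2.2 23 (by simp), g.2.2 0 (by simp)⟩, g.2.2 1 (by simp)⟩⟩,
    fun g => ⟨g.1.1, g.1.2, by
      intro i hi
      simp only [List.mem_cons, List.not_mem_nil, or_false] at hi
      rcases hi with rfl | rfl | rfl
      · exact g.2.2
      · exact g.2.1.2
      · exact g.2.1.1⟩, fun _ => rfl, fun _ => rfl⟩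

set_option maxRecDepth 1000000 in
theorem p9_grp : TabGrp p9Tab 9 := ⟨by norm_num, by decide +kernel⟩

set_option maxRecDepth 1000000 in
theorem p3_grp : TabGrp p9Tab 3 := ⟨by norm_num, by decide +kernel⟩

/-- kernel test for membership in the stabiliser of the three base points -/
noncomputable def inM21 (P : ℕ) : Bool :=
  inM24 P && (Nat.beq (fld5 P 1) 1 && (Nat.beq (fld5 P 0) 0 && Nat.beq (fld5 P 23) 23))

theorem inM21_spec {P : ℕ} (h : inM21 P = true) : isPerm P = true ∧ permOf P ∈ fixL M24 [1, 0, 23] := by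
  rw [inM21, Bool.and_eq_true, Bool.and_eq_true, Bool.and_eq_true] at h
  obtain ⟨h0, h1, h2, h3⟩ := h
  have hp := isPerm_of_inM24 h0
  refine ⟨hp, permOf_mem_M24 h0, ?_⟩
  intro i hi
  simp only [List.mem_cons, List.not_mem_nil, or_false] at hi
  rcases hi with rfl | rfl | rfl
  · rw [permOf_apply hp, idx_pt (by norm_num), Nat.eq_of_beq_eq_true h1]
  · rw [permOf_apply hp, idx_pt (by norm_num), Nat.eq_of_beq_eq_true h2]
  · rw [permOf_apply hp, idx_pt (by norm_num), Nat.eq_of_beq_eq_true h3]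

set_option maxRecDepth 1000000 in
theorem p9_ok : allBelow (fun i => inM21 (fldP p9Tab i) && (inM21 (fldP p9Conj i) &&
    (Nat.beq i 0 || conjChk (fldP p9Conj i) (fldP p9Tab i) (fldP p9Tab 1)))) 9 = true := by
  decide +kernel

theorem p9_le : p9_grp.sub ≤ fixL M24 [1, 0, 23] := by
  rintro _ ⟨i, hi, rfl⟩
  have h := (allBelow_iff _ _).1 p9_ok i hi
  rw [Bool.and_eq_true] at h
  exact (inM21_spec h.1).2

theorem p3_le : p3_grp.sub ≤ fixL M24 [1, 0, 23] := by
  rintro _ ⟨i, hi, rfl⟩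
  exact p9_le ⟨i, lt_trans hi (by norm_num), rfl⟩

theorem p9_conj {x : Equiv.Perm GolayPt} (hx : x ∈ p9_grp.sub) (hx1 : x ≠ 1) :
    ∃ h ∈ fixL M24 [1, 0, 23], h * x * h⁻¹ ∈ p3_grp.sub := by
  obtain ⟨i, hi, rfl⟩ := hx
  have h := (allBelow_iff _ _).1 p9_ok i hi
  rw [Bool.and_eq_true, Bool.and_eq_true, Bool.or_eq_true] at h
  obtain ⟨h1, h2, h3⟩ := h
  rcases h3 with h3 | h3
  · exfalso
    apply hx1
    rw [Nat.eq_of_beq_eq_true h3]
    exact p9_grp.one
  · refine ⟨_, (inM21_spec h2).2, ?_⟩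
    rw [conjChk_spec (inM21_spec h2).1 (inM21_spec h1).1 (p9_grp.perm (by norm_num)) h3, mul_inv_cancel_right]
    exact ⟨1, by norm_num, rfl⟩

theorem M21b_conj3 (X Y : Subgroup ↥(fixL M24 [1, 0, 23])) (hX : Nat.card X = 3) (hY : Nat.card Y = 3) :
    ∃ g : ↥(fixL M24 [1, 0, 23]), MulAut.conj g • X = Y := by
  have : Fact (Nat.Prime 3) := ⟨by norm_num⟩
  have : Finite ↥(fixL M24 [1, 0, 23]) := Nat.finite_of_card_ne_zero (by rw [card_M21b]; norm_num)
  have hf : (20160 : ℕ).factorization 3 = 2 := by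
    have : (20160 : ℕ) = 3 ^ 2 * 2240 := by norm_num
    rw [this, Nat.factorization_mul (by norm_num) (by norm_num), Nat.Prime.factorization_pow (by norm_num)]
    simp [Nat.factorization_eq_zero_of_not_dvd]
  let P : Sylow 3 ↥(fixL M24 [1, 0, 23]) := Sylow.ofCard (p9_grp.sub.subgroupOf (fixL M24 [1, 0, 23])) (by
    rw [Nat.card_congr (Subgroup.subgroupOfEquivOfLe p9_le).toEquiv, p9_grp.card_sub, card_M21b, hf]
    norm_num)
  have hA : Nat.card (p3_grp.sub.subgroupOf (fixL M24 [1, 0, 23])) = 3 := by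
    rw [Nat.card_congr (Subgroup.subgroupOfEquivOfLe p3_le).toEquiv, p3_grp.card_sub]
  have hconj : ∀ x ∈ (P : Subgroup ↥(fixL M24 [1, 0, 23])), x ≠ 1 →
      ∃ h : ↥(fixL M24 [1, 0, 23]), h * x * h⁻¹ ∈ p3_grp.sub.subgroupOf (fixL M24 [1, 0, 23]) := by
    intro x hx hx1
    have hx' : x.1 ∈ p9_grp.sub := Subgroup.mem_subgroupOf.1 hx
    obtain ⟨h, hh, hc⟩ := p9_conj hx' (fun e => hx1 (Subtype.ext e))
    exact ⟨⟨h, hh⟩, Subgroup.mem_subgroupOf.2 hc⟩
  obtain ⟨g1, hg1⟩ := all_conj_of_sylow P _ hA hconj X hX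
  obtain ⟨g2, hg2⟩ := all_conj_of_sylow P _ hA hconj Y hY
  refine ⟨g2⁻¹ * g1, ?_⟩
  rw [map_mul, mul_smul, hg1, ← hg2, map_inv, inv_smul_smul]

theorem psl34_conj3 (F : Type*) [Field F] [Fintype F] (hF : Fintype.card F = 4)
    (X Y : Subgroup (Matrix.ProjectiveSpecialLinearGroup (Fin 3) F)) (hX : Nat.card ↥X = 3)
    (hY : Nat.card ↥Y = 3) : ∃ g : Matrix.ProjectiveSpecialLinearGroup (Fin 3) F, MulAut.conj g • X = Y := by
  obtain ⟨E⟩ := m21b_equiv card_M21b
  have e2 : Matrix.ProjectiveSpecialLinearGroup (Fin 3) F4c ≃* Matrix.ProjectiveSpecialLinearGroup (Fin 3) F :=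
    Cfsg.Agent.Lib.Helper6.pslEquiv (FiniteField.ringEquivOfCardEq (by rw [hF, F4c.card]))
  exact conj_transport (E.trans e2).symm M21b_conj3 X Y hX hY

end Cfsg.Agent.Lib.Helper34
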