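import Cfsg.Agent.Lib.Helper34.M24Fam
import Cfsg.Agent.Lib.Helper33.Forest2

set_option autoImplicit false

/-! Generalisation of `M24Fam`: sub-families (prescribed incidence with two points) of an arbitrary
`M24`-invariant family of subsets given by a table, with an arbitrary invariant relation. -/

namespace Cfsg.Agent.Lib.Helper34

open Cfsg Cfsg.Agent.Lib.Helper33
open scoped Pointwise

/-- transport of `RankData` along conjugation, allowing the relation to change -/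
theorem rankData_conj' {G X ι : Type*} [Group G] [MulAction G X] {K K' : Subgroup G} {Ω Ω' : Set X}
    {rel rel' : X → X → ι} {x₀ : X} {sz : ι → ℕ} (D : RankData ↥K Ω rel x₀ sz) (a : G)
    (hK : ∀ g ∈ K, a⁻¹ * g * a ∈ K')
    (hK' : ∀ g ∈ K', a * g * a⁻¹ ∈ K)
    (hΩ : ∀ y, y ∈ Ω' ↔ a • y ∈ Ω)
    (hrel : ∀ x y, rel (a • x) (a • y) = rel' x y) :
    RankData ↥K' Ω' rel' (a⁻¹ • x₀) sz := by
  have key : ∀ (g : G) (y : X), a • g • y = (a * g * a⁻¹) • a • y := by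
    intro g y
    rw [mul_smul, mul_smul, inv_smul_smul]
  refine ⟨?_, ?_, ?_, ?_, ?_, ?_⟩
  · rw [hΩ, smul_inv_smul]; exact D.mem₀
  · rintro ⟨g, hg⟩ y hy
    show g • y ∈ Ω'
    rw [hΩ, key]
    exact D.smul_mem ⟨_, hK' g hg⟩ _ ((hΩ y).1 hy)
  · intro y hy
    obtain ⟨⟨g, hg⟩, h⟩ := D.trans _ ((hΩ y).1 hy)
    refine ⟨⟨_, hK g hg⟩, ?_⟩
    show (a⁻¹ * g * a) • y = a⁻¹ • x₀
    rw [mul_smul, mul_smul]
    exact congrArg (fun z => a⁻¹ • z) h
  · rintro ⟨g, hg⟩ x y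
    show rel' (g • x) (g • y) = rel' x y
    rw [← hrel, key, key, ← hrel x y]
    exact D.rel_smul ⟨_, hK' g hg⟩ _ _
  · intro y hy z hz h
    have h1 : rel x₀ (a • y) = rel x₀ (a • z) := by
      have e1 := hrel (a⁻¹ • x₀) y
      have e2 := hrel (a⁻¹ • x₀) z
      rw [smul_inv_smul] at e1 e2
      rw [e1, e2, h]
    obtain ⟨⟨g, hg⟩, h2, h3⟩ := D.trans₂ _ ((hΩ y).1 hy) _ ((hΩ z).1 hz) h1
    refine ⟨⟨_, hK g hg⟩, ?_, ?_⟩
    · show (a⁻¹ * g * a) • a⁻¹ • x₀ = a⁻¹ • x₀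
      rw [mul_smul, mul_smul, smul_inv_smul]
      exact congrArg (fun z => a⁻¹ • z) h2
    · show (a⁻¹ * g * a) • y = z
      rw [mul_smul, mul_smul]
      have h3' : g • a • y = a • z := h3
      rw [h3', inv_smul_smul]
  · intro i
    rw [← D.count i]
    have : {y | y ∈ Ω ∧ rel x₀ y = i} = (fun y => a • y) '' {y | y ∈ Ω' ∧ rel' (a⁻¹ • x₀) y = i} := by
      ext y
      constructor
      · rintro ⟨hy, hr⟩
        refine ⟨a⁻¹ • y, ⟨?_, ?_⟩, smul_inv_smul a y⟩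
        · rw [hΩ, smul_inv_smul]; exact hy
        · rw [← hrel, smul_inv_smul, smul_inv_smul, hr]
      · rintro ⟨z, ⟨hz, hr⟩, rfl⟩
        refine ⟨(hΩ z).1 hz, ?_⟩
        have e1 := hrel (a⁻¹ • x₀) z
        rw [smul_inv_smul] at e1
        show rel x₀ (a • z) = i
        rw [e1, hr]
    rw [this, Set.ncard_image_of_injective _ (MulAction.injective a)]

/-- members of `Ω₀` with prescribed incidence with two points -/
def subFam (Ω₀ : Set (Finset GolayPt)) (p q : GolayPt) (bp bq : Bool) : Set (Finset GolayPt) :=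
  {o | o ∈ Ω₀ ∧ decide (p ∈ o) = bp ∧ decide (q ∈ o) = bq}

theorem mem_subFam {Ω₀ : Set (Finset GolayPt)} {p q : GolayPt} {bp bq : Bool} {o : Finset GolayPt} :
    o ∈ subFam Ω₀ p q bp bq ↔ o ∈ Ω₀ ∧ decide (p ∈ o) = bp ∧ decide (q ∈ o) = bq := Iff.rfl

theorem smul_mem_subFam_iff {Ω₀ : Set (Finset GolayPt)} (hΩ : ∀ g ∈ M24, ∀ y ∈ Ω₀, g • y ∈ Ω₀)
    {g : Equiv.Perm GolayPt} (hg : g ∈ M24) {p q : GolayPt} {bp bq : Bool}
    {s : Finset GolayPt} : g • s ∈ subFam Ω₀ (g p) (g q) bp bq ↔ s ∈ subFam Ω₀ p q bp bq := by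
  have h1 : g • s ∈ Ω₀ ↔ s ∈ Ω₀ := by
    constructor
    · intro h
      have := hΩ _ (M24.inv_mem hg) _ h
      rwa [inv_smul_smul] at this
    · exact hΩ g hg s
  rw [mem_subFam, mem_subFam, h1]
  simp only [apply_mem_smul_iff]

/-- kernel test: `tab` lists (without repetition) the members of the parent table `ptab` with the prescribed
incidence; `pos` sends parent indices to indices, `src` goes back. -/
noncomputable def subFamOK (i j : ℕ) (bp bq : Bool) (ptab N tab pos src n : ℕ) : Bool :=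
  allBelow (fun k => !((Nat.testBit (fld24 ptab k) i == bp) && (Nat.testBit (fld24 ptab k) j == bq)) ||
    (Nat.beq (fld24 tab (fld12 pos k)) (fld24 ptab k) && Nat.blt (fld12 pos k) n)) N &&
  allBelow (fun k => (Nat.blt (fld12 src k) N && (Nat.beq (fld24 ptab (fld12 src k)) (fld24 tab k) &&
      Nat.beq (fld12 pos (fld12 src k)) k)) &&
      ((Nat.testBit (fld24 tab k) i == bp) && (Nat.testBit (fld24 tab k) j == bq))) n

theorem subFamOK_spec {Ω₀ : Set (Finset GolayPt)} {i j : ℕ} {bp bq : Bool} {ptab N tab pos src n : ℕ}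
    (hi : i < 24) (hj : j < 24)
    (pspec : (∀ y ∈ Ω₀, ∃ k < N, y = unmask (fld24 ptab k)) ∧ (∀ k < N, unmask (fld24 ptab k) ∈ Ω₀) ∧
      (∀ k < N, ∀ k' < N, fld24 ptab k = fld24 ptab k' → k = k'))
    (h : subFamOK i j bp bq ptab N tab pos src n = true) :
    (∀ y ∈ subFam Ω₀ (pt i) (pt j) bp bq, ∃ k < n, y = unmask (fld24 tab k)) ∧
    (∀ k < n, unmask (fld24 tab k) ∈ subFam Ω₀ (pt i) (pt j) bp bq) ∧
    (∀ k < n, ∀ k' < n, fld24 tab k = fld24 tab k' → k = k') := by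
  rw [subFamOK, Bool.and_eq_true, allBelow_iff, allBelow_iff] at h
  obtain ⟨h1, h2⟩ := h
  obtain ⟨pcover, pmem, pinj⟩ := pspec
  refine ⟨?_, ?_, ?_⟩
  · rintro y ⟨hy, hp, hq⟩
    obtain ⟨k, hk, rfl⟩ := pcover y hy
    rw [decide_pt_mem_unmask hi] at hp
    rw [decide_pt_mem_unmask hj] at hq
    have := h1 k hk
    rw [hp, hq] at this
    simp only [beq_self_eq_true, Bool.and_self, Bool.not_true, Bool.false_or, Bool.and_eq_true] at this
    exact ⟨_, blt_iff.1 this.2, by rw [Nat.eq_of_beq_eq_true this.1]⟩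
  · intro k hk
    have := h2 k hk
    simp only [Bool.and_eq_true, beq_iff_eq] at this
    obtain ⟨⟨h3, h4, _⟩, h5, h6⟩ := this
    refine ⟨?_, ?_, ?_⟩
    · rw [← Nat.eq_of_beq_eq_true h4]; exact pmem _ (blt_iff.1 h3)
    · rw [decide_pt_mem_unmask hi, h5]
    · rw [decide_pt_mem_unmask hj, h6]
  · intro k hk k' hk' h
    have a := h2 k hk
    have b := h2 k' hk'
    simp only [Bool.and_eq_true] at a b
    obtain ⟨⟨a1, a2, a3⟩, _⟩ := a
    obtain ⟨⟨b1, b2, b3⟩, _⟩ := b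
    have e : fld12 src k = fld12 src k' :=
      pinj _ (blt_iff.1 a1) _ (blt_iff.1 b1)
        (by rw [Nat.eq_of_beq_eq_true a2, Nat.eq_of_beq_eq_true b2, h])
    rw [← Nat.eq_of_beq_eq_true a3, ← Nat.eq_of_beq_eq_true b3, e]

/-- `RankData` for the stabiliser of the points `pt i`, `pt j` on a family of sets given by a table. -/
theorem ptRankData {ι : Type*} [DecidableEq ι] (i j : ℕ) (Ω : Set (Finset GolayPt))
    (rel : Finset GolayPt → Finset GolayPt → ι)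
    (gens fus tab par gi trs rts ng r n : ℕ) (c : ℕ → ι)
    (hi : i < 24) (hj : j < 24) (hn : 0 < n)
    (smul_mem : ∀ g ∈ ptStab (pt i) (pt j), ∀ y ∈ Ω, g • y ∈ Ω)
    (rel_smul : ∀ g ∈ ptStab (pt i) (pt j), ∀ x y, rel (g • x) (g • y) = rel x y)
    (spec : (∀ y ∈ Ω, ∃ k < n, y = unmask (fld24 tab k)) ∧ (∀ k < n, unmask (fld24 tab k) ∈ Ω) ∧
      (∀ k < n, ∀ k' < n, fld24 tab k = fld24 tab k' → k = k'))
    (hgens : gensFixPt i j gens ng (fld24 tab 0) = true)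
    (hforest : allBelow (nodeOK gens tab par gi trs rts ng r) n = true)
    (hfuse : fuseOKPt i j fus tab rts r = true)
    (hc : ∀ t < r, rel (unmask (fld24 tab 0)) (unmask (fld24 tab (fld12 rts t))) = c t)
    (hroots : ∀ t < r, ∀ t' < r, c t = c t' → t = t') :
    RankData ↥(ptStab (pt i) (pt j)) Ω rel (unmask (fld24 tab 0))
      (fun v => ((Finset.range n).filter (fun k => c (fld4 trs k) = v)).card) := by
  obtain ⟨cover, mem, inj⟩ := spec
  have hF := maskForest _ gens tab par gi trs rts ng r n (gensFixPt_spec hi hj hgens) hforest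
  refine RankData.ofForest _ _ (unmask (fld24 tab 0)) (fun k => unmask (fld24 tab k)) n
    (fun k => fld12 rts (fld4 trs k)) (fun k => c (fld4 trs k)) (mem 0 hn)
    (fun g y hy => smul_mem g.1 g.2 y hy) (fun g x y => rel_smul g.1 g.2 x y) cover mem ?_ ?_ ?_ ?_ ?_
  · intro k hk k' hk' h
    exact inj k hk k' hk' (unmask_inj (fld24_lt _ _) (fld24_lt _ _) h)
  · intro k hk
    obtain ⟨_, g, hg, h⟩ := hF k hk
    exact ⟨⟨g, hg.1⟩, hg.2, h⟩
  · intro k hk
    obtain ⟨g, hg, h⟩ := fuseOKPt_spec hi hj hfuse _ (hF k hk).1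
    exact ⟨⟨g, hg⟩, h⟩
  · intro k hk
    exact hc _ (hF k hk).1
  · intro k hk k' hk' h
    show fld12 rts (fld4 trs k) = fld12 rts (fld4 trs k')
    rw [hroots _ (hF k hk).1 _ (hF k' hk').1 h]

theorem smul_mem_subFam_of_ptStab {Ω₀ : Set (Finset GolayPt)} (hΩ : ∀ g ∈ M24, ∀ y ∈ Ω₀, g • y ∈ Ω₀)
    {p q : GolayPt} {bp bq : Bool} : ∀ g ∈ ptStab p q, ∀ y ∈ subFam Ω₀ p q bp bq,
      g • y ∈ subFam Ω₀ p q bp bq := by
  intro g hg y hy
  obtain ⟨h1, h2, h3⟩ := mem_ptStab.1 hg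
  have := (smul_mem_subFam_iff hΩ h1 (p := p) (q := q) (bp := bp) (bq := bq) (s := y)).2 hy
  rw [h2, h3] at this
  exact this

/-- transport of rank data on a sub-family from `(a p, a q)` to `(p, q)` -/
theorem subFamRank_transport {ι : Type*} {Ω₀ : Set (Finset GolayPt)}
    (hΩ : ∀ g ∈ M24, ∀ y ∈ Ω₀, g • y ∈ Ω₀) {p q : GolayPt} {bp bq : Bool}
    {a : Equiv.Perm GolayPt} (ha : a ∈ M24)
    {rel rel' : Finset GolayPt → Finset GolayPt → ι} (hrel : ∀ x y, rel (a • x) (a • y) = rel' x y)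
    {o₀ : Finset GolayPt} {sz : ι → ℕ}
    (D : RankData ↥(ptStab (a p) (a q)) (subFam Ω₀ (a p) (a q) bp bq) rel o₀ sz) :
    RankData ↥(ptStab p q) (subFam Ω₀ p q bp bq) rel' (a⁻¹ • o₀) sz := by
  refine rankData_conj' D a ?_ ?_ (fun y => (smul_mem_subFam_iff hΩ ha).symm) hrel
  · intro g hg
    obtain ⟨h1, h2, h3⟩ := mem_ptStab.1 hg
    refine mem_ptStab.2 ⟨M24.mul_mem (M24.mul_mem (M24.inv_mem ha) h1) ha, ?_, ?_⟩
    · rw [Equiv.Perm.mul_apply, Equiv.Perm.mul_apply, h2, perm_inv_apply]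
    · rw [Equiv.Perm.mul_apply, Equiv.Perm.mul_apply, h3, perm_inv_apply]
  · intro g hg
    obtain ⟨h1, h2, h3⟩ := mem_ptStab.1 hg
    refine mem_ptStab.2 ⟨M24.mul_mem (M24.mul_mem ha h1) (M24.inv_mem ha), ?_, ?_⟩
    · rw [Equiv.Perm.mul_apply, Equiv.Perm.mul_apply, perm_inv_apply, h2]
    · rw [Equiv.Perm.mul_apply, Equiv.Perm.mul_apply, perm_inv_apply, h3]

open Classical in
/-- relation between two sets: intersection size and whether the union together with `p`, `q` lies in an octad -/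
noncomputable def relPQ (p q : GolayPt) (x y : Finset GolayPt) : ℕ :=
  2 * (x ∩ y).card + (if ∃ o ∈ octads, p ∈ o ∧ q ∈ o ∧ x ∪ y ⊆ o then 1 else 0)

theorem relPQ_smul {a : Equiv.Perm GolayPt} (ha : a ∈ M24) (p q : GolayPt) (x y : Finset GolayPt) :
    relPQ (a p) (a q) (a • x) (a • y) = relPQ p q x y := by
  have h : (∃ o ∈ octads, a p ∈ o ∧ a q ∈ o ∧ a • x ∪ a • y ⊆ o) ↔
      (∃ o ∈ octads, p ∈ o ∧ q ∈ o ∧ x ∪ y ⊆ o) := by
    rw [← Finset.smul_finset_union]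
    constructor
    · rintro ⟨o, ho, h1, h2, hs⟩
      refine ⟨a⁻¹ • o, smul_mem_octads (M24.inv_mem ha) ho, ?_, ?_, ?_⟩
      · rw [← apply_mem_smul_iff a, smul_inv_smul]; exact h1
      · rw [← apply_mem_smul_iff a, smul_inv_smul]; exact h2
      · rw [← Finset.smul_finset_subset_smul_finset_iff (a := a), smul_inv_smul]
        exact hs
    · rintro ⟨o, ho, h1, h2, hs⟩
      exact ⟨a • o, smul_mem_octads ha ho, (apply_mem_smul_iff a p o).2 h1,
        (apply_mem_smul_iff a q o).2 h2, Finset.smul_finset_subset_smul_finset_iff.2 hs⟩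
  unfold relPQ
  rw [card_inter_smul]
  congr 1
  by_cases h2 : ∃ o ∈ octads, p ∈ o ∧ q ∈ o ∧ x ∪ y ⊆ o
  · rw [if_pos h2, if_pos (h.2 h2)]
  · rw [if_neg h2, if_neg (fun h3 => h2 (h.1 h3))]

theorem relPQ_unmask {i j a b : ℕ} (hi : i < 24) (hj : j < 24) (ha : a < 2 ^ 24) (hb : b < 2 ^ 24) :
    relPQ (pt i) (pt j) (unmask a) (unmask b) = 2 * popc (Nat.land a b) +
      (inOct (Nat.lor (Nat.lor (Nat.shiftLeft 1 i) (Nat.shiftLeft 1 j)) (Nat.lor a b))).toNat := by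
  have h1 : Nat.shiftLeft 1 i < 2 ^ 24 := by
    show 1 <<< i < 2 ^ 24
    rw [Nat.one_shiftLeft]; exact Nat.pow_lt_pow_right (by norm_num) hi
  have h2 : Nat.shiftLeft 1 j < 2 ^ 24 := by
    show 1 <<< j < 2 ^ 24
    rw [Nat.one_shiftLeft]; exact Nat.pow_lt_pow_right (by norm_num) hj
  have hab : Nat.lor (Nat.lor (Nat.shiftLeft 1 i) (Nat.shiftLeft 1 j)) (Nat.lor a b) < 2 ^ 24 :=
    Nat.or_lt_two_pow (Nat.or_lt_two_pow h1 h2) (Nat.or_lt_two_pow ha hb)
  have key : (∃ o ∈ octads, pt i ∈ o ∧ pt j ∈ o ∧ unmask a ∪ unmask b ⊆ o) ↔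
      ∃ o ∈ octads, unmask (Nat.lor (Nat.lor (Nat.shiftLeft 1 i) (Nat.shiftLeft 1 j)) (Nat.lor a b)) ⊆ o := by
    have e : unmask (Nat.lor (Nat.lor (Nat.shiftLeft 1 i) (Nat.shiftLeft 1 j)) (Nat.lor a b)) =
        ({pt i} ∪ {pt j}) ∪ (unmask a ∪ unmask b) := by
      show unmask ((Nat.shiftLeft 1 i ||| Nat.shiftLeft 1 j) ||| (a ||| b)) = _
      rw [unmask_or, unmask_or, unmask_or, unmask_shift i hi, unmask_shift j hj]
    rw [e]
    constructor
    · rintro ⟨o, ho, h3, h4, h5⟩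
      refine ⟨o, ho, Finset.union_subset (Finset.union_subset ?_ ?_) h5⟩
      · simpa using h3
      · simpa using h4
    · rintro ⟨o, ho, h3⟩
      refine ⟨o, ho, h3 (by simp), h3 (by simp), ?_⟩
      exact fun z hz => h3 (Finset.mem_union_right _ hz)
  unfold relPQ
  rw [card_inter_unmask _ _ ha]
  congr 1
  by_cases h : ∃ o ∈ octads, pt i ∈ o ∧ pt j ∈ o ∧ unmask a ∪ unmask b ⊆ o
  · rw [if_pos h, (inOct_iff hab).2 (key.1 h)]; rfl
  · rw [if_neg h]
    have : inOct (Nat.lor (Nat.lor (Nat.shiftLeft 1 i) (Nat.shiftLeft 1 j)) (Nat.lor a b)) = false := by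
      rw [← Bool.not_eq_true]; exact fun h2 => h (key.2 ((inOct_iff hab).1 h2))
    rw [this]; rfl

end Cfsg.Agent.Lib.Helper34
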