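import Mathlib

set_option autoImplicit false

namespace Cfsg.Agent.Lib.Helper34

section Mask
variable {α : Type*} [Fintype α] [DecidableEq α] (idx : α → ℕ)

/-- The subset of `α` encoded by the bits of `m` (bit `idx a` for the point `a`). -/
def ofMask (m : ℕ) : Finset α := Finset.univ.filter fun a => m.testBit (idx a)

omit [DecidableEq α] in
theorem mem_ofMask {m : ℕ} {a : α} : a ∈ ofMask idx m ↔ m.testBit (idx a) = true := by
  simp [ofMask]

omit [DecidableEq α] in
theorem ofMask_zero : ofMask idx 0 = ∅ := by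
  ext a; simp [mem_ofMask]

theorem ofMask_and (m h : ℕ) : ofMask idx (m &&& h) = ofMask idx m ∩ ofMask idx h := by
  ext a; simp [mem_ofMask, Nat.testBit_and]

theorem ofMask_or (m h : ℕ) : ofMask idx (m ||| h) = ofMask idx m ∪ ofMask idx h := by
  ext a; simp [mem_ofMask, Nat.testBit_or]

theorem ofMask_xor (m h : ℕ) : ofMask idx (m ^^^ h) = symmDiff (ofMask idx m) (ofMask idx h) := by
  ext a
  simp only [mem_ofMask, Nat.testBit_xor, Finset.mem_symmDiff]
  cases m.testBit (idx a) <;> cases h.testBit (idx a) <;> simp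

theorem ofMask_two_pow (hinj : Function.Injective idx) (a : α) : ofMask idx (2 ^ idx a) = {a} := by
  ext b
  simp only [mem_ofMask, Nat.testBit_two_pow, Finset.mem_singleton, decide_eq_true_eq]
  constructor
  · intro h; exact (hinj h).symm
  · rintro rfl; rfl

theorem exists_mask (hinj : Function.Injective idx) (n : ℕ) (hlt : ∀ a, idx a < n) (s : Finset α) :
    ∃ m < 2 ^ n, ofMask idx m = s := by
  induction s using Finset.induction_on with
  | empty => exact ⟨0, by positivity, ofMask_zero idx⟩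
  | insert a s _ ih =>
    obtain ⟨m, hm, rfl⟩ := ih
    refine ⟨2 ^ idx a ||| m, Nat.or_lt_two_pow (Nat.pow_lt_pow_right (by norm_num) (hlt a)) hm, ?_⟩
    rw [ofMask_or, ofMask_two_pow idx hinj, Finset.insert_eq]

theorem ofMask_inj (n : ℕ) (hsurj : ∀ i < n, ∃ a, idx a = i) {m h : ℕ} (hm : m < 2 ^ n)
    (hh : h < 2 ^ n) (e : ofMask idx m = ofMask idx h) : m = h := by
  apply Nat.eq_of_testBit_eq
  intro i
  by_cases hi : i < n
  · obtain ⟨a, rfl⟩ := hsurj i hi
    have := Finset.ext_iff.1 e a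
    rw [mem_ofMask, mem_ofMask] at this
    cases h1 : m.testBit (idx a) <;> cases h2 : h.testBit (idx a) <;> simp_all
  · have hi' : n ≤ i := not_lt.1 hi
    rw [Nat.testBit_lt_two_pow (lt_of_lt_of_le hm (Nat.pow_le_pow_right (by norm_num) hi')),
      Nat.testBit_lt_two_pow (lt_of_lt_of_le hh (Nat.pow_le_pow_right (by norm_num) hi'))]

theorem ofMask_subset_iff (n : ℕ) (hsurj : ∀ i < n, ∃ a, idx a = i) {m h : ℕ} (hm : m < 2 ^ n) :
    ofMask idx m ⊆ ofMask idx h ↔ m &&& h = m := by
  rw [← Finset.inter_eq_left, ← ofMask_and]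
  constructor
  · intro e
    exact ofMask_inj idx n hsurj (lt_of_le_of_lt Nat.and_le_left hm) hm e
  · intro e; rw [e]

theorem card_ofMask (hinj : Function.Injective idx) (n : ℕ) (hlt : ∀ a, idx a < n)
    (hsurj : ∀ i < n, ∃ a, idx a = i) (m : ℕ) :
    (ofMask idx m).card = ((Finset.range n).filter fun i => m.testBit i).card := by
  rw [← Finset.card_image_of_injective _ hinj]
  congr 1
  ext i
  simp only [Finset.mem_image, mem_ofMask, Finset.mem_filter, Finset.mem_range]
  constructor
  · rintro ⟨a, ha, rfl⟩; exact ⟨hlt a, ha⟩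
  · rintro ⟨hi, h⟩
    obtain ⟨a, rfl⟩ := hsurj i hi
    exact ⟨a, h, rfl⟩

end Mask

end Cfsg.Agent.Lib.Helper34
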