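import Cfsg.Agent.Lib.Helper34.M12Base
import Cfsg.Agent.Lib.Helper33.Tab
import Cfsg.Agent.Lib.Helper33.SetFam

set_option autoImplicit false

/-! Octads meeting a given octad in a prescribed subset. -/

namespace Cfsg.Agent.Lib.Helper34

open Cfsg Cfsg.Agent.Lib.Helper33
open scoped Pointwise

theorem meet_count_base (sb : ℕ) (hsb : sb < 2 ^ 24) :
    {o' : Finset GolayPt | o' ∈ octads ∧ unmask 0x82402f ∩ o' = unmask sb}.ncard =
      cntBelow (fun k => Nat.beq (Nat.land 0x82402f (fld24 octTab k)) sb) 759 := by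
  rw [cntBelow_eq]
  obtain ⟨h1, h2, h3⟩ := codeFam_spec oct_fam
  have key : ∀ k, unmask 0x82402f ∩ unmask (fld24 octTab k) = unmask sb ↔
      Nat.beq (Nat.land 0x82402f (fld24 octTab k)) sb = true := by
    intro k
    rw [← unmask_and]
    constructor
    · intro h
      have := unmask_inj (lt_of_le_of_lt Nat.and_le_right (fld24_lt _ _)) hsb h
      show Nat.beq (0x82402f &&& fld24 octTab k) sb = true
      rw [this]; exact Nat.beq_refl _
    · intro h
      have : 0x82402f &&& fld24 octTab k = sb := Nat.eq_of_beq_eq_true h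
      rw [this]
  have : {o' : Finset GolayPt | o' ∈ octads ∧ unmask 0x82402f ∩ o' = unmask sb} =
      (fun k => unmask (fld24 octTab k)) '' (((Finset.range 759).filter
        (fun k => Nat.beq (Nat.land 0x82402f (fld24 octTab k)) sb = true) : Finset ℕ) : Set ℕ) := by
    ext o'
    constructor
    · rintro ⟨ho, hm⟩
      obtain ⟨k, hk, rfl⟩ := h1 o' ho
      refine ⟨k, ?_, rfl⟩
      rw [Finset.mem_coe, Finset.mem_filter, Finset.mem_range]
      exact ⟨hk, (key k).1 hm⟩
    · rintro ⟨k, hk, rfl⟩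
      rw [Finset.mem_coe, Finset.mem_filter, Finset.mem_range] at hk
      exact ⟨h2 k hk.1, (key k).2 hk.2⟩
  rw [this, Set.InjOn.ncard_image, Set.ncard_coe_finset]
  intro a ha b hb hab
  rw [Finset.mem_coe, Finset.mem_filter, Finset.mem_range] at ha hb
  exact h3 a ha.1 b hb.1 (unmask_inj (fld24_lt _ _) (fld24_lt _ _) hab)

theorem meet_transport {u : Equiv.Perm GolayPt} (hu : u ∈ M24) (o s : Finset GolayPt) :
    {o' : Finset GolayPt | o' ∈ octads ∧ o ∩ o' = s}.ncard =
      {o' : Finset GolayPt | o' ∈ octads ∧ (u • o) ∩ o' = u • s}.ncard := by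
  have : {o' : Finset GolayPt | o' ∈ octads ∧ (u • o) ∩ o' = u • s} =
      (fun o' => u • o') '' {o' : Finset GolayPt | o' ∈ octads ∧ o ∩ o' = s} := by
    ext o'
    constructor
    · rintro ⟨ho, hm⟩
      refine ⟨u⁻¹ • o', ⟨smul_mem_octads (M24.inv_mem hu) ho, ?_⟩, smul_inv_smul u o'⟩
      apply MulAction.injective u
      show u • (o ∩ u⁻¹ • o') = u • s
      rw [Finset.smul_finset_inter, smul_inv_smul, hm]
    · rintro ⟨o'', ⟨ho, hm⟩, rfl⟩
      refine ⟨smul_mem_octads hu ho, ?_⟩
      show u • o ∩ u • o'' = u • s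
      rw [← Finset.smul_finset_inter, hm]
  rw [this, Set.InjOn.ncard_image]
  exact (MulAction.injective u).injOn

theorem base5_enum : ∀ p : GolayPt, (0x80000f : ℕ).testBit (idx p) = true →
    ∃ i : Fin 5, p = pt (([23, 0, 1, 2, 3] : List ℕ).get i) := by decide +kernel

theorem base_mem_two : ∀ i : Fin 5, i.1 < 2 → (0x800001 : ℕ).testBit (([23, 0, 1, 2, 3] : List ℕ).get i) = true := by
  decide +kernel

theorem base_mem_four : ∀ i : Fin 5, i.1 < 4 → (0x800007 : ℕ).testBit (([23, 0, 1, 2, 3] : List ℕ).get i) = true := by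
  decide +kernel

theorem base_lt : ∀ i : Fin 5, ([23, 0, 1, 2, 3] : List ℕ).get i < 24 := by decide +kernel

theorem oct_sub_to_base {o : Finset GolayPt} (ho : o ∈ octads) {s : Finset GolayPt} (hs : s ⊆ o) (k sb : ℕ)
    (hk : s.card = k) (hk5 : k ≤ 5) (hsb : sb < 2 ^ 24) (hpop : popc sb = k)
    (hmem : ∀ i : Fin 5, i.1 < k → sb.testBit (([23, 0, 1, 2, 3] : List ℕ).get i) = true) :
    ∃ u ∈ M24, u • o = unmask 0x82402f ∧ u • s = unmask sb := by
  obtain ⟨x, hxo, hx⟩ := exists_emb o 5 (by rw [ho.2]; norm_num) s.toList s.nodup_toList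
    (fun a ha => hs (Finset.mem_toList.1 ha)) (by rw [Finset.length_toList, hk]; exact hk5)
  obtain ⟨u, hu, hux⟩ := Cfsg.Agent.Lib.Helper9.m24_to_base x
  refine ⟨u, hu, ?_, ?_⟩
  · apply octad_eq_of_inter (smul_mem_octads hu ho)
      ((unmask_mem_octads_iff (by norm_num)).2 (by decide +kernel))
    have hsub : unmask 0x80000f ⊆ u • o ∩ unmask 0x82402f := by
      intro p hp
      rw [Finset.mem_inter]
      constructor
      · obtain ⟨i, rfl⟩ := base5_enum p (mem_unmask.1 hp)
        rw [← hux i]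
        exact Finset.smul_mem_smul_finset (hxo i)
      · exact (unmask_subset_iff (by norm_num)).2 (by decide +kernel) hp
    calc 5 = (unmask 0x80000f).card := by rw [card_unmask (by norm_num)]; decide +kernel
      _ ≤ _ := Finset.card_le_card hsub
  · apply Finset.eq_of_subset_of_card_le
    · intro p hp
      obtain ⟨q, hq, rfl⟩ := Finset.mem_smul_finset.1 hp
      obtain ⟨i, hi, e⟩ := List.mem_iff_getElem.1 (Finset.mem_toList.2 hq)
      have hik : i < k := by rw [← hk, ← Finset.length_toList]; exact hi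
      have h1 := hx ⟨i, lt_of_lt_of_le hik hk5⟩ hi
      have h2 := hux ⟨i, lt_of_lt_of_le hik hk5⟩
      rw [h1, e] at h2
      show u q ∈ unmask sb
      rw [h2, mem_unmask, idx_pt (base_lt _)]
      exact hmem _ hik
    · rw [card_unmask hsb, hpop, Finset.card_smul_finset, hk]

set_option maxRecDepth 1000000 in
theorem meet_cnt_two : cntBelow (fun k => Nat.beq (Nat.land 0x82402f (fld24 octTab k)) 0x800001) 759 = 16 := by
  decide +kernel

set_option maxRecDepth 1000000 in
theorem meet_cnt_four : cntBelow (fun k => Nat.beq (Nat.land 0x82402f (fld24 octTab k)) 0x800007) 759 = 4 := by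
  decide +kernel

theorem octad_meet_two {o : Finset GolayPt} (ho : o ∈ octads) {s : Finset GolayPt} (hs : s ⊆ o)
    (h : s.card = 2) : {o' : Finset GolayPt | o' ∈ octads ∧ o ∩ o' = s}.ncard = 16 := by
  obtain ⟨u, hu, h1, h2⟩ := oct_sub_to_base ho hs 2 0x800001 h (by norm_num) (by norm_num) (by decide +kernel)
    base_mem_two
  rw [meet_transport hu, h1, h2, meet_count_base _ (by norm_num), meet_cnt_two]

theorem octad_meet_four {o : Finset GolayPt} (ho : o ∈ octads) {s : Finset GolayPt} (hs : s ⊆ o)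
    (h : s.card = 4) : {o' : Finset GolayPt | o' ∈ octads ∧ o ∩ o' = s}.ncard = 4 := by
  obtain ⟨u, hu, h1, h2⟩ := oct_sub_to_base ho hs 4 0x800007 h (by norm_num) (by norm_num) (by decide +kernel)
    base_mem_four
  rw [meet_transport hu, h1, h2, meet_count_base _ (by norm_num), meet_cnt_four]

end Cfsg.Agent.Lib.Helper34
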