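import Cfsg.Agent.Lib.Helper34.OctStab
import Cfsg.Agent.Lib.Helper34.TrioStab
import Cfsg.Agent.Lib.Helper33.MixOctTr

set_option autoImplicit false

/-! The fifteen trios through an octad. -/

namespace Cfsg.Agent.Lib.Helper34

open Cfsg Cfsg.Agent.Lib.Helper33
open scoped Pointwise

abbrev octO0 : Finset GolayPt := unmask (fld24 octTab 0)

theorem relS1_of_mem {o : Finset GolayPt} (ho : o ∈ octads) {T : Finset (Finset GolayPt)} (hT : T ∈ trios)
    (h : o ∈ T) : relS1 o T = 64 := by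
  unfold relS1
  rw [Finset.sum_eq_single o]
  · rw [Finset.inter_self, ho.2]
    rfl
  · intro t ht hto
    have := hT.2.2 o h t ht (Ne.symm hto)
    rw [Finset.disjoint_iff_inter_eq_empty.1 this]
    rfl
  · intro hn
    exact absurd h hn

theorem mem_of_relS1 {o : Finset GolayPt} (ho : o ∈ octads) {T : Finset (Finset GolayPt)} (hT : T ∈ trios)
    (h : relS1 o T = 64) : o ∈ T := by
  by_contra hn
  have h4 : ∀ t ∈ T, (o ∩ t).card ≤ 4 := by
    intro t ht
    by_contra hc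
    have := octad_eq_of_inter ho (hT.2.1 t ht) (by omega)
    exact hn (this ▸ ht)
  have hsum : ∑ t ∈ T, (o ∩ t).card ≤ 8 := by
    rw [← Finset.card_biUnion (s := T) (t := fun t => o ∩ t)]
    · rw [← ho.2]
      apply Finset.card_le_card
      intro p hp
      obtain ⟨t, _, hp'⟩ := Finset.mem_biUnion.1 hp
      exact (Finset.mem_inter.1 hp').1
    · intro t ht u hu htu
      exact (hT.2.2 t ht u hu htu).mono Finset.inter_subset_right Finset.inter_subset_right
  have : relS1 o T ≤ 4 * ∑ t ∈ T, (o ∩ t).card := by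
    unfold relS1
    rw [Finset.mul_sum]
    apply Finset.sum_le_sum
    intro t ht
    have := h4 t ht
    nlinarith
  omega

theorem mem_trio_iff {o : Finset GolayPt} (ho : o ∈ octads) {T : Finset (Finset GolayPt)} (hT : T ∈ trios) :
    o ∈ T ↔ relS1 o T = 64 := ⟨relS1_of_mem ho hT, mem_of_relS1 ho hT⟩

theorem oct_to_base {o : Finset GolayPt} (ho : o ∈ octads) : ∃ g : ↥M24, g • o = octO0 := oct_rank.trans o ho

theorem ncard_trios_through {o : Finset GolayPt} (ho : o ∈ octads) :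
    {T : Finset (Finset GolayPt) | T ∈ trios ∧ o ∈ T}.ncard = 15 := by
  rw [← octTrSz_64, ← octTr_mix.count' (oct_to_base ho) 64]
  congr 1
  ext T
  constructor
  · rintro ⟨h1, h2⟩
    exact ⟨h1, relS1_of_mem ho h1 h2⟩
  · rintro ⟨h1, h2⟩
    exact ⟨h1, mem_of_relS1 ho h1 h2⟩

theorem trans_trios_through {o : Finset GolayPt} (ho : o ∈ octads) {T T' : Finset (Finset GolayPt)}
    (hT : T ∈ trios) (hT' : T' ∈ trios) (h : o ∈ T) (h' : o ∈ T') :
    ∃ g : ↥M24, g • o = o ∧ g • T = T' :=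
  octTr_mix.trans₂' (oct_to_base ho) hT hT' ((relS1_of_mem ho hT h).trans (relS1_of_mem ho hT' h').symm)

set_option maxRecDepth 1000000 in
theorem octTrio_scan : ∀ k < 3795, (∃ i < 3, fld24 trTab (Nat.add (Nat.mul 3 k) i) = fld24 octTab 0) →
    k = 0 ∨ sumBelow (fun i => sumBelow (fun j => Nat.pow (popc (Nat.land (fld24 trTab (Nat.add (Nat.mul 3 0) i))
        (fld24 trTab (Nat.add (Nat.mul 3 k) j)))) 2) 3) 3 = 128 := by decide +kernel

theorem octO0_mem_trT0 : octO0 ∈ trT0 := by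
  apply mem_of_relS1 oct_rank.mem₀ tr_rank.mem₀
  exact octTr_hc 0 (by norm_num)

theorem relSq_base {T : Finset (Finset GolayPt)} (hT : T ∈ trios) (h : octO0 ∈ T) (hne : T ≠ trT0) :
    relSq trT0 T = 128 := by
  obtain ⟨k, hk, rfl⟩ := tr_fam.cover T hT
  obtain ⟨i, hi, e⟩ := mem_objM.1 h
  rcases octTrio_scan k hk ⟨i, hi, (unmask_inj (fld24_lt _ _) (fld24_lt _ _) e).symm⟩ with rfl | h2
  · exact absurd rfl hne
  · rw [relSq_objM (tr_table.distinct (by norm_num)) (tr_table.distinct hk)]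
    exact h2

theorem two_trans_base {T T' : Finset (Finset GolayPt)} (hT : T ∈ trios) (hT' : T' ∈ trios)
    (h : octO0 ∈ T) (h' : octO0 ∈ T') (hne : T ≠ trT0) (hne' : T' ≠ trT0) :
    ∃ g : ↥M24, g • octO0 = octO0 ∧ g • trT0 = trT0 ∧ g • T = T' := by
  obtain ⟨g, hg, hg'⟩ := tr_rank.trans₂ T hT T' hT' ((relSq_base hT h hne).trans (relSq_base hT' h' hne').symm)
  refine ⟨g, ?_, hg, hg'⟩
  by_contra hc
  apply hne'
  have h1 : g • octO0 ∈ trT0 := by
    have h0 : g • octO0 ∈ g • trT0 := Finset.smul_mem_smul_finset octO0_mem_trT0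
    rwa [hg] at h0
  have h2 : g • octO0 ∈ T' := by
    rw [← hg']
    exact Finset.smul_mem_smul_finset h
  exact trio_unique hT' tr_rank.mem₀ h2 h' h1 octO0_mem_trT0 hc

theorem flag_to_base {o : Finset GolayPt} (ho : o ∈ octads) {T : Finset (Finset GolayPt)} (hT : T ∈ trios)
    (h : o ∈ T) : ∃ g : ↥M24, g • o = octO0 ∧ g • T = trT0 := by
  obtain ⟨u, hu⟩ := oct_to_base ho
  have h1 : octO0 ∈ u • T := by
    rw [← hu]
    exact Finset.smul_mem_smul_finset h
  obtain ⟨g, hg, hg'⟩ := trans_trios_through oct_rank.mem₀ (tr_rank.smul_mem u T hT) tr_rank.mem₀ h1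
    octO0_mem_trT0
  exact ⟨g * u, by rw [mul_smul, hu, hg], by rw [mul_smul, hg']⟩

theorem two_trans_trios {o : Finset GolayPt} (ho : o ∈ octads) {T₁ T₂ T₁' T₂' : Finset (Finset GolayPt)}
    (h1 : T₁ ∈ trios) (h2 : T₂ ∈ trios) (h1' : T₁' ∈ trios) (h2' : T₂' ∈ trios)
    (m1 : o ∈ T₁) (m2 : o ∈ T₂) (m1' : o ∈ T₁') (m2' : o ∈ T₂') (hne : T₁ ≠ T₂) (hne' : T₁' ≠ T₂') :
    ∃ g : ↥M24, g • o = o ∧ g • T₁ = T₁' ∧ g • T₂ = T₂' := by
  obtain ⟨u, hu, hu1⟩ := flag_to_base ho h1 m1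
  obtain ⟨v, hv, hv1⟩ := flag_to_base ho h1' m1'
  obtain ⟨g, hg, hg1, hg2⟩ := two_trans_base (tr_rank.smul_mem u T₂ h2) (tr_rank.smul_mem v T₂' h2')
    (by rw [← hu]; exact Finset.smul_mem_smul_finset m2)
    (by rw [← hv]; exact Finset.smul_mem_smul_finset m2')
    (by rw [← hu1]; exact fun e => hne (MulAction.injective u e).symm)
    (by rw [← hv1]; exact fun e => hne' (MulAction.injective v e).symm)
  refine ⟨v⁻¹ * g * u, ?_, ?_, ?_⟩
  · rw [mul_smul, mul_smul, hu, hg, ← hv, inv_smul_smul]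
  · rw [mul_smul, mul_smul, hu1, hg1, ← hv1, inv_smul_smul]
  · rw [mul_smul, mul_smul, hg2, inv_smul_smul]

/-- the trios through `o`, as a set acted on by the pointwise stabiliser -/
def trioAct (o : Finset GolayPt) : SubMulAction ↥(resHom o).ker (Finset (Finset GolayPt)) where
  carrier := {T | T ∈ trios ∧ o ∈ T}
  smul_mem' := by
    rintro c T ⟨h1, h2⟩
    refine ⟨smul_mem_trios c.1.2.1 h1, ?_⟩
    have h3 : c.1.1 • o ∈ c.1.1 • T := Finset.smul_mem_smul_finset h2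
    have h4 : c.1.1 • o = o := c.1.2.2
    rw [h4] at h3
    exact h3

set_option synthInstance.maxHeartbeats 400000 in
theorem fix_trios_of_fix_points {o : Finset GolayPt} (ho : o ∈ octads) {g : Equiv.Perm GolayPt}
    (hg : g ∈ M24) (hfix : ∀ p ∈ o, g p = p) {T : Finset (Finset GolayPt)} (hT : T ∈ trios) (h : o ∈ T) :
    g • T = T := by
  have : Fact (Nat.Prime 2) := ⟨Nat.prime_two⟩
  have hp : IsPGroup 2 ↥(resHom o).ker := IsPGroup.of_card (n := 4) (by rw [card_ker_resHom ho]; norm_num)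
  have hcard : Nat.card ↥(trioAct o) = 15 := (Nat.card_coe_set_eq _).trans (ncard_trios_through ho)
  obtain ⟨T1, hT1⟩ := hp.nonempty_fixed_point_of_prime_not_dvd_card ↥(trioAct o) (by rw [hcard]; norm_num)
  obtain ⟨s, hs, hs'⟩ := trans_trios_through ho T1.2.1 hT T1.2.2 h
  have hgf : g ∈ fixingSubgroup (Equiv.Perm GolayPt) (o : Set GolayPt) :=
    (mem_fixingSubgroup_iff _).2 (fun y hy => hfix y hy)
  have hs0 : s.1 ∈ M24 ⊓ MulAction.stabilizer (Equiv.Perm GolayPt) o := ⟨s.2, hs⟩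
  have hg0 : g ∈ M24 ⊓ MulAction.stabilizer (Equiv.Perm GolayPt) o := ⟨hg, fix_le_stab o hgf⟩
  have hk : (⟨g, hg0⟩ : ↥(M24 ⊓ MulAction.stabilizer (Equiv.Perm GolayPt) o)) ∈ (resHom o).ker :=
    (mem_ker_resHom _).2 ⟨hg, hgf⟩
  have hk2 : (⟨s.1, hs0⟩ : ↥(M24 ⊓ MulAction.stabilizer (Equiv.Perm GolayPt) o))⁻¹ * ⟨g, hg0⟩ *
      (⟨s.1, hs0⟩ : ↥(M24 ⊓ MulAction.stabilizer (Equiv.Perm GolayPt) o))⁻¹⁻¹ ∈ (resHom o).ker :=
    Subgroup.Normal.conj_mem inferInstance _ hk _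
  have h3 := congrArg Subtype.val (hT1 ⟨_, hk2⟩)
  have h4 : (s.1⁻¹ * g * s.1⁻¹⁻¹) • T1.1 = T1.1 := h3
  have hs'' : s.1 • T1.1 = T := hs'
  rw [← hs'']
  calc g • s.1 • T1.1 = s.1 • (s.1⁻¹ * g * s.1⁻¹⁻¹) • T1.1 := by
        rw [← mul_smul, ← mul_smul]
        congr 1
        group
    _ = s.1 • T1.1 := by rw [h4]

/-- the kernel of the action on the trios through `o` -/
def trioKer (o : Finset GolayPt) : Subgroup ↥(M24 ⊓ MulAction.stabilizer (Equiv.Perm GolayPt) o) where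
  carrier := {x | ∀ T ∈ trios, o ∈ T → x.1 • T = T}
  one_mem' := fun T _ _ => one_smul _ T
  mul_mem' := by
    intro a b ha hb T hT h
    show (a.1 * b.1) • T = T
    rw [mul_smul, hb T hT h, ha T hT h]
  inv_mem' := by
    intro a ha T hT h
    show a.1⁻¹ • T = T
    rw [inv_smul_eq_iff, ha T hT h]

theorem trioKer_normal (o : Finset GolayPt) : (trioKer o).Normal := by
  constructor
  intro n hn g T hT h
  show (g.1 * n.1 * g.1⁻¹) • T = T
  have h1 : g.1⁻¹ • T ∈ trios := smul_mem_trios (M24.inv_mem g.2.1) hT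
  have h2 : o ∈ g.1⁻¹ • T := by
    have h3 : g.1⁻¹ • o ∈ g.1⁻¹ • T := Finset.smul_mem_smul_finset h
    have h4 : g.1 • o = o := g.2.2
    rwa [inv_smul_eq_iff.2 h4.symm] at h3
  rw [mul_smul, mul_smul, hn _ h1 h2, smul_inv_smul]

theorem fix_points_of_fix_trios {o : Finset GolayPt} (ho : o ∈ octads) {g : Equiv.Perm GolayPt}
    (hg : g ∈ M24) (hgo : g • o = o) (h : ∀ T ∈ trios, o ∈ T → g • T = T) : ∀ p ∈ o, g p = p := by
  have hmem : ∀ x, resHom o x ∈ alternatingGroup ↥o := fun x => by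
    rw [← range_resHom ho]
    exact ⟨x, rfl⟩
  have hsurj : Function.Surjective ((resHom o).codRestrict (alternatingGroup ↥o) hmem) := by
    intro y
    have hy : y.1 ∈ (resHom o).range := by
      rw [range_resHom ho]
      exact y.2
    obtain ⟨x, hx⟩ := hy
    exact ⟨x, Subtype.ext hx⟩
  have hsimple : IsSimpleGroup ↥(alternatingGroup ↥o) := alternatingGroup.isSimpleGroup (by
    rw [Nat.card_eq_fintype_card, Fintype.card_coe, ho.2]
    norm_num)
  have hn : ((trioKer o).map ((resHom o).codRestrict (alternatingGroup ↥o) hmem)).Normal :=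
    (trioKer_normal o).map _ hsurj
  have hker : ∀ x : ↥(M24 ⊓ MulAction.stabilizer (Equiv.Perm GolayPt) o),
      (resHom o).codRestrict (alternatingGroup ↥o) hmem x = 1 → ∀ p ∈ o, x.1 p = p := by
    intro x hx p hp
    have h1 : x ∈ (resHom o).ker := congrArg Subtype.val hx
    have h2 := ((mem_ker_resHom x).1 h1).2
    exact (mem_fixingSubgroup_iff _).1 h2 p hp
  rcases hn.eq_bot_or_eq_top with hb | ht
  · apply hker ⟨g, hg, hgo⟩
    have h1 : (resHom o).codRestrict (alternatingGroup ↥o) hmem ⟨g, hg, hgo⟩ ∈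
        (trioKer o).map ((resHom o).codRestrict (alternatingGroup ↥o) hmem) := ⟨⟨g, hg, hgo⟩, h, rfl⟩
    rw [hb] at h1
    exact Subgroup.mem_bot.1 h1
  · exfalso
    have h15 := ncard_trios_through ho
    obtain ⟨T1, T2, hT1, hT2, hne⟩ := (Set.one_lt_ncard_iff (Set.toFinite _)).1
      (show 1 < {T : Finset (Finset GolayPt) | T ∈ trios ∧ o ∈ T}.ncard by rw [h15]; norm_num)
    obtain ⟨s, hs, hs'⟩ := trans_trios_through ho hT1.1 hT2.1 hT1.2 hT2.2
    have h1 : (resHom o).codRestrict (alternatingGroup ↥o) hmem ⟨s.1, s.2, hs⟩ ∈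
        (trioKer o).map ((resHom o).codRestrict (alternatingGroup ↥o) hmem) := by
      rw [ht]
      exact Subgroup.mem_top _
    obtain ⟨k, hk, hks⟩ := h1
    have h2 : (resHom o).codRestrict (alternatingGroup ↥o) hmem (k⁻¹ * ⟨s.1, s.2, hs⟩) = 1 := by
      rw [map_mul, map_inv, hks, inv_mul_cancel]
    have h3 := fix_trios_of_fix_points ho (M24.mul_mem (M24.inv_mem k.2.1) s.2) (hker _ h2) hT1.1 hT1.2
    apply hne
    have hs'' : s.1 • T1 = T2 := hs'
    rw [← hs'']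
    calc T1 = k.1 • T1 := (hk T1 hT1.1 hT1.2).symm
      _ = k.1 • (k.1⁻¹ * s.1) • T1 := by rw [h3]
      _ = s.1 • T1 := by rw [← mul_smul, mul_inv_cancel_left]

end Cfsg.Agent.Lib.Helper34
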