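import Cfsg.Agent.Lib.Helper34.P660Data
import Cfsg.Agent.Lib.Helper33.Bits
import Cfsg.Agent.Lib.Helper7.SL2Center
import Cfsg.Agent.S0498

set_option autoImplicit false

/-! A coordinate system on `PSL(2,11)`. -/

namespace Cfsg.Agent.Lib.Helper34

open Cfsg.Agent.Lib.Helper33

def q16 (A k : ℕ) : ℕ := Nat.land (Nat.shiftRight A (Nat.mul 16 k)) 0xFFFF

def qc (i : ℕ) : ℕ := q16 h660C i
def qx (c : ℕ) : ℕ := q16 h660X c
def qi (i : ℕ) : ℕ := q16 h660I i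

def qe0 (n : ℕ) : ℕ := Nat.mod n 11
def qe1 (n : ℕ) : ℕ := Nat.mod (Nat.div n 11) 11
def qe2 (n : ℕ) : ℕ := Nat.mod (Nat.div n 121) 11
def qe3 (n : ℕ) : ℕ := Nat.mod (Nat.div n 1331) 11

def qenc (a b c d : ℕ) : ℕ := Nat.add (Nat.add (Nat.add a (Nat.mul 11 b)) (Nat.mul 121 c)) (Nat.mul 1331 d)

def qmm (m n : ℕ) : ℕ :=
  qenc (Nat.mod (Nat.add (Nat.mul (qe0 m) (qe0 n)) (Nat.mul (qe1 m) (qe2 n))) 11)
      (Nat.mod (Nat.add (Nat.mul (qe0 m) (qe1 n)) (Nat.mul (qe1 m) (qe3 n))) 11)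
      (Nat.mod (Nat.add (Nat.mul (qe2 m) (qe0 n)) (Nat.mul (qe3 m) (qe2 n))) 11)
      (Nat.mod (Nat.add (Nat.mul (qe2 m) (qe1 n)) (Nat.mul (qe3 m) (qe3 n))) 11)

def qng (n : ℕ) : ℕ :=
  qenc (Nat.mod (Nat.sub 11 (qe0 n)) 11) (Nat.mod (Nat.sub 11 (qe1 n)) 11)
    (Nat.mod (Nat.sub 11 (qe2 n)) 11) (Nat.mod (Nat.sub 11 (qe3 n)) 11)

def qdet (n : ℕ) : ℕ := Nat.mod (Nat.add (Nat.mul (qe0 n) (qe3 n)) (Nat.mul 10 (Nat.mul (qe1 n) (qe2 n)))) 11

/-- the product of two indices -/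
def qm (i j : ℕ) : ℕ := qx (qmm (qc i) (qc j))

def qM2 (n : ℕ) : Matrix (Fin 2) (Fin 2) (ZMod 11) :=
  !![(qe0 n : ZMod 11), (qe1 n : ZMod 11); (qe2 n : ZMod 11), (qe3 n : ZMod 11)]

theorem qe0_lt (n : ℕ) : qe0 n < 11 := Nat.mod_lt _ (by norm_num)
theorem qe1_lt (n : ℕ) : qe1 n < 11 := Nat.mod_lt _ (by norm_num)
theorem qe2_lt (n : ℕ) : qe2 n < 11 := Nat.mod_lt _ (by norm_num)
theorem qe3_lt (n : ℕ) : qe3 n < 11 := Nat.mod_lt _ (by norm_num)

theorem qenc_lt {a b c d : ℕ} (ha : a < 11) (hb : b < 11) (hc : c < 11) (hd : d < 11) :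
    qenc a b c d < 14641 := by
  show a + 11 * b + 121 * c + 1331 * d < 14641
  omega

theorem qM2_enc {a b c d : ℕ} (ha : a < 11) (hb : b < 11) (hc : c < 11) (hd : d < 11) :
    qM2 (qenc a b c d) = !![(a : ZMod 11), (b : ZMod 11); (c : ZMod 11), (d : ZMod 11)] := by
  have h0 : qe0 (qenc a b c d) = a := by
    show (a + 11 * b + 121 * c + 1331 * d) % 11 = a
    omega
  have h1 : qe1 (qenc a b c d) = b := by
    show (a + 11 * b + 121 * c + 1331 * d) / 11 % 11 = b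
    omega
  have h2 : qe2 (qenc a b c d) = c := by
    show (a + 11 * b + 121 * c + 1331 * d) / 121 % 11 = c
    omega
  have h3 : qe3 (qenc a b c d) = d := by
    show (a + 11 * b + 121 * c + 1331 * d) / 1331 % 11 = d
    omega
  rw [qM2, h0, h1, h2, h3]

theorem qcast_mod (x : ℕ) : ((Nat.mod x 11 : ℕ) : ZMod 11) = (x : ZMod 11) := ZMod.natCast_mod x 11

theorem qmod_lt (x : ℕ) : Nat.mod x 11 < 11 := Nat.mod_lt _ (by norm_num)

theorem qmm_lt (m n : ℕ) : qmm m n < 14641 :=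
  qenc_lt (qmod_lt _) (qmod_lt _) (qmod_lt _) (qmod_lt _)

theorem qM2_mm (m n : ℕ) : qM2 (qmm m n) = qM2 m * qM2 n := by
  rw [qmm, qM2_enc (qmod_lt _) (qmod_lt _) (qmod_lt _) (qmod_lt _), qM2, qM2, Matrix.mul_fin_two]
  simp only [qcast_mod]
  have e : ∀ x y z w : ℕ, ((Nat.add (Nat.mul x y) (Nat.mul z w) : ℕ) : ZMod 11)
      = (x : ZMod 11) * y + (z : ZMod 11) * w := by
    intro x y z w
    show ((x * y + z * w : ℕ) : ZMod 11) = _
    push_cast
    rfl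
  simp only [e]

theorem qcast_neg {a : ℕ} (ha : a < 11) : ((Nat.mod (Nat.sub 11 a) 11 : ℕ) : ZMod 11) = - (a : ZMod 11) := by
  rw [qcast_mod]
  show ((11 - a : ℕ) : ZMod 11) = _
  rw [Nat.cast_sub ha.le]
  have : ((11 : ℕ) : ZMod 11) = 0 := by decide
  rw [this, zero_sub]

theorem qM2_ng (n : ℕ) : qM2 (qng n) = - qM2 n := by
  rw [qng, qM2_enc (qmod_lt _) (qmod_lt _) (qmod_lt _) (qmod_lt _), qM2, qcast_neg (qe0_lt n), qcast_neg (qe1_lt n), qcast_neg (qe2_lt n),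
    qcast_neg (qe3_lt n)]
  ext i j
  fin_cases i <;> fin_cases j <;> simp

theorem qdet_cast (n : ℕ) : (qM2 n).det = (qdet n : ZMod 11) := by
  rw [qM2, Matrix.det_fin_two_of, qdet, qcast_mod]
  show _ = ((qe0 n * qe3 n + 10 * (qe1 n * qe2 n) : ℕ) : ZMod 11)
  push_cast
  have : (10 : ZMod 11) = -1 := by decide
  rw [this]
  ring

theorem qdet_iff (n : ℕ) : (qM2 n).det = 1 ↔ qdet n = 1 := by
  rw [qdet_cast]
  constructor
  · intro h
    have h1 : ((qdet n : ℕ) : ZMod 11) = ((1 : ℕ) : ZMod 11) := by rw [h]; simp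
    have h2 := (ZMod.natCast_eq_natCast_iff' _ _ _).1 h1
    have h3 : qdet n < 11 := Nat.mod_lt _ (by norm_num)
    omega
  · intro h
    rw [h]
    simp

set_option maxRecDepth 1000000 in
theorem h660_tab : allBelow (fun c => !(Nat.beq (qdet c) 1) || (Nat.blt (qx c) 660 &&
    (Nat.beq (qc (qx c)) c || Nat.beq (qc (qx c)) (qng c)))) 14641 = true := by decide +kernel

set_option maxRecDepth 1000000 in
theorem h660_det : allBelow (fun i => Nat.beq (qdet (qc i)) 1) 660 = true := by decide +kernel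

theorem qbeq_of_eq {a b : ℕ} (h : a = b) : Nat.beq a b = true := h ▸ Nat.beq_refl a

theorem qbeq_of_ne {a b : ℕ} (h : a ≠ b) : Nat.beq a b = false := by
  cases hb : Nat.beq a b
  · rfl
  · exact absurd (Nat.eq_of_beq_eq_true hb) h

abbrev S11 : Type := Matrix.SpecialLinearGroup (Fin 2) (ZMod 11)

theorem qc_det {i : ℕ} (hi : i < 660) : (qM2 (qc i)).det = 1 :=
  (qdet_iff _).2 (Nat.eq_of_beq_eq_true ((allBelow_iff _ _).1 h660_det i hi))

noncomputable def qS (i : ℕ) : S11 := if h : (qM2 (qc i)).det = 1 then ⟨qM2 (qc i), h⟩ else 1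

theorem qS_val {i : ℕ} (hi : i < 660) : (qS i).1 = qM2 (qc i) := by
  have e : qS i = ⟨qM2 (qc i), qc_det hi⟩ := dif_pos (qc_det hi)
  rw [e]

noncomputable def qP (i : ℕ) : S11 ⧸ Subgroup.center S11 := QuotientGroup.mk (qS i)

theorem mk_eq_of_neg (A B : S11) (h : B.1 = - A.1) :
    (QuotientGroup.mk A : S11 ⧸ Subgroup.center S11) = QuotientGroup.mk B := by
  have : Fact (Nat.Prime 11) := ⟨by norm_num⟩
  rw [QuotientGroup.eq]
  have hAB : (A⁻¹ * B).1 = -1 := by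
    rw [Matrix.SpecialLinearGroup.coe_mul, h, mul_neg, ← Matrix.SpecialLinearGroup.coe_mul,
      inv_mul_cancel, Matrix.SpecialLinearGroup.coe_one]
  rw [Cfsg.Agent.Lib.Helper7.mem_center_SL2_iff (F := ZMod 11)]
  have h' : ((A⁻¹ * B : S11) : Matrix (Fin 2) (Fin 2) (ZMod 11)) = -1 := hAB
  rw [h']
  simp

theorem mk_of_code {c : ℕ} (hc : c < 14641) (A : S11) (h : A.1 = qM2 c) :
    qx c < 660 ∧ (QuotientGroup.mk A : S11 ⧸ Subgroup.center S11) = qP (qx c) := by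
  have hd : (qM2 c).det = 1 := by rw [← h]; exact A.2
  have h1 : qdet c = 1 := (qdet_iff c).1 hd
  have h2 := (allBelow_iff _ _).1 h660_tab c hc
  rw [qbeq_of_eq h1] at h2
  simp only [Bool.not_true, Bool.false_or, Bool.and_eq_true, Bool.or_eq_true] at h2
  obtain ⟨h3, h4⟩ := h2
  have h3' : qx c < 660 := Nat.le_of_ble_eq_true h3
  refine ⟨h3', ?_⟩
  rcases h4 with h4 | h4
  · have h5 := Nat.eq_of_beq_eq_true h4
    have : A = qS (qx c) := by
      apply Subtype.ext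
      rw [qS_val h3', h5, h]
    rw [this, qP]
  · have h5 := Nat.eq_of_beq_eq_true h4
    rw [qP]
    apply mk_eq_of_neg
    rw [qS_val h3', h5, qM2_ng, h]

theorem qm_spec {i j : ℕ} (hi : i < 660) (hj : j < 660) : qm i j < 660 ∧ qP i * qP j = qP (qm i j) := by
  have h := mk_of_code (qmm_lt (qc i) (qc j)) (qS i * qS j) (by
    rw [Matrix.SpecialLinearGroup.coe_mul, qS_val hi, qS_val hj, qM2_mm])
  exact ⟨h.1, h.2⟩

theorem qm_lt {i j : ℕ} (hi : i < 660) (hj : j < 660) : qm i j < 660 := (qm_spec hi hj).1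

theorem qP_surj (x : S11 ⧸ Subgroup.center S11) : ∃ i < 660, qP i = x := by
  obtain ⟨A, rfl⟩ := QuotientGroup.mk_surjective x
  have h := mk_of_code (c := qenc (A.1 0 0).val (A.1 0 1).val (A.1 1 0).val (A.1 1 1).val)
    (qenc_lt (ZMod.val_lt _) (ZMod.val_lt _) (ZMod.val_lt _) (ZMod.val_lt _)) A (by
      rw [qM2_enc (ZMod.val_lt _) (ZMod.val_lt _) (ZMod.val_lt _) (ZMod.val_lt _)]
      simp only [ZMod.natCast_zmod_val]
      exact Matrix.eta_fin_two A.1)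
  exact ⟨_, h.1, h.2.symm⟩

theorem card_p11 : Nat.card (S11 ⧸ Subgroup.center S11) = 660 := by
  have h20 : (2 : ZMod 11) ≠ 0 := by decide
  have : Fact (Nat.Prime 11) := ⟨by norm_num⟩
  have h := Cfsg.Agent.Lib.Helper7.card_PSL2 (F := ZMod 11) h20
  rw [ZMod.card] at h
  have h' : Nat.card (S11 ⧸ Subgroup.center S11) * 2 = 11 * (11 ^ 2 - 1) := h
  omega

theorem qP_inj : ∀ i < 660, ∀ j < 660, qP i = qP j → i = j := by
  have hb := (Nat.bijective_iff_surjective_and_card (fun i : Fin 660 => qP i.1)).2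
    ⟨fun x => by
      obtain ⟨i, hi, e⟩ := qP_surj x
      exact ⟨⟨i, hi⟩, e⟩, by rw [card_p11]; simp⟩
  intro i hi j hj e
  exact congrArg Fin.val (hb.1 (a₁ := ⟨i, hi⟩) (a₂ := ⟨j, hj⟩) e)

/-- a coordinate system on a group isomorphic to `PSL(2,11)` -/
structure Co660 (G : Type*) [Group G] (f : ℕ → G) : Prop where
  surj : ∀ g, ∃ i < 660, f i = g
  inj : ∀ i < 660, ∀ j < 660, f i = f j → i = j
  mul : ∀ i < 660, ∀ j < 660, f i * f j = f (qm i j)

theorem exists_co660 {F : Type*} [Field F] [Fintype F] (hF : Fintype.card F = 11) :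
    ∃ f : ℕ → Matrix.ProjectiveSpecialLinearGroup (Fin 2) F,
      Co660 (Matrix.ProjectiveSpecialLinearGroup (Fin 2) F) f := by
  have : Fact (Nat.Prime 11) := ⟨by norm_num⟩
  have hs : IsSimpleGroup (Matrix.ProjectiveSpecialLinearGroup (Fin 2) (ZMod 11)) :=
    Matrix.ProjectiveSpecialLinearGroup.rank_two_simple (by
      rw [Nat.card_eq_fintype_card, ZMod.card]; norm_num)
  have hfin : Finite (Matrix.ProjectiveSpecialLinearGroup (Fin 2) (ZMod 11)) :=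
    Nat.finite_of_card_ne_zero (by
      have := card_p11
      show Nat.card (S11 ⧸ Subgroup.center S11) ≠ 0
      omega)
  obtain ⟨e⟩ := Cfsg.Agent.S0498.result (G := Matrix.ProjectiveSpecialLinearGroup (Fin 2) (ZMod 11)) 11
    (Or.inl rfl) (by
      have := card_p11
      show 2 * Nat.card (S11 ⧸ Subgroup.center S11) = _
      rw [this]; norm_num) hF
  refine ⟨fun i => e (qP i), ?_, ?_, ?_⟩
  · intro g
    obtain ⟨i, hi, h⟩ := qP_surj (e.symm g)
    exact ⟨i, hi, by rw [h, MulEquiv.apply_symm_apply]⟩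
  · intro i hi j hj h
    exact qP_inj i hi j hj (e.injective h)
  · intro i hi j hj
    rw [← (qm_spec hi hj).2]
    exact (map_mul e _ _).symm

end Cfsg.Agent.Lib.Helper34
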