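import Cfsg.Agent.Lib.Helper34.P660Chk
import Cfsg.Agent.Lib.Helper34.A5Pres

set_option autoImplicit false
open scoped Pointwise

/-! The 22 subgroups `A₅` of `PSL(2,11)`. -/

namespace Cfsg.Agent.Lib.Helper34

open Cfsg.Agent.Lib.Helper33

theorem qi_spec {i : ℕ} (hi : i < 660) : qi i < 660 ∧ qm i (qi i) = 0 := by
  have h1 := (allBelow_iff _ _).1 h660_inv i hi
  beta_reduce at h1
  rw [Bool.and_eq_true] at h1
  exact ⟨Nat.le_of_ble_eq_true h1.1, Nat.eq_of_beq_eq_true h1.2⟩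

theorem qi_lt {i : ℕ} (hi : i < 660) : qi i < 660 := (qi_spec hi).1

theorem qcj_lt {g x : ℕ} (hg : g < 660) (hx : x < 660) : qcj g x < 660 :=
  qm_lt (qm_lt hg hx) (qi_lt hg)

theorem c2_spec {k : ℕ} (hk : k < 22) : qb k 0 = true ∧ ∀ i < 660, qb k i = true →
    qb k (qi i) = true ∧ ∀ j < 660, qb k j = true → qb k (qm i j) = true := by
  have h1 := (allBelow_iff _ _).1 h660_c2 k hk
  beta_reduce at h1
  rw [Bool.and_eq_true, allBelow_iff] at h1
  refine ⟨h1.1, fun i hi bi => ?_⟩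
  have h2 := h1.2 i hi
  beta_reduce at h2
  rw [bi] at h2
  simp only [Bool.not_true, Bool.false_or, Bool.and_eq_true] at h2
  refine ⟨h2.1, fun j hj bj => ?_⟩
  have h3 := (allBelow_iff _ _).1 h2.2 j hj
  beta_reduce at h3
  rw [bj] at h3
  simpa using h3

theorem c1_spec {i j : ℕ} (hi : i < 660) (hj : j < 660) (h3 : qo3 i = true) (h5 : qr5 i j = true) :
    ∃ k < 22, qb k i = true ∧ qb k j = true := by
  have h1 := (allBelow_iff _ _).1 h660_c1 i hi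
  beta_reduce at h1
  rw [h3] at h1
  simp only [Bool.not_true, Bool.false_or] at h1
  have h2 := (allBelow_iff _ _).1 h1 j hj
  beta_reduce at h2
  rw [h5] at h2
  simp only [Bool.not_true, Bool.false_or] at h2
  by_contra hcon
  push Not at hcon
  have h4 : allBelow (fun k => !(qb k i && qb k j)) 22 = true := by
    rw [allBelow_iff]
    intro k hk
    beta_reduce
    cases hbi : qb k i
    · rfl
    · have := hcon k hk hbi
      cases hbj : qb k j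
      · rfl
      · exact absurd hbj this
  rw [h4] at h2
  exact absurd h2 (by decide)

theorem c3_spec {k : ℕ} (hk : k < 22) : qcnt (qb k) 660 = 60 :=
  Nat.eq_of_beq_eq_true ((allBelow_iff _ _).1 h660_c3 k hk)

theorem c4_spec {k : ℕ} (hk : k < 22) : qu k < 660 ∧ qv k < 660 ∧ qb k (qu k) = true ∧
    qb k (qv k) = true ∧ qo3 (qu k) = true ∧ qr5 (qu k) (qv k) = true := by
  have h1 := (allBelow_iff _ _).1 h660_c4 k hk
  beta_reduce at h1
  simp only [Bool.and_eq_true] at h1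
  exact ⟨Nat.le_of_ble_eq_true h1.1, Nat.le_of_ble_eq_true h1.2.1, h1.2.2.1, h1.2.2.2.1, h1.2.2.2.2.1,
    h1.2.2.2.2.2⟩

theorem c5_spec {k l : ℕ} (hk : k < 22) (hl : l < 22) (h1 : qb k (qu l) = true) (h2 : qb k (qv l) = true) :
    k = l := by
  have h3 := (allBelow_iff _ _).1 ((allBelow_iff _ _).1 h660_c5 k hk) l hl
  beta_reduce at h3
  rw [h1, h2] at h3
  simp only [Bool.and_self, Bool.not_true, Bool.or_false] at h3
  exact Nat.eq_of_beq_eq_true h3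

theorem c6_spec {k : ℕ} (hk : k < 22) : qg k < 660 ∧ qb (qbase k) (qcj (qg k) (qu k)) = true ∧
    qb (qbase k) (qcj (qg k) (qv k)) = true := by
  have h1 := (allBelow_iff _ _).1 h660_c6 k hk
  beta_reduce at h1
  simp only [Bool.and_eq_true] at h1
  exact ⟨Nat.le_of_ble_eq_true h1.1, h1.2.1, h1.2.2⟩

theorem c7_spec {g : ℕ} (hg : g < 660) (h1 : qb 11 (qcj g (qu 0)) = true)
    (h2 : qb 11 (qcj g (qv 0)) = true) : False := by
  have h3 := (allBelow_iff _ _).1 h660_c7 g hg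
  beta_reduce at h3
  rw [h1, h2] at h3
  exact absurd h3 (by decide)

theorem qbase_cases (k : ℕ) : qbase k = 0 ∨ qbase k = 11 := by
  unfold qbase
  cases Nat.blt k 11
  · right; rfl
  · left; rfl

namespace Co660

variable {G : Type*} [Group G] {f : ℕ → G}

theorem one (h : Co660 G f) : f 0 = 1 := by
  have := h.mul 0 (by norm_num) 0 (by norm_num)
  rw [show qm 0 0 = 0 by decide +kernel] at this
  exact mul_eq_left.1 this

theorem inv (h : Co660 G f) {i : ℕ} (hi : i < 660) : (f i)⁻¹ = f (qi i) := by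
  have h1 := h.mul i hi _ (qi_spec hi).1
  rw [(qi_spec hi).2, h.one] at h1
  exact inv_eq_of_mul_eq_one_right h1

theorem finite (h : Co660 G f) : Finite G :=
  Finite.of_surjective (fun i : Fin 660 => f i.1) (fun g => by
    obtain ⟨i, hi, e⟩ := h.surj g
    exact ⟨⟨i, hi⟩, e⟩)

theorem cj (h : Co660 G f) {g x : ℕ} (hg : g < 660) (hx : x < 660) :
    f g * f x * (f g)⁻¹ = f (qcj g x) := by
  rw [h.inv hg, h.mul g hg x hx, h.mul _ (qm_lt hg hx) _ (qi_lt hg)]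
  rfl

theorem pow3 (h : Co660 G f) {i : ℕ} (hi : i < 660) : f i ^ 3 = f (qm (qm i i) i) := by
  rw [pow_succ, pow_succ, pow_one, h.mul i hi i hi, h.mul _ (qm_lt hi hi) i hi]

theorem pow5 (h : Co660 G f) {i : ℕ} (hi : i < 660) : f i ^ 5 = f (qm (qm (qm (qm i i) i) i) i) := by
  rw [pow_succ, pow_succ, pow_succ, pow_succ, pow_one, h.mul i hi i hi, h.mul _ (qm_lt hi hi) i hi,
    h.mul _ (qm_lt (qm_lt hi hi) hi) i hi, h.mul _ (qm_lt (qm_lt (qm_lt hi hi) hi) hi) i hi]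

theorem sq2 (h : Co660 G f) {i j : ℕ} (hi : i < 660) (hj : j < 660) :
    (f i * f j) ^ 2 = f (qm (qm i j) (qm i j)) := by
  rw [h.mul i hi j hj, pow_two, h.mul _ (qm_lt hi hj) _ (qm_lt hi hj)]

theorem eq_one_iff (h : Co660 G f) {i : ℕ} (hi : i < 660) : f i = 1 ↔ i = 0 := by
  constructor
  · intro e
    exact h.inj i hi 0 (by norm_num) (e.trans h.one.symm)
  · rintro rfl
    exact h.one

theorem o3_iff (h : Co660 G f) {i : ℕ} (hi : i < 660) : qo3 i = true ↔ (f i ^ 3 = 1 ∧ f i ≠ 1) := by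
  rw [h.pow3 hi, h.eq_one_iff (qm_lt (qm_lt hi hi) hi), Ne, h.eq_one_iff hi]
  constructor
  · intro hb
    rw [qo3, Bool.and_eq_true] at hb
    refine ⟨Nat.eq_of_beq_eq_true hb.2, fun e => ?_⟩
    rw [qbeq_of_eq e] at hb
    exact absurd hb.1 (by decide)
  · rintro ⟨h1, h2⟩
    rw [qo3, qbeq_of_eq h1, qbeq_of_ne h2]
    rfl

theorem r5_iff (h : Co660 G f) {i j : ℕ} (hi : i < 660) (hj : j < 660) :
    qr5 i j = true ↔ (f j ^ 5 = 1 ∧ (f i * f j) ^ 2 = 1) := by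
  rw [h.pow5 hj, h.sq2 hi hj, h.eq_one_iff (qm_lt (qm_lt (qm_lt (qm_lt hj hj) hj) hj) hj),
    h.eq_one_iff (qm_lt (qm_lt hi hj) (qm_lt hi hj))]
  constructor
  · intro hb
    rw [qr5, Bool.and_eq_true] at hb
    exact ⟨Nat.eq_of_beq_eq_true hb.1, Nat.eq_of_beq_eq_true hb.2⟩
  · rintro ⟨h1, h2⟩
    rw [qr5, qbeq_of_eq h1, qbeq_of_eq h2]
    rfl

/-- the 22 subgroups -/
def qT (h : Co660 G f) (k : Fin 22) : Subgroup G where
  carrier := {x | ∃ i < 660, qb k.1 i = true ∧ f i = x}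
  one_mem' := ⟨0, by norm_num, (c2_spec k.2).1, h.one⟩
  mul_mem' := by
    rintro _ _ ⟨i, hi, bi, rfl⟩ ⟨j, hj, bj, rfl⟩
    exact ⟨qm i j, qm_lt hi hj, ((c2_spec k.2).2 i hi bi).2 j hj bj, (h.mul i hi j hj).symm⟩
  inv_mem' := by
    rintro _ ⟨i, hi, bi, rfl⟩
    exact ⟨qi i, qi_lt hi, ((c2_spec k.2).2 i hi bi).1, (h.inv hi).symm⟩

theorem mem_qT (h : Co660 G f) (k : Fin 22) {i : ℕ} (hi : i < 660) : f i ∈ h.qT k ↔ qb k.1 i = true := by
  constructor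
  · rintro ⟨j, hj, bj, e⟩
    rw [← h.inj j hj i hi e]
    exact bj
  · intro b
    exact ⟨i, hi, b, rfl⟩

theorem card_subtype (h : Co660 G f) (P : G → Prop) (p : ℕ → Bool) (hp : ∀ i < 660, P (f i) ↔ p i = true) :
    Nat.card {g : G // P g} = qcnt p 660 := by
  rw [qcnt_eq, ← Fintype.card_coe, ← Nat.card_eq_fintype_card]
  symm
  apply Nat.card_congr
  refine Equiv.ofBijective (fun i => ⟨f i.1, (hp i.1 (Finset.mem_range.1 (Finset.mem_filter.1 i.2).1)).2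
    (Finset.mem_filter.1 i.2).2⟩) ⟨?_, ?_⟩
  · intro a b e
    apply Subtype.ext
    exact h.inj _ (Finset.mem_range.1 (Finset.mem_filter.1 a.2).1) _
      (Finset.mem_range.1 (Finset.mem_filter.1 b.2).1) (congrArg Subtype.val e)
  · rintro ⟨g, hg⟩
    obtain ⟨i, hi, rfl⟩ := h.surj g
    exact ⟨⟨i, Finset.mem_filter.2 ⟨Finset.mem_range.2 hi, (hp i hi).1 hg⟩⟩, rfl⟩

theorem card_qT (h : Co660 G f) (k : Fin 22) : Nat.card (h.qT k) = 60 := by
  have := h.card_subtype (fun g => g ∈ h.qT k) (qb k.1) (fun i hi => h.mem_qT k hi)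
  rw [c3_spec k.2] at this
  exact this

theorem closure_eq (h : Co660 G f) (k : Fin 22) {u v : G} (h3 : u ^ 3 = 1) (h5 : v ^ 5 = 1)
    (h2 : (u * v) ^ 2 = 1) (hu : u ≠ 1) (mu : u ∈ h.qT k) (mv : v ∈ h.qT k) :
    Subgroup.closure {u, v} = h.qT k := by
  have := h.finite
  obtain ⟨e⟩ := a5_of_pair u v h3 h5 h2 hu
  apply Subgroup.eq_of_le_of_card_ge
  · rw [Subgroup.closure_le]
    rintro x (rfl | rfl)
    exacts [mu, mv]
  · rw [card_qT, Nat.card_congr e.toEquiv, card_a5]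

theorem qT_gen (h : Co660 G f) (k : Fin 22) :
    Subgroup.closure {f (qu k.1), f (qv k.1)} = h.qT k := by
  obtain ⟨h1, h2, h3, h4, h5, h6⟩ := c4_spec k.2
  have a := (h.o3_iff h1).1 h5
  have b := (h.r5_iff h1 h2).1 h6
  exact h.closure_eq k a.1 b.1 b.2 a.2 ((h.mem_qT k h1).2 h3) ((h.mem_qT k h2).2 h4)

theorem qT_a5 (h : Co660 G f) (k : Fin 22) : Nonempty (↥(h.qT k) ≃* alternatingGroup (Fin 5)) := by
  obtain ⟨h1, h2, h3, h4, h5, h6⟩ := c4_spec k.2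
  have a := (h.o3_iff h1).1 h5
  have b := (h.r5_iff h1 h2).1 h6
  rw [← h.qT_gen k]
  exact a5_of_pair _ _ a.1 b.1 b.2 a.2

theorem qT_inj (h : Co660 G f) {k l : Fin 22} (e : h.qT k = h.qT l) : k = l := by
  obtain ⟨h1, h2, h3, h4, -, -⟩ := c4_spec l.2
  have a : f (qu l.1) ∈ h.qT k := by rw [e]; exact (h.mem_qT l h1).2 h3
  have b : f (qv l.1) ∈ h.qT k := by rw [e]; exact (h.mem_qT l h2).2 h4
  exact Fin.ext (c5_spec k.2 l.2 ((h.mem_qT k h1).1 a) ((h.mem_qT k h2).1 b))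

theorem qT_surj (h : Co660 G f) (L : Subgroup G) (hL : Nonempty (↥L ≃* alternatingGroup (Fin 5))) :
    ∃ k, h.qT k = L := by
  obtain ⟨e⟩ := hL
  obtain ⟨u, v, h3, h5, h2, hu, rfl⟩ := pair_of_a5 L e
  obtain ⟨i, hi, rfl⟩ := h.surj u
  obtain ⟨j, hj, rfl⟩ := h.surj v
  obtain ⟨k, hk, b1, b2⟩ := c1_spec hi hj ((h.o3_iff hi).2 ⟨h3, hu⟩) ((h.r5_iff hi hj).2 ⟨h5, h2⟩)
  exact ⟨⟨k, hk⟩, (h.closure_eq ⟨k, hk⟩ h3 h5 h2 hu ((h.mem_qT ⟨k, hk⟩ hi).2 b1)
    ((h.mem_qT ⟨k, hk⟩ hj).2 b2)).symm⟩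

theorem conj_smul (g x : G) : MulAut.conj g • x = g * x * g⁻¹ := rfl

theorem qT_conj (h : Co660 G f) (k l : Fin 22) (g : G)
    (h1 : g * f (qu k.1) * g⁻¹ ∈ h.qT l) (h2 : g * f (qv k.1) * g⁻¹ ∈ h.qT l) :
    MulAut.conj g • h.qT k = h.qT l := by
  have := h.finite
  apply Subgroup.eq_of_le_of_card_ge
  · intro x hx
    obtain ⟨y, hy, rfl⟩ := (Subgroup.mem_smul_pointwise_iff_exists _ _ _).1 hx
    have hle : h.qT k ≤ (h.qT l).comap (MulAut.conj g).toMonoidHom := by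
      rw [← h.qT_gen k, Subgroup.closure_le]
      rintro z (rfl | rfl)
      · exact h1
      · exact h2
    exact hle hy
  · rw [card_qT, ← Nat.card_congr (Subgroup.equivSMul (MulAut.conj g) (h.qT k)).toEquiv, card_qT]

theorem s2543 (h : Co660 G f) :
    Nat.card {H : Subgroup G // Nonempty (H ≃* alternatingGroup (Fin 5))} = 22 ∧
    ∃ H K : Subgroup G, Nonempty (H ≃* alternatingGroup (Fin 5)) ∧
      Nonempty (K ≃* alternatingGroup (Fin 5)) ∧ (∀ g : G, MulAut.conj g • H ≠ K) ∧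
      ∀ L : Subgroup G, Nonempty (L ≃* alternatingGroup (Fin 5)) →
        ∃ g : G, MulAut.conj g • L = H ∨ MulAut.conj g • L = K := by
  refine ⟨?_, h.qT 0, h.qT 11, h.qT_a5 0, h.qT_a5 11, ?_, ?_⟩
  · have e : Fin 22 ≃ {H : Subgroup G // Nonempty (H ≃* alternatingGroup (Fin 5))} :=
      Equiv.ofBijective (fun k => ⟨h.qT k, h.qT_a5 k⟩) ⟨fun k l e => h.qT_inj (congrArg Subtype.val e),
        fun L => by
          obtain ⟨k, hk⟩ := h.qT_surj L.1 L.2
          exact ⟨k, Subtype.ext hk⟩⟩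
    rw [← Nat.card_congr e]
    simp
  · intro g e
    obtain ⟨i, hi, rfl⟩ := h.surj g
    obtain ⟨h1, h2, h3, h4, -, -⟩ := c4_spec (k := 0) (by norm_num)
    have a : MulAut.conj (f i) • f (qu 0) ∈ MulAut.conj (f i) • h.qT 0 :=
      Subgroup.smul_mem_pointwise_smul _ _ _ ((h.mem_qT 0 h1).2 h3)
    have b : MulAut.conj (f i) • f (qv 0) ∈ MulAut.conj (f i) • h.qT 0 :=
      Subgroup.smul_mem_pointwise_smul _ _ _ ((h.mem_qT 0 h2).2 h4)
    rw [e, conj_smul, h.cj hi h1, h.mem_qT 11 (qcj_lt hi h1)] at a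
    rw [e, conj_smul, h.cj hi h2, h.mem_qT 11 (qcj_lt hi h2)] at b
    exact c7_spec hi a b
  · intro L hL
    obtain ⟨k, rfl⟩ := h.qT_surj L hL
    obtain ⟨h1, h2, -, -, -, -⟩ := c4_spec k.2
    obtain ⟨g1, g2, g3⟩ := c6_spec k.2
    refine ⟨f (qg k.1), ?_⟩
    rcases qbase_cases k.1 with hb | hb
    · left
      rw [hb] at g2 g3
      apply h.qT_conj k 0
      · rw [h.cj g1 h1]
        exact (h.mem_qT 0 (qcj_lt g1 h1)).2 g2
      · rw [h.cj g1 h2]
        exact (h.mem_qT 0 (qcj_lt g1 h2)).2 g3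
    · right
      rw [hb] at g2 g3
      apply h.qT_conj k 11
      · rw [h.cj g1 h1]
        exact (h.mem_qT 11 (qcj_lt g1 h1)).2 g2
      · rw [h.cj g1 h2]
        exact (h.mem_qT 11 (qcj_lt g1 h2)).2 g3

end Co660

end Cfsg.Agent.Lib.Helper34
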