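import Cfsg.Agent.Lib.Helper34.P660

set_option autoImplicit false

/-! Kernel checks on the 22 subgroups of order 60 of `PSL(2,11)`. -/

namespace Cfsg.Agent.Lib.Helper34

open Cfsg.Agent.Lib.Helper33

def qb (k i : ℕ) : Bool := Nat.beq (Nat.land (Nat.shiftRight h660B (Nat.add (Nat.mul 660 k) i)) 1) 1
def qu (k : ℕ) : ℕ := q16 h660U k
def qv (k : ℕ) : ℕ := q16 h660V k
def qg (k : ℕ) : ℕ := q16 h660G k
def qcj (g x : ℕ) : ℕ := qm (qm g x) (qi g)
def qo3 (i : ℕ) : Bool := !(Nat.beq i 0) && Nat.beq (qm (qm i i) i) 0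
def qr5 (i j : ℕ) : Bool :=
  Nat.beq (qm (qm (qm (qm j j) j) j) j) 0 && Nat.beq (qm (qm i j) (qm i j)) 0
def qbase (k : ℕ) : ℕ := cond (Nat.blt k 11) 0 11

noncomputable def qcnt (f : ℕ → Bool) (n : ℕ) : ℕ :=
  Nat.rec 0 (fun k ih => Bool.rec ih (Nat.succ ih) (f k)) n

theorem qcnt_eq (f : ℕ → Bool) (n : ℕ) :
    qcnt f n = ((Finset.range n).filter (fun k => f k = true)).card := by
  induction n with
  | zero => rfl
  | succ n ih =>
    rw [Finset.range_add_one, Finset.filter_insert]
    have e : qcnt f (n + 1) = Bool.rec (qcnt f n) (Nat.succ (qcnt f n)) (f n) := rfl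
    rw [e]
    cases h : f n
    · simp [ih]
    · simp [ih]

set_option maxRecDepth 1000000 in
theorem h660_inv : allBelow (fun i => Nat.blt (qi i) 660 && Nat.beq (qm i (qi i)) 0) 660 = true := by
  decide +kernel

set_option maxRecDepth 1000000 in
theorem h660_c1 : allBelow (fun i => !(qo3 i) || allBelow (fun j => !(qr5 i j) ||
    !(allBelow (fun k => !(qb k i && qb k j)) 22)) 660) 660 = true := by decide +kernel

set_option maxRecDepth 1000000 in
theorem h660_c2 : allBelow (fun k => qb k 0 && allBelow (fun i => !(qb k i) || (qb k (qi i) &&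
    allBelow (fun j => !(qb k j) || qb k (qm i j)) 660)) 660) 22 = true := by decide +kernel

set_option maxRecDepth 1000000 in
theorem h660_c3 : allBelow (fun k => Nat.beq (qcnt (qb k) 660) 60) 22 = true := by decide +kernel

set_option maxRecDepth 1000000 in
theorem h660_c4 : allBelow (fun k => Nat.blt (qu k) 660 && (Nat.blt (qv k) 660 && (qb k (qu k) &&
    (qb k (qv k) && (qo3 (qu k) && qr5 (qu k) (qv k)))))) 22 = true := by decide +kernel

set_option maxRecDepth 1000000 in
theorem h660_c5 : allBelow (fun k => allBelow (fun l => Nat.beq k l || !(qb k (qu l) && qb k (qv l))) 22) 22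
    = true := by decide +kernel

set_option maxRecDepth 1000000 in
theorem h660_c6 : allBelow (fun k => Nat.blt (qg k) 660 && (qb (qbase k) (qcj (qg k) (qu k)) &&
    qb (qbase k) (qcj (qg k) (qv k)))) 22 = true := by decide +kernel

set_option maxRecDepth 1000000 in
theorem h660_c7 : allBelow (fun g => !(qb 11 (qcj g (qu 0)) && qb 11 (qcj g (qv 0)))) 660 = true := by
  decide +kernel

end Cfsg.Agent.Lib.Helper34
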