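import Cfsg.Agent.Lib.Helper34.QuartetTab

set_option autoImplicit false

/-! Rank data for the quartets of an arbitrary dodecad. -/

namespace Cfsg.Agent.Lib.Helper34

open Cfsg Cfsg.Agent.Lib.Helper33
open Cfsg.Agent.Lib.Helper9 (D0 H12)
open scoped Pointwise

theorem quartet_rank {d : Finset GolayPt} (hd : d ∈ dodecads) :
    ∃ x₀, RankData ↥(M24 ⊓ MulAction.stabilizer (Equiv.Perm GolayPt) d) (quartets d) (relP 4) x₀ qSz ∧
      relP 4 x₀ x₀ = 324 ∧ ∀ y ∈ quartets d, relP 4 x₀ y ∈ ({324, 90, 68, 54, 26} : Finset ℕ) := by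
  obtain ⟨a, ha, had⟩ := Cfsg.Agent.Lib.Helper9.dod_to_base hd
  have hda : a⁻¹ • unmask D0 = d := by rw [← had, inv_smul_smul]
  have hΩ : ∀ y, y ∈ quartets d ↔ a • y ∈ quartets (unmask D0) := by
    intro y
    constructor
    · intro hy
      have := smul_mem_quartets ha hy
      rwa [had] at this
    · intro hy
      have := smul_mem_quartets (M24.inv_mem ha) hy
      rwa [hda, inv_smul_smul] at this
  refine ⟨a⁻¹ • qObj 0, rankData_conj q_rank a ?_ ?_ hΩ (fun x y => relP_smul 4 a x y), ?_, ?_⟩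
  · intro g hg
    refine ⟨M24.mul_mem (M24.mul_mem (M24.inv_mem ha) hg.1) ha, ?_⟩
    show (a⁻¹ * g * a) • d = d
    have e : g • unmask D0 = unmask D0 := hg.2
    rw [mul_smul, mul_smul, had, e, hda]
  · intro g hg
    refine ⟨M24.mul_mem (M24.mul_mem ha hg.1) (M24.inv_mem ha), ?_⟩
    show (a * g * a⁻¹) • unmask D0 = unmask D0
    have e : g • d = d := hg.2
    rw [mul_smul, mul_smul, hda, e, had]
  · rw [relP_smul]; exact q_self
  · intro y hy
    have := q_relJ _ ((hΩ y).1 hy)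
    rwa [← relP_smul 4 a⁻¹, inv_smul_smul] at this

theorem quartet_orbit_conv (d : Finset GolayPt) (Q X : Finset (Finset GolayPt)) :
    MulAction.orbit ↥(MulAction.stabilizer M24 d ⊓ MulAction.stabilizer M24 Q) X =
      MulAction.orbit ↥(MulAction.stabilizer ↥(M24 ⊓ MulAction.stabilizer (Equiv.Perm GolayPt) d) Q) X := by
  ext y
  constructor
  · rintro ⟨⟨g, hg1, hg2⟩, rfl⟩
    exact ⟨⟨⟨g.1, g.2, hg1⟩, hg2⟩, rfl⟩
  · rintro ⟨⟨⟨g, hg1, hg2⟩, hg3⟩, rfl⟩
    exact ⟨⟨⟨g, hg1⟩, hg2, hg3⟩, rfl⟩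

end Cfsg.Agent.Lib.Helper34
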