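import Mathlib

set_option autoImplicit false

/-! Field lemmas for the exception `q = 2` of `SU_5(q)`: elements of order 11 in the field with 1024 elements. -/

namespace Cfsg.Agent.Lib.Helper34.SU5

/-- existence of an element of order 11. -/
theorem fld_exists {L : Type*} [Field L] [Finite L] (hcard : Nat.card L = 1024) :
    ∃ u : L, u ^ 11 = 1 ∧ u ≠ 1 := by
  haveI : Fact (Nat.Prime 11) := ⟨by norm_num⟩
  have h1 : Nat.card Lˣ = 1023 := by rw [Nat.card_units, hcard]
  obtain ⟨x, hx⟩ := exists_prime_orderOf_dvd_card' (G := Lˣ) 11 (by rw [h1]; norm_num)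
  refine ⟨(x : L), ?_, ?_⟩
  · rw [← Units.val_pow_eq_pow_val, ← hx, pow_orderOf_eq_one, Units.val_one]
  · intro h
    have h2 : x = 1 := Units.ext h
    rw [h2, orderOf_one] at hx
    norm_num at hx

/-- the 11-th roots of unity are the powers of a nontrivial one. -/
theorem fld_roots {L : Type*} [Field L] (u t : L) (hu : u ^ 11 = 1) (hu1 : u ≠ 1) (ht : t ^ 11 = 1) :
    ∃ k : ℕ, t = u ^ k := by
  haveI : Fact (Nat.Prime 11) := ⟨by norm_num⟩
  have ho : orderOf u = 11 := orderOf_eq_prime hu hu1
  have hp : IsPrimitiveRoot u 11 := by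
    have := IsPrimitiveRoot.orderOf u
    rwa [ho] at this
  obtain ⟨i, -, hi⟩ := hp.eq_pow_of_pow_eq_one ht
  exact ⟨i, hi.symm⟩

/-- an involutive ring endomorphism `≠ id` of the field with 1024 elements inverts the 11-th roots of unity. -/
theorem fld_norm {L : Type*} [Field L] [Finite L] (hcard : Nat.card L = 1024) (σ : L → L)
    (hadd : ∀ a b, σ (a + b) = σ a + σ b) (hmul : ∀ a b, σ (a * b) = σ a * σ b) (h1 : σ 1 = 1)
    (hinv : ∀ a, σ (σ a) = a) (c : L) (hc : σ c ≠ c) (u : L) (hu : u ^ 11 = 1) : u * σ u = 1 := by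
  classical
  haveI : Fact (Nat.Prime 11) := ⟨by norm_num⟩
  haveI : Fintype L := Fintype.ofFinite L
  have h0 : σ 0 = 0 := by
    have := hadd 0 0
    rw [add_zero] at this
    exact left_eq_add.1 this
  let s : L →+* L :=
    { toFun := σ
      map_one' := h1
      map_mul' := hmul
      map_zero' := h0
      map_add' := hadd }
  have hs : ∀ a, s a = σ a := fun _ => rfl
  let L0 : Subfield L :=
    { carrier := {a | σ a = a}
      mul_mem' := by
        intro a b ha hb
        show σ (a * b) = a * b
        rw [hmul, ha, hb]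
      one_mem' := h1
      add_mem' := by
        intro a b ha hb
        show σ (a + b) = a + b
        rw [hadd, ha, hb]
      zero_mem' := h0
      neg_mem' := by
        intro a ha
        show σ (-a) = -a
        rw [← hs, map_neg, hs, ha]
      inv_mem' := by
        intro a ha
        show σ a⁻¹ = a⁻¹
        rw [← hs, map_inv₀, hs, ha] }
  have hL0 : ∀ a, a ∈ L0 ↔ σ a = a := fun _ => Iff.rfl
  by_contra hw
  set w := u * σ u with hwdef
  have hwL : w ∈ L0 := by
    rw [hL0, hwdef, hmul, hinv, mul_comm]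
  have hw11 : w ^ 11 = 1 := by
    rw [hwdef, mul_pow, hu, one_mul, ← hs, ← map_pow, hu, map_one]
  have ho : orderOf w = 11 := orderOf_eq_prime hw11 hw
  have hw0 : w ≠ 0 := by
    intro h
    rw [h] at hw11
    norm_num at hw11
  -- cardinality of the fixed field
  have hlt : Fintype.card L0 < Fintype.card L :=
    Fintype.card_subtype_lt (p := fun a => a ∈ L0) (x := c) (fun h => hc ((hL0 c).1 h))
  have hcardL : Fintype.card L = 1024 := by rw [← Nat.card_eq_fintype_card, hcard]
  have hpow : Fintype.card L = Fintype.card L0 ^ Module.finrank L0 L := Module.card_eq_pow_finrank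
  have hpos : 0 < Module.finrank L0 L := Module.finrank_pos
  have hdvd : Fintype.card L0 ∣ 2 ^ 10 := by
    have : Fintype.card L0 ∣ Fintype.card L := by
      rw [hpow]; exact dvd_pow_self _ hpos.ne'
    rw [hcardL] at this
    exact this
  obtain ⟨d, hd, hm⟩ := (Nat.dvd_prime_pow Nat.prime_two).1 hdvd
  have hw' : (⟨w, hwL⟩ : L0) ^ (Fintype.card L0 - 1) = 1 :=
    FiniteField.pow_card_sub_one_eq_one _ (fun h => hw0 (congrArg Subtype.val h))
  have hw'' : w ^ (Fintype.card L0 - 1) = 1 := by
    have := congrArg Subtype.val hw'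
    simpa using this
  have h11 : 11 ∣ Fintype.card L0 - 1 := by
    rw [← ho]; exact orderOf_dvd_of_pow_eq_one hw''
  have h2le : 2 ≤ Fintype.card L0 := Fintype.one_lt_card
  rw [hcardL, hm] at hlt
  rw [hm] at h11 h2le
  interval_cases d <;> omega

end Cfsg.Agent.Lib.Helper34.SU5
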