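import Cfsg.Agent.Lib.Helper34.ES24b
import Cfsg.Agent.Lib.Helper34.HeisSL5

set_option autoImplicit false

/-! Sylow 2-subgroups of involution centralisers with a self-centralising normal 2-subgroup. -/

namespace Cfsg.Agent.Lib.Helper34

open Cfsg
open scoped Pointwise

/-- a normal `p`-subgroup lies in every Sylow `p`-subgroup -/
theorem normal_le_sylow {C : Type*} [Group C] [Finite C] {p : ℕ} [Fact p.Prime] (N : Subgroup C) [N.Normal]
    (hN : IsPGroup p N) (T : Sylow p C) : N ≤ T := by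
  obtain ⟨P, hP⟩ := hN.exists_le_sylow
  obtain ⟨g, rfl⟩ := MulAction.exists_smul_eq C P T
  intro n hn
  have h1 : g⁻¹ * n * g⁻¹⁻¹ ∈ N := Subgroup.Normal.conj_mem inferInstance n hn g⁻¹
  have h2 : g * (g⁻¹ * n * g⁻¹⁻¹) * g⁻¹ ∈ MulAut.conj g • (P : Subgroup C) := ⟨_, hP h1, rfl⟩
  have h3 : g * (g⁻¹ * n * g⁻¹⁻¹) * g⁻¹ = n := by group
  rw [h3] at h2
  exact h2

/-- the Sylow 2-subgroups of the centraliser of `z` are Sylow in the whole group -/
theorem sylow_of_centralizer {G : Type*} [Group G] [Finite G] (z : G) (hz : z ≠ 1)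
    (C : Subgroup G) (hC : ∀ x, x ∈ C ↔ x * z = z * x)
    (N : Subgroup ↥C) [N.Normal] (hN : IsPGroup 2 N)
    (hcent : ∀ x : ↥C, (∀ q ∈ N, x * q = q * x) → x.1 = 1 ∨ x.1 = z)
    (hzN : ∀ x : ↥C, x.1 = z → x ∈ N) (T : Sylow 2 ↥C) :
    ¬ 2 ∣ ((T : Subgroup ↥C).map C.subtype).index := by
  have : Fact (Nat.Prime 2) := ⟨Nat.prime_two⟩
  set T' := (T : Subgroup ↥C).map C.subtype with hT'
  have hNT : N ≤ T := normal_le_sylow N hN T
  have hT'p : IsPGroup 2 T' := T.2.map _
  obtain ⟨S, hS⟩ := hT'p.exists_le_sylow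
  have memT' : ∀ {x : G}, x ∈ T' ↔ ∃ h : x ∈ C, (⟨x, h⟩ : ↥C) ∈ (T : Subgroup ↥C) := by
    intro x
    constructor
    · rintro ⟨y, hy, rfl⟩
      exact ⟨y.2, hy⟩
    · rintro ⟨h, hx⟩
      exact ⟨⟨x, h⟩, hx, rfl⟩
  -- the part of `S` inside `C` is `T`
  have hU : (S : Subgroup G).subgroupOf C = T := by
    apply T.is_maximal'
    · exact S.2.comap_of_injective C.subtype C.subtype_injective
    · intro t ht
      exact Subgroup.mem_subgroupOf.2 (hS ⟨t, ht, rfl⟩)
  have hzC : z ∈ C := (hC z).2 rfl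
  have hzT' : z ∈ T' := memT'.2 ⟨hzC, hNT (hzN ⟨z, hzC⟩ rfl)⟩
  have hTS : T' = S := by
    by_contra hne
    have hnil : Group.IsNilpotent ↥(S : Subgroup G) := S.2.isNilpotent
    have hlt : T'.subgroupOf S < ⊤ := by
      rw [lt_top_iff_ne_top]
      intro e
      apply hne
      apply le_antisymm hS
      exact Subgroup.subgroupOf_eq_top.1 e
    have h1 := Group.normalizerCondition_of_isNilpotent (G := ↥(S : Subgroup G)) _ hlt
    obtain ⟨x, hx, hxn⟩ := SetLike.exists_of_lt h1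
    apply hxn
    rw [Subgroup.mem_normalizer_iff] at hx
    have hconj : ∀ t ∈ T', x.1 * t * x.1⁻¹ ∈ T' := by
      intro t ht
      have := (hx ⟨t, hS ht⟩).1 (Subgroup.mem_subgroupOf.2 ht)
      exact Subgroup.mem_subgroupOf.1 this
    have hconj' : ∀ t ∈ T', x.1⁻¹ * t * x.1 ∈ T' := by
      intro t ht
      have h2 := (hx (x⁻¹ * ⟨t, hS ht⟩ * x)).2 (by
        have e : x * (x⁻¹ * ⟨t, hS ht⟩ * x) * x⁻¹ = ⟨t, hS ht⟩ := by group
        rw [e]
        exact Subgroup.mem_subgroupOf.2 ht)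
      exact Subgroup.mem_subgroupOf.1 h2
    obtain ⟨hyC, hyT⟩ := memT'.1 (hconj z hzT')
    have hy := hcent ⟨x.1 * z * x.1⁻¹, hyC⟩ (by
      intro q hq
      apply Subtype.ext
      show x.1 * z * x.1⁻¹ * q.1 = q.1 * (x.1 * z * x.1⁻¹)
      have hq' : q.1 ∈ T' := memT'.2 ⟨q.2, hNT hq⟩
      obtain ⟨hc, -⟩ := memT'.1 (hconj' q.1 hq')
      have hc' : x.1⁻¹ * q.1 * x.1 * z = z * (x.1⁻¹ * q.1 * x.1) := (hC _).1 hc
      calc x.1 * z * x.1⁻¹ * q.1 = x.1 * (z * (x.1⁻¹ * q.1 * x.1)) * x.1⁻¹ := by group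
        _ = x.1 * (x.1⁻¹ * q.1 * x.1 * z) * x.1⁻¹ := by rw [hc']
        _ = q.1 * (x.1 * z * x.1⁻¹) := by group)
    have hxz : x.1 * z * x.1⁻¹ = z := by
      rcases hy with h | h
      · exfalso
        apply hz
        have h' : x.1 * z * x.1⁻¹ = 1 := h
        calc z = x.1⁻¹ * (x.1 * z * x.1⁻¹) * x.1 := by group
          _ = 1 := by rw [h']; group
      · exact h
    have hxC : x.1 ∈ C := by
      apply (hC _).2
      calc x.1 * z = (x.1 * z * x.1⁻¹) * x.1 := by group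
        _ = z * x.1 := by rw [hxz]
    have hxT : (⟨x.1, hxC⟩ : ↥C) ∈ (T : Subgroup ↥C) := by
      rw [← hU]
      exact Subgroup.mem_subgroupOf.2 x.2
    exact Subgroup.mem_subgroupOf.2 (memT'.2 ⟨hxC, hxT⟩)
  rw [hTS]
  exact S.not_dvd_index

/-- transport along an isomorphism with a centraliser of `ESC` shape -/
theorem sylow_of_esc_iso {G : Type*} [Group G] [Finite G] {G0 : Type*} [Group G0] {z0 : G0}
    {Q K E : Subgroup G0} (h : ESC z0 Q K E) (z : G) (hz : z ≠ 1)
    (e : ↥(Subgroup.centralizer ({z} : Set G)) ≃* ↥(Subgroup.centralizer ({z0} : Set G0)))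
    (T : Sylow 2 ↥(Subgroup.centralizer ({z} : Set G))) :
    ¬ 2 ∣ ((T : Subgroup ↥(Subgroup.centralizer ({z} : Set G))).map
      (Subgroup.centralizer ({z} : Set G)).subtype).index := by
  have hC : ∀ x, x ∈ Subgroup.centralizer ({z} : Set G) ↔ x * z = z * x := fun x =>
    Subgroup.mem_centralizer_singleton_iff
  have hC0 : ∀ x, x ∈ Subgroup.centralizer ({z0} : Set G0) ↔ x * z0 = z0 * x := fun x =>
    Subgroup.mem_centralizer_singleton_iff
  have hN0 : (Q.subgroupOf (Subgroup.centralizer ({z0} : Set G0))).Normal := by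
    constructor
    intro n hn g
    exact Subgroup.mem_subgroupOf.2 (h.conj_mem ((hC0 _).1 g.2) (Subgroup.mem_subgroupOf.1 hn))
  have hN0p : IsPGroup 2 (Q.subgroupOf (Subgroup.centralizer ({z0} : Set G0))) :=
    h.isPGroup.comap_of_injective _ (Subgroup.subtype_injective _)
  have hcent0 : ∀ x : ↥(Subgroup.centralizer ({z0} : Set G0)),
      (∀ q ∈ Q.subgroupOf (Subgroup.centralizer ({z0} : Set G0)), x * q = q * x) →
      x.1 = 1 ∨ x.1 = z0 := by
    intro x hx
    apply h.cent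
    intro q hq
    exact congrArg Subtype.val (hx ⟨q, h.Q_le hq⟩ (Subgroup.mem_subgroupOf.2 hq))
  have hzc : (e ⟨z, (hC z).2 rfl⟩).1 = z0 := by
    rcases hcent0 (e ⟨z, (hC z).2 rfl⟩) (by
      intro q _
      obtain ⟨q', rfl⟩ := e.surjective q
      rw [← map_mul, ← map_mul]
      congr 1
      exact Subtype.ext ((hC _).1 q'.2).symm) with h1 | h1
    · exfalso
      apply hz
      have h2 : e ⟨z, (hC z).2 rfl⟩ = 1 := Subtype.ext h1
      have h3 := (map_eq_one_iff e e.injective).1 h2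
      exact congrArg Subtype.val h3
    · exact h1
  have hNn : ((Q.subgroupOf (Subgroup.centralizer ({z0} : Set G0))).comap e.toMonoidHom).Normal :=
    hN0.comap _
  apply sylow_of_centralizer z hz _ hC
    ((Q.subgroupOf (Subgroup.centralizer ({z0} : Set G0))).comap e.toMonoidHom)
    (hN0p.comap_of_injective _ e.injective)
  · intro x hx
    rcases hcent0 (e x) (by
      intro q hq
      obtain ⟨q', rfl⟩ := e.surjective q
      rw [← map_mul, ← map_mul]
      congr 1
      exact hx q' hq) with h1 | h1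
    · left
      have h2 : e x = 1 := Subtype.ext h1
      have h3 := (map_eq_one_iff e e.injective).1 h2
      exact congrArg Subtype.val h3
    · right
      have h2 : e x = e ⟨z, (hC z).2 rfl⟩ := Subtype.ext (h1.trans hzc.symm)
      exact congrArg Subtype.val (e.injective h2)
  · intro x hx
    have hx' : x = ⟨z, (hC z).2 rfl⟩ := Subtype.ext hx
    rw [hx']
    show e ⟨z, (hC z).2 rfl⟩ ∈ Q.subgroupOf _
    rw [Subgroup.mem_subgroupOf, hzc]
    exact h.z_mem

/-- the case of the centraliser of a transvection in `SL(5,2)` -/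
theorem sylow_of_transvection_centralizer {G : Type*} [Group G] [Finite G]
    (s : Matrix.SpecialLinearGroup (Fin 5) (ZMod 2)) (hs : s.1 = Matrix.transvection 0 1 1)
    (z : G) (hz : z ≠ 1)
    (e : ↥(Subgroup.centralizer ({z} : Set G)) ≃*
      ↥(Subgroup.centralizer ({s} : Set (Matrix.SpecialLinearGroup (Fin 5) (ZMod 2)))))
    (T : Sylow 2 ↥(Subgroup.centralizer ({z} : Set G))) :
    ¬ 2 ∣ ((T : Subgroup ↥(Subgroup.centralizer ({z} : Set G))).map
      (Subgroup.centralizer ({z} : Set G)).subtype).index := by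
  obtain ⟨e0⟩ := es_HL.iso_centralizer es_cardC s hs
  exact sylow_of_esc_iso es_ESC z hz (e.trans e0.symm) T

end Cfsg.Agent.Lib.Helper34
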