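import Cfsg.Agent.Lib.Helper34.TernaryGolay
import Cfsg.Agent.Lib.Helper34.Mask

set_option autoImplicit false
open Cfsg

namespace Cfsg.Agent.Lib.Helper34

/-- Numbering of the twelve array positions. -/
def aidx (p : ArrayPt) : ℕ := 3 * p.1.val + p.2.val

theorem aidx_inj : Function.Injective aidx := by decide +kernel
theorem aidx_lt : ∀ a, aidx a < 12 := by decide +kernel
theorem aidx_surj : ∀ i < 12, ∃ a, aidx a = i := by decide +kernel

/-- Bit mask of the support of an encoded word. -/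
def maskW (a : P6) : ℕ := ∑ p : ArrayPt, if enc a p ≠ 0 then 2 ^ aidx p else 0

theorem supp_enc : ∀ a : P6, ternarySupport (enc a) = ofMask aidx (maskW a) := by decide +kernel

/-- The 132 hexads as bit masks. -/
def hexL : List ℕ := [63, 222, 237, 243, 347, 366, 373, 413, 427, 438, 455, 504, 591, 630, 633, 667, 679, 700, 725, 746, 791, 813, 826, 860, 867, 910, 945, 969, 978, 996, 1117, 1127, 1146, 1175, 1198, 1209, 1227, 1268, 1295, 1331, 1340, 1366, 1385, 1434, 1445, 1484, 1489, 1506, 1566, 1579, 1589, 1619, 1644, 1677, 1714, 1734, 1752, 1761, 1817, 1830, 1861, 1866, 1904, 1923, 1940, 1960, 2135, 2155, 2172, 2191, 2229, 2234, 2265, 2278, 2334, 2343, 2361, 2381, 2418, 2451, 2476, 2506, 2516, 2529, 2589, 2606, 2611, 2650, 2661, 2710, 2729, 2755, 2764, 2800, 2827, 2868, 2886, 2897, 2920, 2949, 2968, 2978, 3099, 3117, 3126, 3150, 3185, 3228, 3235, 3269, 3282, 3304, 3349, 3370, 3395, 3416, 3428, 3462, 3465, 3504, 3591, 3640, 3657, 3668, 3682, 3722, 3729, 3748, 3852,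 3858, 3873, 4032]

theorem hexImg : (Finset.univ.filter fun a : P6 => wt a = 6).image maskW = hexL.toFinset := by
  decide +kernel

theorem hexL_lt : ∀ h ∈ hexL, h < 2 ^ 12 := by decide +kernel

theorem hexL_card : hexL.toFinset.card = 132 := by decide +kernel

/-- The hexad system of the statement. -/
abbrev hexSet : Set (Finset ArrayPt) :=
  {h : Finset ArrayPt | ∃ x ∈ ternaryGolayCode, ternarySupport x = h ∧ h.card = 6}

theorem mem_hexSet_iff (h : Finset ArrayPt) : h ∈ hexSet ↔ ∃ m ∈ hexL, ofMask aidx m = h := by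
  constructor
  · rintro ⟨x, hx, rfl, h6⟩
    obtain ⟨a, rfl⟩ := (mem_code_iff_enc x).1 hx
    refine ⟨maskW a, ?_, (supp_enc a).symm⟩
    rw [← List.mem_toFinset, ← hexImg]
    exact Finset.mem_image_of_mem _ (Finset.mem_filter.2 ⟨Finset.mem_univ _, h6⟩)
  · rintro ⟨m, hm, rfl⟩
    rw [← List.mem_toFinset, ← hexImg] at hm
    obtain ⟨a, ha, rfl⟩ := Finset.mem_image.1 hm
    refine ⟨enc a, enc_mem a, supp_enc a, ?_⟩
    rw [← supp_enc]
    exact (Finset.mem_filter.1 ha).2

theorem steiner_check0 : ∀ a ∈ Finset.range 64, ∀ b ∈ Finset.range 64,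
    ((Finset.range 12).filter fun i => (64 * a + b).testBit i).card = 5 →
      (hexL.filter fun h => (64 * a + b) &&& h = (64 * a + b)).length = 1 := by decide +kernel

theorem steiner_check (m : ℕ) (hm : m ∈ Finset.range (2 ^ 12))
    (h : ((Finset.range 12).filter fun i => m.testBit i).card = 5) :
      (hexL.filter fun h => m &&& h = m).length = 1 := by
  have hm' : m < 4096 := by simpa using hm
  have := steiner_check0 (m / 64) (Finset.mem_range.2 (by omega)) (m % 64)
    (Finset.mem_range.2 (by omega))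
  rw [Nat.div_add_mod] at this
  exact this h

theorem hex_steiner : IsSteinerSystem 5 6 hexSet := by
  refine ⟨fun b hb => hb.choose_spec.2.2, fun s hs => ?_⟩
  obtain ⟨m, hm, rfl⟩ := exists_mask aidx aidx_inj 12 aidx_lt s
  rw [card_ofMask aidx aidx_inj 12 aidx_lt aidx_surj] at hs
  have h1 := steiner_check m (Finset.mem_range.2 hm) hs
  obtain ⟨h, hh⟩ := List.length_eq_one_iff.1 h1
  have key : ∀ k, (k ∈ hexL ∧ m &&& k = m) ↔ k = h := by
    intro k
    have : k ∈ hexL.filter (fun h => m &&& h = m) ↔ k ∈ [h] := by rw [hh]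
    simpa using this
  refine ⟨ofMask aidx h, ⟨(mem_hexSet_iff _).2 ⟨h, ((key h).2 rfl).1, rfl⟩,
    (ofMask_subset_iff aidx 12 aidx_surj hm).2 ((key h).2 rfl).2⟩, ?_⟩
  rintro b ⟨hb, hsb⟩
  obtain ⟨k, hk, rfl⟩ := (mem_hexSet_iff _).1 hb
  rw [(key k).1 ⟨hk, (ofMask_subset_iff aidx 12 aidx_surj hm).1 hsb⟩]

theorem hex_ncard : hexSet.ncard = 132 := by
  have : hexSet = ofMask aidx '' (↑hexL.toFinset : Set ℕ) := by
    ext h
    rw [mem_hexSet_iff]
    simp
  rw [this, Set.InjOn.ncard_image, Set.ncard_coe_finset, hexL_card]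
  intro a ha b hb e
  exact ofMask_inj aidx 12 aidx_surj (hexL_lt a (by simpa using ha)) (hexL_lt b (by simpa using hb)) e

end Cfsg.Agent.Lib.Helper34
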